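import Mathlib
import Cfsg.Agent.Helper71.SQDefs
import Cfsg.Agent.Helper58.SOTools

/-!
# CALL S5867 (helper71), PIECE ZB1: `levi_graded` (helper72)

`V = F^m ⊗ F^n` with the alternating form `J ⊗ S`.  A symplectic `k` preserving `W = a ⊗ F^n`
and normalising the root elements `Eay J a y ⊗ 1` is graded: it acts on `W` through a similarity
`B` of `S` and on `a^⊥ ⊗ F^n` modulo `W` as `A₁ ⊗ B`.
-/

set_option autoImplicit false
set_option linter.unusedVariables false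

namespace Cfsg.Agent.Helper72.SQZB1

open Matrix Cfsg.Agent.Helper71.T4 Cfsg.Agent.Helper71.SO Cfsg.Agent.Helper71.SQ
open Cfsg.Agent.Helper96.T5 Cfsg.Agent.Helper58.SOT
open scoped Kronecker

variable {F : Type*} [Field F] {m n : ℕ}

/-- left contraction against the functional `α` -/
def lc (α : Fin m → F) (v : Fin m × Fin n → F) : Fin n → F := fun l => ∑ i, α i * v (i, l)

theorem lc_pt (α x : Fin m → F) (b : Fin n → F) : lc α (pt x b) = (α ⬝ᵥ x) • b := by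
  ext l
  simp only [lc, pt, dotProduct, Pi.smul_apply, smul_eq_mul, Finset.sum_mul, mul_assoc]

theorem lc_J_pt (J : Matrix (Fin m) (Fin m) F) (a x : Fin m → F) (b : Fin n → F) :
    lc (J *ᵥ a) (pt x b) = bl J x a • b := by
  rw [lc_pt, dotProduct_comm]
  rfl

theorem lc_smul_left (c : F) (α : Fin m → F) (v : Fin m × Fin n → F) :
    lc (c • α) v = c • lc α v := by
  ext l
  simp only [lc, Pi.smul_apply, smul_eq_mul, Finset.mul_sum, mul_assoc]

theorem zpt_sub_right (a : Fin m → F) (w w' : Fin n → F) : pt a (w - w') = pt a w - pt a w' := by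
  ext p; simp [pt, mul_sub]

theorem zpt_right_inj (a : Fin m → F) (ha : a ≠ 0) (b b' : Fin n → F) (h : pt a b = pt a b') :
    b = b' := by
  obtain ⟨i, hi⟩ : ∃ i, a i ≠ 0 := by
    by_contra h0
    push Not at h0
    exact ha (funext h0)
  ext l
  have := congrFun h (i, l)
  simp only [pt] at this
  exact mul_left_cancel₀ hi this

theorem kron_one_mulVec_apply (A : Matrix (Fin m) (Fin m) F) (v : Fin m × Fin n → F) (i : Fin m)
    (l : Fin n) :
    ((A ⊗ₖ (1 : Matrix (Fin n) (Fin n) F)) *ᵥ v) (i, l) = ∑ i', A i i' * v (i', l) := by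
  simp only [Matrix.mulVec, dotProduct, Fintype.sum_prod_type, Matrix.kroneckerMap_apply,
    Matrix.one_apply]
  refine Finset.sum_congr rfl fun i' _ => ?_
  simp [mul_ite, ite_mul]

/-- the action of a root element `Eay J a y ⊗ 1` on an arbitrary vector -/
theorem eay_kron_mulVec (J : Matrix (Fin m) (Fin m) F) (a y : Fin m → F)
    (v : Fin m × Fin n → F) :
    (Eay J a y ⊗ₖ (1 : Matrix (Fin n) (Fin n) F)) *ᵥ v
      = v + pt y (lc (J *ᵥ a) v) + pt a (lc (J *ᵥ y) v) := by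
  ext ⟨i, l⟩
  rw [kron_one_mulVec_apply]
  simp only [Eay, Matrix.add_apply, Matrix.one_apply, Matrix.vecMulVec_apply, add_mul,
    Finset.sum_add_distrib, ite_mul, one_mul, zero_mul, Finset.sum_ite_eq, Finset.mem_univ,
    if_true, Pi.add_apply, pt, lc, Finset.mul_sum, mul_assoc]

/-- `ω(v, a ⊗ b)` through the contraction -/
theorem om_pt_right (J : Matrix (Fin m) (Fin m) F) (S : Matrix (Fin n) (Fin n) F)
    (v : Fin m × Fin n → F) (a : Fin m → F) (b : Fin n → F) :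
    bf (OmG J S) v (pt a b) = bl S (lc (J *ᵥ a) v) b := by
  unfold OmG bf bl
  rw [kron_mulVec_pt]
  generalize J *ᵥ a = α
  generalize S *ᵥ b = σ
  simp only [lc, dotProduct, pt, Fintype.sum_prod_type, Finset.sum_mul]
  rw [Finset.sum_comm]
  refine Finset.sum_congr rfl fun l _ => Finset.sum_congr rfl fun i _ => ?_
  ring

/-- the contraction of `k (x ⊗ b)` is linear in `b` -/
theorem lc_mulVec_pt_eq (α : Fin m → F) (k : Matrix (Fin m × Fin n) (Fin m × Fin n) F)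
    (x : Fin m → F) : ∃ C : Matrix (Fin n) (Fin n) F, ∀ b, C *ᵥ b = lc α (k *ᵥ pt x b) := by
  refine ⟨Matrix.of fun l l' => ∑ i, ∑ i', α i * k (i, l) (i', l') * x i', fun b => ?_⟩
  ext l
  simp only [Matrix.mulVec, dotProduct, Matrix.of_apply, lc, pt, Fintype.sum_prod_type,
    Finset.sum_mul, Finset.mul_sum]
  rw [Finset.sum_comm]
  refine Finset.sum_congr rfl fun i _ => ?_
  rw [Finset.sum_comm]
  refine Finset.sum_congr rfl fun i' _ => Finset.sum_congr rfl fun l' _ => ?_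
  ring

/-- a coordinate slice of `k (x ⊗ b₀)` is linear in `x` -/
theorem slice_mulVec_pt_eq (l₀ : Fin n) (k : Matrix (Fin m × Fin n) (Fin m × Fin n) F)
    (b₀ : Fin n → F) (c : F) :
    ∃ A₁ : Matrix (Fin m) (Fin m) F, ∀ x i, (A₁ *ᵥ x) i = c * (k *ᵥ pt x b₀) (i, l₀) := by
  refine ⟨c • Matrix.of fun i i' => ∑ l', k (i, l₀) (i', l') * b₀ l', fun x i => ?_⟩
  rw [Matrix.smul_mulVec, Pi.smul_apply, smul_eq_mul]
  congr 1
  simp only [Matrix.mulVec, dotProduct, Matrix.of_apply, pt, Fintype.sum_prod_type,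
    Finset.sum_mul]
  refine Finset.sum_congr rfl fun i' _ => Finset.sum_congr rfl fun l' _ => ?_
  ring

/-! ## Piece ZB1 -/
theorem levi_graded (hn : 0 < n) (h2 : (2 : F) ≠ 0) (J : Matrix (Fin m) (Fin m) F)
    (hJ : Jᵀ = -J) (hdetJ : J.det ≠ 0) (S : Matrix (Fin n) (Fin n) F) (hS : Sᵀ = S)
    (hdetS : S.det ≠ 0) (a a₁ : Fin m → F) (ha : a ≠ 0) (haa₁ : bl J a a₁ = 1)
    (k : Matrix (Fin m × Fin n) (Fin m × Fin n) F) (hkdet : k.det ≠ 0) (hksp : IsSpG J S k)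
    (hka : ∀ b : Fin n → F, ∃ b' : Fin n → F, k *ᵥ pt a b = pt a b')
    (hconj : ∀ y : Fin m → F, bl J a y = 0 → ∃ y' : Fin m → F, bl J a y' = 0 ∧
      k * (Eay J a y ⊗ₖ (1 : Matrix (Fin n) (Fin n) F))
        = (Eay J a y' ⊗ₖ (1 : Matrix (Fin n) (Fin n) F)) * k) :
    ∃ (B : Matrix (Fin n) (Fin n) F) (A₁ : Matrix (Fin m) (Fin m) F) (μ ν : F),
      ν * μ = 1 ∧ Bᵀ * S * B = μ • S ∧
      (∀ b : Fin n → F, k *ᵥ pt a b = pt a (B *ᵥ b)) ∧
      (∀ y : Fin m → F, bl J a y = 0 → bl J a (A₁ *ᵥ y) = 0) ∧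
      (∀ y y' : Fin m → F, bl J a y = 0 → bl J a y' = 0 →
        bl J (A₁ *ᵥ y) (A₁ *ᵥ y') = ν * bl J y y') ∧
      (∀ (y : Fin m → F) (b : Fin n → F), bl J a y = 0 → ∃ d : Fin n → F,
        k *ᵥ pt y b = pt (A₁ *ᵥ y) (B *ᵥ b) + pt a d) := by
  classical
  -- the alternating form `bl J`
  have hJsw : ∀ x y : Fin m → F, bl J x y = - bl J y x := by
    intro x y
    unfold bl
    rw [Matrix.dotProduct_mulVec, ← Matrix.mulVec_transpose, hJ, Matrix.neg_mulVec,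
      neg_dotProduct, dotProduct_comm]
  have hJalt : ∀ x : Fin m → F, bl J x x = 0 := by
    intro x
    have e1 := hJsw x x
    have e2 : (2 : F) * bl J x x = 0 := by linear_combination e1
    rcases mul_eq_zero.mp e2 with h | h
    · exact absurd h h2
    · exact h
  have haa : bl J a a = 0 := hJalt a
  -- invariance of the form
  have hksp' : kᵀ * OmG J S * k = OmG J S := hksp
  have hom : ∀ x y : Fin m × Fin n → F,
      bf (OmG J S) (k *ᵥ x) (k *ᵥ y) = bf (OmG J S) x y := by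
    intro x y
    have e : x ⬝ᵥ (kᵀ * OmG J S * k) *ᵥ y = bf (OmG J S) (k *ᵥ x) (k *ᵥ y) := by
      unfold bf
      rw [Matrix.mul_assoc, ← Matrix.mulVec_mulVec, Matrix.dotProduct_mulVec,
        Matrix.vecMul_transpose, ← Matrix.mulVec_mulVec]
    rw [← e, hksp']
    rfl
  have hompt : ∀ (x x' : Fin m → F) (b b' : Fin n → F),
      bf (OmG J S) (pt x b) (pt x' b') = bl J x x' * bl S b b' :=
    fun x x' b b' => bf_kron_pt J S x x' b b'
  choose β hβ using hka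
  obtain ⟨u₁, hu₁a⟩ : ∃ u₁ : Fin m → F, bl J u₁ a = 1 :=
    ⟨-a₁, by rw [bl_neg_left, hJsw, haa₁, neg_neg]⟩
  -- a pair with nonzero product
  obtain ⟨b₁, b₁', hbb⟩ : ∃ b b' : Fin n → F, bl S b b' ≠ 0 := by
    by_contra hcon
    push Not at hcon
    apply hdetS
    have hS0 : S = 0 := by
      ext l l'
      have := hcon (Pi.single l 1) (Pi.single l' 1)
      simpa [bl] using this
    rw [hS0]
    have : Nonempty (Fin n) := ⟨⟨0, hn⟩⟩
    exact Matrix.det_zero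
  -- the matrix `C`
  obtain ⟨C, hC⟩ := lc_mulVec_pt_eq (J *ᵥ a) k u₁
  have hdag : ∀ b b' : Fin n → F, bl S (C *ᵥ b) (β b') = bl S b b' := by
    intro b b'
    have h := hom (pt u₁ b) (pt a b')
    rw [hβ, om_pt_right, hompt, hu₁a, one_mul, ← hC] at h
    exact h
  -- the conjugation relation evaluated on a vector
  have hstar2 : ∀ y : Fin m → F, bl J a y = 0 → ∃ y' : Fin m → F, bl J a y' = 0 ∧
      ∀ v : Fin m × Fin n → F, k *ᵥ pt y (lc (J *ᵥ a) v)
        = pt y' (lc (J *ᵥ a) (k *ᵥ v)) + pt a (lc (J *ᵥ y') (k *ᵥ v) - β (lc (J *ᵥ y) v)) := by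
    intro y hy
    obtain ⟨y', hy', hrel⟩ := hconj y hy
    refine ⟨y', hy', fun v => ?_⟩
    have h1 : k *ᵥ ((Eay J a y ⊗ₖ (1 : Matrix (Fin n) (Fin n) F)) *ᵥ v) =
        (Eay J a y' ⊗ₖ (1 : Matrix (Fin n) (Fin n) F)) *ᵥ (k *ᵥ v) := by
      rw [Matrix.mulVec_mulVec, Matrix.mulVec_mulVec, hrel]
    rw [eay_kron_mulVec, eay_kron_mulVec, Matrix.mulVec_add, Matrix.mulVec_add, hβ] at h1
    rw [zpt_sub_right]
    calc k *ᵥ pt y (lc (J *ᵥ a) v)
        = (k *ᵥ v + k *ᵥ pt y (lc (J *ᵥ a) v) + pt a (β (lc (J *ᵥ y) v))) - k *ᵥ v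
          - pt a (β (lc (J *ᵥ y) v)) := by abel
      _ = (k *ᵥ v + pt y' (lc (J *ᵥ a) (k *ᵥ v)) + pt a (lc (J *ᵥ y') (k *ᵥ v))) - k *ᵥ v
          - pt a (β (lc (J *ᵥ y) v)) := by rw [h1]
      _ = pt y' (lc (J *ᵥ a) (k *ᵥ v)) + (pt a (lc (J *ᵥ y') (k *ᵥ v))
          - pt a (β (lc (J *ᵥ y) v))) := by abel
  have hstar : ∀ y : Fin m → F, bl J a y = 0 → ∃ y' : Fin m → F, bl J a y' = 0 ∧
      ∀ b : Fin n → F, ∃ d : Fin n → F, k *ᵥ pt y b = pt y' (C *ᵥ b) + pt a d := by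
    intro y hy
    obtain ⟨y', hy', h⟩ := hstar2 y hy
    refine ⟨y', hy', fun b => ?_⟩
    have h1 := h (pt u₁ b)
    rw [lc_J_pt, hu₁a, one_smul, ← hC] at h1
    exact ⟨_, h1⟩
  have hCb : C *ᵥ b₁ ≠ 0 := by
    intro h
    apply hbb
    have := hdag b₁ b₁'
    rw [h, bl_zero_left] at this
    exact this.symm
  obtain ⟨l₁, hl₁⟩ : ∃ l, (C *ᵥ b₁) l ≠ 0 := by
    by_contra h0
    push Not at h0
    exact hCb (funext h0)
  -- the multiplier
  obtain ⟨y₀', hy₀', hst0⟩ := hstar2 a haa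
  obtain ⟨lam, hlam⟩ : ∃ lam : F, y₀' = lam • a := by
    have h1 := hst0 (pt u₁ b₁)
    rw [lc_J_pt, hu₁a, one_smul, hβ, ← hC] at h1
    refine ⟨(β b₁ - (lc (J *ᵥ y₀') (k *ᵥ pt u₁ b₁) - β b₁)) l₁ / (C *ᵥ b₁) l₁, ?_⟩
    ext i
    have h3 := congrFun h1 (i, l₁)
    simp only [pt, Pi.add_apply, Pi.sub_apply, Pi.smul_apply, smul_eq_mul] at h3 ⊢
    field_simp
    linear_combination -h3
  subst hlam
  have hBC : ∀ b : Fin n → F, β b = lam • C *ᵥ b := by
    intro b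
    have h := hst0 (pt u₁ b)
    rw [lc_J_pt, hu₁a, one_smul, hβ, ← hC, Matrix.mulVec_smul, lc_smul_left, ← hC, pt_smul_left,
      ← pt_smul_right, ← pt_add_right] at h
    have h' := zpt_right_inj a ha _ _ h
    ext l
    have h3 := congrFun h' l
    simp only [Pi.add_apply, Pi.sub_apply, Pi.smul_apply, smul_eq_mul] at h3 ⊢
    have h4 : (2 : F) * (β b l - lam * (C *ᵥ b) l) = 0 := by linear_combination h3
    rcases mul_eq_zero.mp h4 with h | h
    · exact absurd h h2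
    · linear_combination h
  have hlam0 : lam ≠ 0 := by
    rintro rfl
    apply hbb
    have := hdag b₁ b₁'
    rw [hBC b₁', zero_smul, bl_zero_right] at this
    exact this.symm
  have hBb : ∀ b : Fin n → F, (lam • C) *ᵥ b = β b := by
    intro b
    rw [Matrix.smul_mulVec, hBC]
  have hBS : ∀ b b' : Fin n → F, bl S ((lam • C) *ᵥ b) ((lam • C) *ᵥ b') = lam * bl S b b' := by
    intro b b'
    rw [hBb b', Matrix.smul_mulVec, bl_smul_left, hdag]
  have hBmat : (lam • C)ᵀ * S * (lam • C) = lam • S := by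
    apply mat_eq_of_bl
    intro x y
    have e : x ⬝ᵥ ((lam • C)ᵀ * S * (lam • C)) *ᵥ y
        = bl S ((lam • C) *ᵥ x) ((lam • C) *ᵥ y) := by
      unfold bl
      rw [Matrix.mul_assoc, ← Matrix.mulVec_mulVec, Matrix.dotProduct_mulVec,
        Matrix.vecMul_transpose, ← Matrix.mulVec_mulVec]
    rw [e, hBS, Matrix.smul_mulVec, dotProduct_smul, smul_eq_mul]
    rfl
  -- the matrix `A₁`
  have hBb₁ : ((lam • C) *ᵥ b₁) l₁ ≠ 0 := by
    rw [Matrix.smul_mulVec, Pi.smul_apply, smul_eq_mul]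
    exact mul_ne_zero hlam0 hl₁
  obtain ⟨A₁, hA₁⟩ := slice_mulVec_pt_eq l₁ k b₁ (((lam • C) *ᵥ b₁) l₁)⁻¹
  have hkey : ∀ y : Fin m → F, bl J a y = 0 → ∃ (y' : Fin m → F) (s : F), bl J a y' = 0 ∧
      A₁ *ᵥ y = lam⁻¹ • y' + s • a ∧
      ∀ b : Fin n → F, ∃ d : Fin n → F,
        k *ᵥ pt y b = pt (A₁ *ᵥ y) ((lam • C) *ᵥ b) + pt a d := by
    intro y hy
    obtain ⟨y', hy', hst⟩ := hstar y hy
    obtain ⟨d₁, hd₁⟩ := hst b₁
    have hAy : A₁ *ᵥ y = lam⁻¹ • y' + ((((lam • C) *ᵥ b₁) l₁)⁻¹ * d₁ l₁) • a := by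
      ext i
      rw [hA₁, hd₁]
      rw [Matrix.smul_mulVec, Pi.smul_apply, smul_eq_mul] at hBb₁ ⊢
      simp only [pt, Pi.add_apply, Pi.smul_apply, smul_eq_mul]
      field_simp
    refine ⟨y', _, hy', hAy, fun b => ?_⟩
    obtain ⟨d, hd⟩ := hst b
    refine ⟨d - ((((lam • C) *ᵥ b₁) l₁)⁻¹ * d₁ l₁ * lam) • C *ᵥ b, ?_⟩
    rw [hd, hAy]
    ext ⟨i, l⟩
    simp only [pt, Pi.add_apply, Pi.sub_apply, Pi.smul_apply, smul_eq_mul, Matrix.smul_mulVec]
    field_simp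
    ring
  have hA₁a : ∀ y : Fin m → F, bl J a y = 0 → bl J a (A₁ *ᵥ y) = 0 := by
    intro y hy
    obtain ⟨y', s, hy', hAy, -⟩ := hkey y hy
    rw [hAy, bl_add_right, bl_smul_right, bl_smul_right, hy', haa]
    ring
  refine ⟨lam • C, A₁, lam, lam⁻¹, inv_mul_cancel₀ hlam0, hBmat,
    fun b => by rw [hβ, hBb], hA₁a, ?_, ?_⟩
  · intro y z hy hz
    obtain ⟨y', s, hy', hAy, hky⟩ := hkey y hy
    obtain ⟨z', t, hz', hAz, hkz⟩ := hkey z hz
    obtain ⟨d, hd⟩ := hky b₁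
    obtain ⟨d', hd'⟩ := hkz b₁'
    have h := hom (pt y b₁) (pt z b₁')
    rw [hd, hd', hompt, bf_add_left, bf_add_right, bf_add_right, hompt, hompt, hompt, hompt,
      hBS, hA₁a z hz, haa, hJsw (A₁ *ᵥ y) a, hA₁a y hy] at h
    have h5 : bl J (A₁ *ᵥ y) (A₁ *ᵥ z) * lam = bl J y z := by
      apply mul_right_cancel₀ hbb
      linear_combination h
    rw [← h5]
    field_simp
  · intro y b hy
    obtain ⟨y', s, hy', hAy, hky⟩ := hkey y hy
    exact hky b

end Cfsg.Agent.Helper72.SQZB1
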