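import Mathlib
import Cfsg.Agent.Helper15.B42Defs
import Cfsg.Agent.Helper77.D1Final
import Cfsg.Agent.Helper29.D1IL
import Cfsg.Agent.Helper79.S4441Setup
import Cfsg.Agent.Helper79.Basic
import Cfsg.Agent.Helper81.CharBasic
import Cfsg.Agent.Helper3.Induced
import Cfsg.Agent.Helper3.Frobenius
import Cfsg.Agent.Helper75.Eigen
import Cfsg.Agent.Helper75.Galois
import Cfsg.Agent.Helper15.BergerTools

/-!
# Brauer 1942 (CALL S4503): core lemmas on the restriction of a character to `⟨x⟩`, `x ^ p = 1`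
(helper72): eigenvalue multiset, `b42Fix` is the multiplicity of the eigenvalue `1`.
-/

universe u
set_option autoImplicit false
open Cfsg Cfsg.Agent.Helper77 Cfsg.Agent.Helper15
open scoped ComplexConjugate

namespace Cfsg.Agent.Helper72

variable {G : Type u} [Group G] [Finite G]

/-- Geometric sum over a `p`-th root of unity. -/
theorem b42c_geom (p : ℕ) (μ : ℂ) (hμ : μ ^ p = 1) :
    ∑ b ∈ Finset.range p, μ ^ b = if μ = 1 then (p : ℂ) else 0 := by
  split_ifs with h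
  · subst h; simp
  · have h1 := geom_sum_mul μ p
    rw [hμ, sub_self] at h1
    rcases mul_eq_zero.mp h1 with h2 | h2
    · exact h2
    · exact absurd (sub_eq_zero.mp h2) h

/-- Summing the power sums of a multiset of `p`-th roots of unity counts the `1`s. -/
theorem b42c_multiset (p : ℕ) (s : Multiset ℂ) (hs : ∀ μ ∈ s, μ ^ p = 1) :
    ∑ b ∈ Finset.range p, (s.map (fun μ => μ ^ b)).sum = (p : ℂ) * (s.count 1 : ℂ) := by
  classical
  induction s using Multiset.induction_on with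
  | empty => simp
  | cons a s ih =>
    have ih' := ih (fun μ hμ => hs μ (Multiset.mem_cons_of_mem hμ))
    simp only [Multiset.map_cons, Multiset.sum_cons, Finset.sum_add_distrib, ih']
    rw [b42c_geom p a (hs a (Multiset.mem_cons_self a s)), Multiset.count_cons]
    by_cases h1 : a = 1
    · rw [if_pos h1, if_pos h1.symm]; push_cast; ring
    · rw [if_neg h1, if_neg (fun h => h1 h.symm)]; push_cast; ring

/-- The eigenvalue multiset of a character at an element with `x ^ p = 1`. -/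
theorem b42c_eig (p : ℕ) (hp : p ≠ 0) (x : G) (hx : x ^ p = 1) (χ : G → ℂ)
    (hχ : Cfsg.IsCharacter G χ) :
    ∃ s : Multiset ℂ, (∀ μ ∈ s, μ ^ p = 1) ∧ χ 1 = (Multiset.card s : ℂ) ∧
      ∀ k : ℕ, χ (x ^ k) = (s.map (fun μ => μ ^ k)).sum := by
  obtain ⟨n, ρ, rfl⟩ := hχ
  have hf : (ρ x) ^ p = 1 := by rw [← map_pow, hx, map_one]
  obtain ⟨s, hs1, hs2, hs3⟩ := Cfsg.Agent.Helper75.exists_eigen_multiset (ρ x) p hp hf
  refine ⟨s, hs1, ?_, ?_⟩
  · rw [Representation.char_one, hs2]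
  · intro k
    show LinearMap.trace ℂ _ (ρ (x ^ k)) = _
    rw [map_pow, hs3 k]

/-- `b42Fix` of a character is the multiplicity of the eigenvalue `1`. -/
theorem b42c_fix_count (p : ℕ) (hp : p ≠ 0) (x : G) (χ : G → ℂ) (s : Multiset ℂ)
    (hs1 : ∀ μ ∈ s, μ ^ p = 1) (hs3 : ∀ k : ℕ, χ (x ^ k) = (s.map (fun μ => μ ^ k)).sum) :
    b42Fix p x χ = (s.count 1 : ℂ) := by
  classical
  unfold b42Fix
  rw [Finset.sum_congr rfl (fun b _ => hs3 b), b42c_multiset p s hs1, ← mul_assoc,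
    inv_mul_cancel₀ (Nat.cast_ne_zero.mpr hp), one_mul]

/-- Degree and `b42Fix` of a character are natural numbers `m₀ ≤ n`. -/
theorem b42c_nat (p : ℕ) (hp : p ≠ 0) (x : G) (hx : x ^ p = 1) (χ : G → ℂ)
    (hχ : Cfsg.IsCharacter G χ) :
    ∃ n m₀ : ℕ, m₀ ≤ n ∧ χ 1 = (n : ℂ) ∧ b42Fix p x χ = (m₀ : ℂ) := by
  classical
  obtain ⟨s, hs1, hs2, hs3⟩ := b42c_eig p hp x hx χ hχ
  exact ⟨Multiset.card s, s.count 1, Multiset.count_le_card 1 s, hs2,
    b42c_fix_count p hp x χ s hs1 hs3⟩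

/-- `χ 1 - b42Fix χ` is a natural number. -/
theorem b42c_diff_nat (p : ℕ) (hp : p ≠ 0) (x : G) (hx : x ^ p = 1) (χ : G → ℂ)
    (hχ : Cfsg.IsCharacter G χ) :
    ∃ d : ℕ, χ 1 - b42Fix p x χ = (d : ℂ) := by
  obtain ⟨n, m₀, hle, h1, h2⟩ := b42c_nat p hp x hx χ hχ
  exact ⟨n - m₀, by rw [h1, h2, Nat.cast_sub hle]⟩

/-- Linearity of `b42Fix`. -/
theorem b42c_fix_sum {ι : Type*} (p : ℕ) (x : G) (t : Finset ι) (c : ι → ℂ) (f : ι → G → ℂ) :
    b42Fix p x (∑ i ∈ t, c i • f i) = ∑ i ∈ t, c i * b42Fix p x (f i) := by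
  unfold b42Fix
  simp only [Finset.sum_apply, Pi.smul_apply, smul_eq_mul]
  rw [Finset.sum_comm, Finset.mul_sum]
  refine Finset.sum_congr rfl (fun i _ => ?_)
  rw [← Finset.mul_sum]; ring

/-- A character with constant integer value `r` on the nontrivial powers of `x`: either `x` is in
the kernel or `χ 1 - b42Fix χ ≥ p - 1`. -/
theorem b42c_int (p : ℕ) [Fact p.Prime] (x : G) (hx : orderOf x = p) (χ : G → ℂ)
    (hχ : Cfsg.IsCharacter G χ) (r : ℤ) (hr : ∀ b : ℕ, ¬ p ∣ b → χ (x ^ b) = (r : ℂ)) :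
    χ x = χ 1 ∨ ∃ m : ℕ, χ 1 - b42Fix p x χ = (m : ℂ) ∧ p - 1 ≤ m := by
  classical
  have hpp : p.Prime := Fact.out
  have hp : p ≠ 0 := hpp.ne_zero
  have hxp : x ^ p = 1 := by rw [← hx]; exact pow_orderOf_eq_one x
  obtain ⟨s, hs1, hs2, hs3⟩ := b42c_eig p hp x hxp χ hχ
  have hfix : b42Fix p x χ = (s.count 1 : ℂ) := b42c_fix_count p hp x χ s hs1 hs3
  have hsum : ∑ b ∈ Finset.range p, χ (x ^ b)
      = (Multiset.card s : ℂ) + ((p : ℂ) - 1) * (r : ℂ) := by
    obtain ⟨k, hk⟩ : ∃ k, p = k + 1 := ⟨p - 1, by omega⟩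
    rw [hk, Finset.sum_range_succ', pow_zero, hs2]
    have : ∀ b ∈ Finset.range k, χ (x ^ (b + 1)) = (r : ℂ) := by
      intro b hb
      apply hr
      rw [Finset.mem_range] at hb
      exact Nat.not_dvd_of_pos_of_lt (Nat.succ_pos b) (by omega)
    rw [Finset.sum_congr rfl this, Finset.sum_const, Finset.card_range]
    push_cast
    rw [nsmul_eq_mul]; ring
  have hsum2 : ∑ b ∈ Finset.range p, χ (x ^ b) = (p : ℂ) * (s.count 1 : ℂ) := by
    rw [← b42c_multiset p s hs1]; exact Finset.sum_congr rfl (fun b _ => hs3 b)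
  have hZ : (p : ℤ) * (s.count 1 : ℤ) = (Multiset.card s : ℤ) + ((p : ℤ) - 1) * r := by
    have : (((p : ℤ) * (s.count 1 : ℤ) : ℤ) : ℂ)
        = (((Multiset.card s : ℤ) + ((p : ℤ) - 1) * r : ℤ) : ℂ) := by
      push_cast; rw [← hsum2, hsum]
    exact_mod_cast this
  have hle : s.count 1 ≤ Multiset.card s := Multiset.count_le_card 1 s
  rcases Nat.eq_or_lt_of_le hle with heq | hlt
  · left
    have hall : ∀ μ ∈ s, (1 : ℂ) = μ := Multiset.count_eq_card.mp heq
    have h1 := hs3 1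
    rw [pow_one] at h1
    rw [h1, hs2]
    have : s.map (fun μ => μ ^ 1) = s.map (fun _ => (1 : ℂ)) :=
      Multiset.map_congr rfl (fun μ hμ => by rw [pow_one, ← hall μ hμ])
    rw [this, Multiset.map_const', Multiset.sum_replicate]; simp
  · right
    refine ⟨Multiset.card s - s.count 1, ?_, ?_⟩
    · rw [hs2, hfix, Nat.cast_sub hle]
    · have h2p : 2 ≤ p := hpp.two_le
      have e : ((Multiset.card s - s.count 1 : ℕ) : ℤ)
          = ((p : ℤ) - 1) * ((s.count 1 : ℤ) - r) := by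
        rw [Nat.cast_sub hle]; linarith
      have hpos : (0 : ℤ) < ((p : ℤ) - 1) * ((s.count 1 : ℤ) - r) := by
        rw [← e]; exact_mod_cast Nat.sub_pos_of_lt hlt
      have hp1 : (0 : ℤ) < (p : ℤ) - 1 := by
        have : (2 : ℤ) ≤ p := by exact_mod_cast h2p
        linarith
      have h3 : (0 : ℤ) < (s.count 1 : ℤ) - r := by
        by_contra hcon
        push_neg at hcon
        have := mul_nonpos_of_nonneg_of_nonpos hp1.le hcon
        linarith
      have h4 : ((p : ℤ) - 1) ≤ ((Multiset.card s - s.count 1 : ℕ) : ℤ) := by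
        rw [e]; nlinarith
      omega

end Cfsg.Agent.Helper72
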