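import Mathlib
import Cfsg.Agent.Helper15.B42Defs
import Cfsg.Agent.Helper77.D1Final
import Cfsg.Agent.Helper29.D1IL
import Cfsg.Agent.Helper79.S4441Setup
import Cfsg.Agent.Helper79.Basic
import Cfsg.Agent.Helper81.CharBasic
import Cfsg.Agent.Helper3.Induced
import Cfsg.Agent.Helper3.Frobenius
import Cfsg.Agent.Helper72.B42Core

universe u
set_option autoImplicit false
open Cfsg Cfsg.Agent.Helper77 Cfsg.Agent.Helper15
open scoped ComplexConjugate

namespace Cfsg.Agent.Helper72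

variable {G : Type u} [Group G] [Finite G]

/-- FIXLE -/
theorem b42_fix_le (p : ℕ) [Fact p.Prime] [Fintype G] (x : G) (hx : orderOf x = p) (α : G → ℂ)
    (hα : Cfsg.IsCharacter G α) (h0 : b42Fix p x α = 0) (ζ : Cfsg.IrrCharacter G)
    (hζ : Cfsg.classInner α (ζ : G → ℂ) ≠ 0) : b42Fix p x (ζ : G → ℂ) = 0 := by
  classical
  have hpp : p.Prime := Fact.out
  have hp : p ≠ 0 := hpp.ne_zero
  have hxp : x ^ p = 1 := by rw [← hx]; exact pow_orderOf_eq_one x
  have := Fintype.ofFinite (Cfsg.IrrCharacter G)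
  obtain ⟨m, hm1, hm2⟩ := Cfsg.Agent.Helper15.char_decomp α hα
  have hlin : b42Fix p x α = ∑ φ : Cfsg.IrrCharacter G, (m φ : ℂ) * b42Fix p x (φ : G → ℂ) := by
    conv_lhs => rw [hm2]
    exact b42c_fix_sum p x Finset.univ (fun φ => (m φ : ℂ)) (fun φ => (φ : G → ℂ))
  have hnat : ∀ φ : Cfsg.IrrCharacter G, ∃ k : ℕ, b42Fix p x (φ : G → ℂ) = (k : ℂ) := by
    intro φ
    obtain ⟨n, m₀, -, -, h2⟩ := b42c_nat p hp x hxp (φ : G → ℂ)
      (Cfsg.Agent.Helper79.isCharacter_of_irr φ.2)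
    exact ⟨m₀, h2⟩
  choose k hk using hnat
  have hsum : ∑ φ : Cfsg.IrrCharacter G, m φ * k φ = 0 := by
    have : ((∑ φ : Cfsg.IrrCharacter G, m φ * k φ : ℕ) : ℂ) = 0 := by
      rw [← h0, hlin]; push_cast
      exact Finset.sum_congr rfl (fun φ _ => by rw [hk φ])
    exact_mod_cast this
  have hz := (Finset.sum_eq_zero_iff.mp hsum) ζ (Finset.mem_univ ζ)
  have hmζ : m ζ ≠ 0 := by
    intro h; apply hζ; rw [hm1 ζ, h]; simp
  rcases Nat.mul_eq_zero.mp hz with h | h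
  · exact absurd h hmζ
  · rw [hk ζ, h]; simp

end Cfsg.Agent.Helper72
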