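import Mathlib
import Cfsg.Agent.Helper15.B42Defs
import Cfsg.Agent.Helper77.D1Final
import Cfsg.Agent.Helper29.D1IL
import Cfsg.Agent.Helper79.S4441Setup
import Cfsg.Agent.Helper79.Basic
import Cfsg.Agent.Helper81.CharBasic
import Cfsg.Agent.Helper3.Induced
import Cfsg.Agent.Helper3.Frobenius
import Cfsg.Agent.Helper72.B42Core

universe u
set_option autoImplicit false
open Cfsg Cfsg.Agent.Helper77 Cfsg.Agent.Helper15
open scoped ComplexConjugate

namespace Cfsg.Agent.Helper72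

variable {G : Type u} [Group G] [Finite G]

/-- LA -/
theorem b42_int_value (p : ℕ) [Fact p.Prime] (x : G) (hx : orderOf x = p) (χ : G → ℂ)
    (hχ : Cfsg.IsCharacter G χ) (r : ℤ) (hr : χ x = (r : ℂ)) :
    χ x = χ 1 ∨ p - 1 ≤ Cfsg.charDegree χ := by
  have hpp : p.Prime := Fact.out
  have hp : p ≠ 0 := hpp.ne_zero
  have hxp : x ^ p = 1 := by rw [← hx]; exact pow_orderOf_eq_one x
  have hall : ∀ b : ℕ, ¬ p ∣ b → χ (x ^ b) = (r : ℂ) := by
    intro b hb
    have hcop : Nat.Coprime b p := (Nat.Coprime.symm ((Nat.Prime.coprime_iff_not_dvd hpp).mpr hb))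
    obtain ⟨σ, hσ⟩ := Cfsg.Agent.Helper75.exists_ringEquiv_pow p hp b hcop
    obtain ⟨s, hs1, hs2, hs3⟩ := b42c_eig p hp x hxp χ hχ
    have h1 := hs3 1
    simp only [pow_one, Multiset.map_id'] at h1
    rw [hs3 b]
    have h2 : s.map (fun μ => μ ^ b) = s.map σ :=
      Multiset.map_congr rfl (fun μ hμ => (hσ μ (hs1 μ hμ)).symm)
    rw [h2, ← map_multiset_sum, ← h1, hr, map_intCast]
  rcases b42c_int p x hx χ hχ r hall with h | ⟨m, hm, hpm⟩
  · exact Or.inl h
  · right
    obtain ⟨n, m₀, hle, h1, h2⟩ := b42c_nat p hp x hxp χ hχ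
    have hdeg : Cfsg.charDegree χ = n := by
      have := Cfsg.Agent.Helper79.isCharacter_one_eq_charDegree hχ
      rw [h1] at this
      exact_mod_cast this.symm
    rw [h1, h2] at hm
    have : (n : ℂ) = ((m + m₀ : ℕ) : ℂ) := by push_cast; rw [← hm]; ring
    have : n = m + m₀ := by exact_mod_cast this
    omega

end Cfsg.Agent.Helper72
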