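import Mathlib
import Cfsg.Agent.Helper15.B42Defs
import Cfsg.Agent.Helper77.D1Final
import Cfsg.Agent.Helper29.D1IL
import Cfsg.Agent.Helper79.S4441Setup
import Cfsg.Agent.Helper79.Basic
import Cfsg.Agent.Helper81.CharBasic
import Cfsg.Agent.Helper3.Induced
import Cfsg.Agent.Helper3.Frobenius
import Cfsg.Agent.Helper72.B42Core

universe u
set_option autoImplicit false
open Cfsg Cfsg.Agent.Helper77 Cfsg.Agent.Helper15
open scoped ComplexConjugate

namespace Cfsg.Agent.Helper72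

variable {G : Type u} [Group G] [Finite G]

/-- MULE -/
theorem b42_mu_le (p : ℕ) [Fact p.Prime] [Fintype G] (x : G) (hx : orderOf x = p) (α : G → ℂ)
    (hα : Cfsg.IsCharacter G α) (S : Finset (Cfsg.IrrCharacter G))
    (hS : ∀ ζ ∈ S, Cfsg.classInner α (ζ : G → ℂ) ≠ 0) (D q : ℕ)
    (hD : α 1 - b42Fix p x α = (D : ℂ))
    (hμ : ∀ ζ ∈ S, ∃ m : ℕ, (ζ : G → ℂ) 1 - b42Fix p x (ζ : G → ℂ) = (m : ℂ) ∧ q ≤ m) :
    S.card * q ≤ D := by
  classical
  have hpp : p.Prime := Fact.out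
  have hp : p ≠ 0 := hpp.ne_zero
  have hxp : x ^ p = 1 := by rw [← hx]; exact pow_orderOf_eq_one x
  have := Fintype.ofFinite (Cfsg.IrrCharacter G)
  obtain ⟨m, hm1, hm2⟩ := Cfsg.Agent.Helper15.char_decomp α hα
  have hnat : ∀ φ : Cfsg.IrrCharacter G, ∃ d : ℕ,
      (φ : G → ℂ) 1 - b42Fix p x (φ : G → ℂ) = (d : ℂ) := fun φ =>
    b42c_diff_nat p hp x hxp (φ : G → ℂ) (Cfsg.Agent.Helper79.isCharacter_of_irr φ.2)
  choose d hd using hnat
  have hlin : b42Fix p x α = ∑ φ : Cfsg.IrrCharacter G, (m φ : ℂ) * b42Fix p x (φ : G → ℂ) := by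
    conv_lhs => rw [hm2]
    exact b42c_fix_sum p x Finset.univ (fun φ => (m φ : ℂ)) (fun φ => (φ : G → ℂ))
  have hone : α 1 = ∑ φ : Cfsg.IrrCharacter G, (m φ : ℂ) * (φ : G → ℂ) 1 := by
    conv_lhs => rw [hm2]
    simp only [Finset.sum_apply, Pi.smul_apply, smul_eq_mul]
  have hsum : D = ∑ φ : Cfsg.IrrCharacter G, m φ * d φ := by
    have : (D : ℂ) = ((∑ φ : Cfsg.IrrCharacter G, m φ * d φ : ℕ) : ℂ) := by
      rw [← hD, hlin, hone, ← Finset.sum_sub_distrib]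
      push_cast
      refine Finset.sum_congr rfl (fun φ _ => ?_)
      rw [← hd φ]; ring
    exact_mod_cast this
  rw [hsum]
  calc S.card * q = ∑ _ζ ∈ S, q := by rw [Finset.sum_const, smul_eq_mul]
    _ ≤ ∑ ζ ∈ S, m ζ * d ζ := by
        refine Finset.sum_le_sum (fun ζ hζ => ?_)
        have hmζ : m ζ ≠ 0 := by
          intro h; apply hS ζ hζ; rw [hm1 ζ, h]; simp
        obtain ⟨m', hm', hq⟩ := hμ ζ hζ
        have : d ζ = m' := by
          have : (d ζ : ℂ) = (m' : ℂ) := by rw [← hd ζ, hm']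
          exact_mod_cast this
        rw [this]
        calc q ≤ m' := hq
          _ = 1 * m' := (one_mul _).symm
          _ ≤ m ζ * m' := Nat.mul_le_mul_right _ (Nat.pos_of_ne_zero hmζ)
    _ ≤ ∑ φ : Cfsg.IrrCharacter G, m φ * d φ :=
        Finset.sum_le_sum_of_subset (Finset.subset_univ S)

end Cfsg.Agent.Helper72
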