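import Mathlib
import Cfsg.Agent.Helper15.B42Defs
import Cfsg.Agent.Helper77.D1Final
import Cfsg.Agent.Helper29.D1IL
import Cfsg.Agent.Helper79.S4441Setup
import Cfsg.Agent.Helper79.Basic
import Cfsg.Agent.Helper81.CharBasic
import Cfsg.Agent.Helper3.Induced
import Cfsg.Agent.Helper3.Frobenius
import Cfsg.Agent.Helper72.B42Core

universe u
set_option autoImplicit false
open Cfsg Cfsg.Agent.Helper77 Cfsg.Agent.Helper15
open scoped ComplexConjugate

namespace Cfsg.Agent.Helper72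

variable {G : Type u} [Group G] [Finite G]

/-- MUX -/
theorem b42_mu_X (p : ℕ) [Fact p.Prime] (x : G) (hx : orderOf x = p) (ζ : G → ℂ)
    (hζ : Cfsg.IsCharacter G ζ) (c : ℤ) (hc : c = 1 ∨ c = -1)
    (hval : ∀ b : ℕ, ¬ p ∣ b → ζ (x ^ b) = (c : ℂ)) (hker : ζ x ≠ ζ 1) :
    ∃ m : ℕ, ζ 1 - b42Fix p x ζ = (m : ℂ) ∧ p - 1 ≤ m := by
  rcases b42c_int p x hx ζ hζ c hval with h | h
  · exact absurd h hker
  · exact h

end Cfsg.Agent.Helper72
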