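import Mathlib
import Cfsg.Agent.Helper15.B42Defs
import Cfsg.Agent.Helper77.D1Final
import Cfsg.Agent.Helper29.D1IL
import Cfsg.Agent.Helper79.S4441Setup
import Cfsg.Agent.Helper79.Basic
import Cfsg.Agent.Helper81.CharBasic
import Cfsg.Agent.Helper3.Induced
import Cfsg.Agent.Helper3.Frobenius
import Cfsg.Agent.Helper72.B42Core

universe u
set_option autoImplicit false
open Cfsg Cfsg.Agent.Helper77 Cfsg.Agent.Helper15
open scoped ComplexConjugate

namespace Cfsg.Agent.Helper72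

variable {G : Type u} [Group G] [Finite G]

/-- NOFIX -/
theorem b42_nofix (p : ℕ) [Fact p.Prime] (x : G) (hx : orderOf x = p) (ζ : G → ℂ)
    (hζ : Cfsg.IsCharacter G ζ) (h0 : b42Fix p x ζ = 0) (g : G) :
    ∑ b ∈ Finset.range p, ζ (x ^ b * g) = 0 := by
  have hpp : p.Prime := Fact.out
  have hp : p ≠ 0 := hpp.ne_zero
  have hxp : x ^ p = 1 := by rw [← hx]; exact pow_orderOf_eq_one x
  obtain ⟨n, ρ, rfl⟩ := hζ
  obtain ⟨S, hS⟩ : ∃ S : Module.End ℂ (Fin n → ℂ), S = ∑ b ∈ Finset.range p, ρ (x ^ b) :=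
    ⟨_, rfl⟩
  have h1 : ρ x * S = S := by
    rw [hS, Finset.mul_sum]
    have : ∀ b ∈ Finset.range p, ρ x * ρ (x ^ b) = ρ (x ^ (b + 1)) := by
      intro b _; rw [← map_mul, ← pow_succ']
    rw [Finset.sum_congr rfl this]
    obtain ⟨k, rfl⟩ : ∃ k, p = k + 1 := ⟨p - 1, by omega⟩
    rw [Finset.sum_range_succ (fun b => ρ (x ^ (b + 1))),
      Finset.sum_range_succ' (fun b => ρ (x ^ b)), hxp, pow_zero]
  have h2 : ∀ b : ℕ, ρ (x ^ b) * S = S := by
    intro b
    induction b with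
    | zero => rw [pow_zero, map_one, one_mul]
    | succ b ih => rw [pow_succ', map_mul, mul_assoc, ih, h1]
  have h3 : S * S = (p : ℂ) • S := by
    calc S * S = (∑ b ∈ Finset.range p, ρ (x ^ b)) * S := by rw [← hS]
      _ = ∑ b ∈ Finset.range p, S := by
          rw [Finset.sum_mul]; exact Finset.sum_congr rfl (fun b _ => h2 b)
      _ = (p : ℂ) • S := by
          rw [Finset.sum_const, Finset.card_range, Nat.cast_smul_eq_nsmul]
  have hpc : (p : ℂ) ≠ 0 := Nat.cast_ne_zero.mpr hp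
  have h4 : IsIdempotentElem ((p : ℂ)⁻¹ • S) := by
    unfold IsIdempotentElem
    rw [smul_mul_smul_comm, h3, smul_smul]
    congr 1
    field_simp
  have h5 : LinearMap.trace ℂ (Fin n → ℂ) ((p : ℂ)⁻¹ • S) = 0 := by
    rw [map_smul, hS, map_sum]
    exact h0
  have h6 : (p : ℂ)⁻¹ • S = 0 := LinearMap.IsIdempotentElem.eq_zero_of_trace_eq_zero h4 h5
  have h7 : S = 0 := by
    rcases smul_eq_zero.mp h6 with h | h
    · exact absurd h (inv_ne_zero hpc)
    · exact h
  have h8 : ∑ b ∈ Finset.range p, ρ.character (x ^ b * g)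
      = LinearMap.trace ℂ (Fin n → ℂ) (S * ρ g) := by
    rw [hS, Finset.sum_mul, map_sum]
    refine Finset.sum_congr rfl (fun b _ => ?_)
    show LinearMap.trace ℂ _ (ρ (x ^ b * g)) = _
    rw [map_mul]
  rw [h8, h7, zero_mul, map_zero]

end Cfsg.Agent.Helper72
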