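import Mathlib
import Cfsg.Agent.Helper72.O983Aux
import Cfsg.Agent.S1001

/-!
# More packaged Sylow data for simple groups (helper72)

* `o983_syl`: Sylow numerics for a Sylow `p`-subgroup of order `p ^ a`;
* `o983_alt`: `n_p ≥ 5` in a non-abelian simple group: `k |G| 2 = n_p !` with `k = 1` or
  `k |G| ∣ k !`;
* `o983_hna`: two non-commuting elements;
* `o983_cent_1001`: for `|G| = p 3^a 2^b` the Sylow `p`-subgroups (of order `p`) are
  self-centralizing.
-/

set_option autoImplicit false
set_option linter.style.haveILetI false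

namespace Cfsg.Agent.Helper72

open Subgroup

variable {G : Type*} [Group G] [Finite G]

/-- Sylow numerics for a simple group of order `p ^ a * m`. -/
theorem o983_syl [IsSimpleGroup G] {p : ℕ} [Fact p.Prime] (a m : ℕ)
    (hcard : Nat.card G = p ^ a * m) (hm : ¬ p ∣ m) (ha : 0 < a) (hm1 : 1 < m) (P : Sylow p G) :
    Nat.card (P : Subgroup G) = p ^ a ∧ Nat.card (Sylow p G) ∣ m ∧
      Nat.card (Sylow p G) % p = 1 ∧ Nat.card (Sylow p G) ≠ 1 ∧
      Nat.card (normalizer ((P : Subgroup G) : Set G)) * Nat.card (Sylow p G) = p ^ a * m := by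
  have hp : p.Prime := Fact.out
  have hP : Nat.card (P : Subgroup G) = p ^ a :=
    Cfsg.Agent.Helper9.OrdTools.sylow_card a m hcard hm P
  have hpa : 1 < p ^ a := Nat.one_lt_pow ha.ne' hp.one_lt
  have hlt : p ^ a < Nat.card G := by
    rw [hcard]
    exact lt_mul_of_one_lt_right (by omega) hm1
  obtain ⟨hd, hmod, hne, hN⟩ := Cfsg.Agent.Helper9.OrdTools.sylow_num P
    (by rw [hP]; exact hpa) (by rw [hP]; exact hlt)
  have hidx : (P : Subgroup G).index = m := by
    have := (P : Subgroup G).card_mul_index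
    rw [hP, hcard] at this
    exact Nat.eq_of_mul_eq_mul_left (by omega) this
  rw [hidx] at hd
  rw [hcard] at hN
  exact ⟨hP, hd, hmod, hne, hN⟩

/-- two non-commuting elements of a non-commutative group. -/
theorem o983_hna {G : Type*} [Group G] (hG : ¬ IsMulCommutative G) :
    ∃ a b : G, a * b ≠ b * a := by
  by_contra hcon
  push Not at hcon
  exact hG ⟨⟨hcon⟩⟩

/-- `n_p ≥ 5` in a non-abelian simple group: `G` embeds in `A_{n_p}`. -/
theorem o983_alt [IsSimpleGroup G] (hG : ¬ IsMulCommutative G) {p : ℕ} [Fact p.Prime]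
    (h5 : 5 ≤ Nat.card (Sylow p G)) :
    ∃ k, k * Nat.card G * 2 = (Nat.card (Sylow p G)).factorial ∧
      (k = 1 ∨ k * Nat.card G ∣ k.factorial) := by
  obtain ⟨P⟩ : Nonempty (Sylow p G) := inferInstance
  have hidx : (normalizer ((P : Subgroup G) : Set G)).index = Nat.card (Sylow p G) :=
    (Sylow.card_eq_index_normalizer P).symm
  have := Cfsg.Agent.Helper9.OrdTools.alt_index (o983_hna hG)
    (normalizer ((P : Subgroup G) : Set G)) (by rw [hidx]; exact h5)
  rwa [hidx] at this

/-- for `|G| = p 3^a 2^b` (simple), a Sylow `p`-subgroup of order `p` is self-centralizing. -/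
theorem o983_cent_1001 [IsSimpleGroup G] {p : ℕ} [Fact p.Prime] (a b : ℕ)
    (hcard : Nat.card G = p * 3 ^ a * 2 ^ b) (P : Sylow p G)
    (hP : Nat.card (P : Subgroup G) = p) :
    Nat.card (centralizer ((P : Subgroup G) : Set G)) = p := by
  have hp : p.Prime := Fact.out
  have hne : ∃ x ∈ (P : Subgroup G), x ≠ 1 := by
    by_contra hcon
    push Not at hcon
    have : (P : Subgroup G) = ⊥ := (Subgroup.eq_bot_iff_forall _).mpr hcon
    rw [this, Subgroup.card_bot] at hP
    exact hp.one_lt.ne hP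
  obtain ⟨x, hx, hx1⟩ := hne
  have hz := Cfsg.Agent.Helper9.OrdTools.zpowers_eq_sylow P hP hx hx1
  have hxo : orderOf x = p := by
    rw [← Nat.card_zpowers, hz, hP]
  have h1 := Cfsg.Agent.S1001.result p a b hp hcard x hxo
  rw [← Cfsg.Agent.Helper9.OrdTools.centralizer_singleton_eq hz, h1, hz, hP]

end Cfsg.Agent.Helper72
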