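import Mathlib
import Cfsg.Agent.S0999
import Cfsg.Agent.Helper5.SLCard

/-!
# CALL S0496, piece BIG: simple groups of order `≤ 1092` with a large prime divisor (helper72)
-/

set_option autoImplicit false
set_option linter.style.haveILetI false
set_option linter.unusedVariables false
set_option maxHeartbeats 1000000

namespace Cfsg.Agent.Helper72

open Subgroup

variable {G : Type*} [Group G] [Finite G] [IsSimpleGroup G]

/-- PIECE BIG -/
theorem o1092_big_prime (hG : ¬ IsMulCommutative G) (p : ℕ) (hp : p.Prime)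
    (hpd : p ∣ Nat.card G) (hlt : Nat.card G < p ^ 3) (hle : Nat.card G ≤ 1092) :
    Nat.card G = 60 ∨ Nat.card G = 168 ∨ Nat.card G = 660 ∨ Nat.card G = 1092 := by
  have hcyc : ¬ IsCyclic G := by
    intro hc
    apply hG
    obtain ⟨g, hg⟩ := hc.exists_generator
    refine ⟨⟨fun a b => ?_⟩⟩
    obtain ⟨i, rfl⟩ := Subgroup.mem_zpowers_iff.mp (hg a)
    obtain ⟨j, rfl⟩ := Subgroup.mem_zpowers_iff.mp (hg b)
    exact ((Commute.refl g).zpow_zpow i j).eq
  rcases Cfsg.Agent.S0999.result hcyc p hp hpd hlt with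
    ⟨F, iF, iF', hF, h3, ⟨e⟩⟩ | ⟨m, F, iF, iF', hF, hpm, h3, ⟨e⟩⟩
  · -- `|F| = p`
    have hcard : Nat.card G = Nat.card (Matrix.ProjectiveSpecialLinearGroup (Fin 2) F) :=
      Nat.card_congr e.toEquiv
    have h2 : (2 : F) ≠ 0 := by
      intro h2
      haveI : CharP F 2 := CharTwo.of_one_ne_zero_of_two_eq_zero one_ne_zero h2
      have h4 : ringChar F = 2 := ringChar.eq F 2
      have h5 := FiniteField.even_card_iff_char_two.mp h4
      rw [hF] at h5
      have h6 : 2 ∣ p := Nat.dvd_of_mod_eq_zero h5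
      have := (Nat.prime_dvd_prime_iff_eq Nat.prime_two hp).mp h6
      omega
    have hmul := Cfsg.Agent.Helper5.card_PSL2_mul (F := F)
    rw [Cfsg.Agent.Helper5.card_center_SL2 h2, ← hcard, hF] at hmul
    have hp13 : p ≤ 13 := by
      by_contra hcon
      push Not at hcon
      have h14 : 14 * (14 ^ 2 - 1) ≤ p * (p ^ 2 - 1) :=
        Nat.mul_le_mul (by omega) (Nat.sub_le_sub_right (Nat.pow_le_pow_left (by omega) 2) 1)
      norm_num at h14
      omega
    have hp' : p = 5 ∨ p = 7 ∨ p = 11 ∨ p = 13 := by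
      interval_cases p <;> first | omega | (exfalso; revert hp; norm_num)
    rcases hp' with rfl | rfl | rfl | rfl <;> norm_num at hmul <;> omega
  · -- `|F| = 2 ^ m`, `p = 2 ^ m + 1`
    have hcard : Nat.card G = Nat.card (Matrix.ProjectiveSpecialLinearGroup (Fin 2) F) :=
      Nat.card_congr e.toEquiv
    have hm0 : m ≠ 0 := by
      rintro rfl
      norm_num at hpm
      omega
    have h2 : (2 : F) = 0 := by
      have h5 : Fintype.card F % 2 = 0 := by
        rw [hF]
        exact Nat.mod_eq_zero_of_dvd (dvd_pow_self 2 hm0)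
      have h4 := FiniteField.even_card_iff_char_two.mpr h5
      have h6 := ringChar.Nat.cast_ringChar (R := F)
      rw [h4] at h6
      exact_mod_cast h6
    have hmul := Cfsg.Agent.Helper5.card_PSL2_mul (F := F)
    rw [Cfsg.Agent.Helper5.center_SL2_eq_bot h2, Subgroup.card_bot, mul_one, ← hcard, hF] at hmul
    have hm3 : m ≤ 3 := by
      by_contra hcon
      push Not at hcon
      have h16 : 2 ^ 4 ≤ 2 ^ m := Nat.pow_le_pow_right (by norm_num) hcon
      have h14 : 16 * (16 ^ 2 - 1) ≤ 2 ^ m * ((2 ^ m) ^ 2 - 1) :=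
        Nat.mul_le_mul (by omega) (Nat.sub_le_sub_right (Nat.pow_le_pow_left (by omega) 2) 1)
      norm_num at h14
      omega
    interval_cases m
    · exact absurd rfl hm0
    · norm_num at hpm
      omega
    · norm_num at hmul
      left
      exact hmul
    · norm_num at hpm
      subst hpm
      exact absurd hp (by norm_num)

end Cfsg.Agent.Helper72
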