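import Mathlib
import Cfsg.Agent.Helper72.O983Aux2

/-!
# CALL S0496, piece CENT: no simple group of order 1008, 1080 (helper72)
-/

set_option autoImplicit false
set_option linter.style.haveILetI false
set_option linter.unusedVariables false
set_option maxHeartbeats 1000000

namespace Cfsg.Agent.Helper72

open Subgroup

variable {G : Type*} [Group G] [Finite G] [IsSimpleGroup G]

/-- PIECE CENT -/
theorem no_simple_1008 (hG : ¬ IsMulCommutative G) (h : Nat.card G = 1008) : False := by
  haveI : Fact (Nat.Prime 7) := ⟨by norm_num⟩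
  obtain ⟨P⟩ : Nonempty (Sylow 7 G) := inferInstance
  obtain ⟨hP, e, c, hd, hmod, hne, he, he1, hec, hC, -⟩ :=
    o983_data 144 (h.trans (by norm_num)) (by norm_num) (by norm_num) P
  have hc1 : c = 1 := by
    have := o983_cent_1001 2 4 (h.trans (by norm_num)) P hP
    rw [hC] at this
    omega
  subst hc1
  have key : ∀ n ≤ 144, n ∣ 144 → n % 7 = 1 → n = 1 ∨ n = 8 ∨ n = 36 := by decide +kernel
  have he6 : e ≤ 6 := Nat.le_of_dvd (by norm_num) he
  rcases key _ (Nat.le_of_dvd (by norm_num) hd) hd hmod with h1 | h1 | h1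
  · exact hne h1
  · rw [h1] at hec
    interval_cases e <;> omega
  · rw [h1] at hec
    interval_cases e <;> omega

/-- PIECE CENT -/
theorem no_simple_1080 (hG : ¬ IsMulCommutative G) (h : Nat.card G = 1080) : False := by
  haveI : Fact (Nat.Prime 5) := ⟨by norm_num⟩
  obtain ⟨P⟩ : Nonempty (Sylow 5 G) := inferInstance
  obtain ⟨hP, e, c, hd, hmod, hne, he, he1, hec, hC, -⟩ :=
    o983_data 216 (h.trans (by norm_num)) (by norm_num) (by norm_num) P
  have hc1 : c = 1 := by
    have := o983_cent_1001 3 3 (h.trans (by norm_num)) P hP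
    rw [hC] at this
    omega
  subst hc1
  have key : ∀ n ≤ 216, n ∣ 216 → n % 5 = 1 → n = 1 ∨ n = 6 ∨ n = 36 ∨ n = 216 := by
    decide +kernel
  have he4 : e ≤ 4 := Nat.le_of_dvd (by norm_num) he
  rcases key _ (Nat.le_of_dvd (by norm_num) hd) hd hmod with h1 | h1 | h1 | h1
  · exact hne h1
  · rw [h1] at hec
    interval_cases e <;> omega
  · rw [h1] at hec
    interval_cases e <;> omega
  · rw [h1] at hec
    interval_cases e <;> omega

end Cfsg.Agent.Helper72
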