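import Mathlib

/-!
# CALL S0496, piece O720D2: 3-transitivity on the ten Sylow 3-subgroups (helper72)

A group of order `720 = 10 * 9 * 8` acting on `10` points such that only the identity fixes three
distinct points is (sharply) `3`-transitive: the orbit map to the `720` injective triples is
injective, hence bijective.
-/

set_option autoImplicit false
set_option linter.style.haveILetI false
set_option linter.unusedVariables false
set_option maxHeartbeats 1000000

namespace Cfsg.Agent.Helper72

open Subgroup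

variable {G : Type*} [Group G] [Finite G] [IsSimpleGroup G]

/-- PIECE O720D2 -/
theorem o720_trans3 (hG : ¬ IsMulCommutative G) (h : Nat.card G = 720)
    (h10 : Nat.card (Sylow 3 G) = 10)
    (hti : ∀ P Q : Sylow 3 G, P ≠ Q → (P : Subgroup G) ⊓ (Q : Subgroup G) = ⊥)
    (hstab : ∀ a b c : Sylow 3 G, a ≠ b → a ≠ c → b ≠ c →
      ∀ g : G, g • a = a → g • b = b → g • c = c → g = 1) :
    ∀ a b c a' b' c' : Sylow 3 G, a ≠ b → a ≠ c → b ≠ c → a' ≠ b' → a' ≠ c' → b' ≠ c' →
      ∃ g : G, g • a = a' ∧ g • b = b' ∧ g • c = c' := by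
  classical
  intro a b c a' b' c' hab hac hbc hab' hac' hbc'
  haveI : Fintype G := Fintype.ofFinite G
  haveI : Fintype (Sylow 3 G) := Fintype.ofFinite _
  have hinj : ∀ x y z : Sylow 3 G, x ≠ y → x ≠ z → y ≠ z →
      Function.Injective (![x, y, z] : Fin 3 → Sylow 3 G) := by
    intro x y z hxy hxz hyz i j hij
    fin_cases i <;> fin_cases j <;> simp_all
  let f : G → (Fin 3 ↪ Sylow 3 G) := fun g =>
    ⟨fun i => g • (![a, b, c] : Fin 3 → Sylow 3 G) i, fun i j hij =>
      (hinj a b c hab hac hbc) (smul_left_cancel g hij)⟩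
  have hf0 : ∀ g, f g 0 = g • a := fun g => rfl
  have hf1 : ∀ g, f g 1 = g • b := fun g => rfl
  have hf2 : ∀ g, f g 2 = g • c := fun g => rfl
  have hf : Function.Injective f := by
    intro g g' hgg
    have h0 : g • a = g' • a := by rw [← hf0, ← hf0, hgg]
    have h1 : g • b = g' • b := by rw [← hf1, ← hf1, hgg]
    have h2 : g • c = g' • c := by rw [← hf2, ← hf2, hgg]
    have := hstab a b c hab hac hbc (g'⁻¹ * g) (by rw [mul_smul, h0, inv_smul_smul])
      (by rw [mul_smul, h1, inv_smul_smul]) (by rw [mul_smul, h2, inv_smul_smul])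
    exact (inv_mul_eq_one.mp this).symm
  have hcard : Fintype.card G = Fintype.card (Fin 3 ↪ Sylow 3 G) := by
    rw [Fintype.card_embedding_eq, Fintype.card_fin, ← Nat.card_eq_fintype_card,
      ← Nat.card_eq_fintype_card, h, h10]
    rfl
  have hbij := (Fintype.bijective_iff_injective_and_card f).mpr ⟨hf, hcard⟩
  obtain ⟨g, hg⟩ := hbij.2 ⟨![a', b', c'], hinj a' b' c' hab' hac' hbc'⟩
  refine ⟨g, ?_, ?_, ?_⟩
  · rw [← hf0, hg]; rfl
  · rw [← hf1, hg]; rfl
  · rw [← hf2, hg]; rfl

end Cfsg.Agent.Helper72
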