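import Mathlib
import Cfsg.Agent.Helper72.O983Aux2

/-!
# CALL S0496, piece SYLA: no simple group of order 300, 588, 600, 945 (helper72)
-/

set_option autoImplicit false
set_option linter.style.haveILetI false
set_option maxHeartbeats 1000000

namespace Cfsg.Agent.Helper72

open Subgroup

variable {G : Type*} [Group G] [Finite G] [IsSimpleGroup G]

/-- PIECE SYLA -/
theorem no_simple_300 (hG : ¬ IsMulCommutative G) (h : Nat.card G = 300) : False := by
  haveI : Fact (Nat.Prime 5) := ⟨by norm_num⟩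
  obtain ⟨P⟩ : Nonempty (Sylow 5 G) := inferInstance
  obtain ⟨-, hd, hmod, hne, -⟩ :=
    o983_syl 2 12 (h.trans (by norm_num)) (by norm_num) (by norm_num) (by norm_num) P
  have key : ∀ n ≤ 12, n ∣ 12 → n % 5 = 1 → n = 1 ∨ n = 6 := by decide +kernel
  rcases key _ (Nat.le_of_dvd (by norm_num) hd) hd hmod with h1 | h1
  · exact hne h1
  · have := o983_fact (G := G) (p := 5) hne
    rw [h1, h] at this
    norm_num [Nat.factorial] at this

/-- PIECE SYLA -/
theorem no_simple_588 (hG : ¬ IsMulCommutative G) (h : Nat.card G = 588) : False := by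
  haveI : Fact (Nat.Prime 7) := ⟨by norm_num⟩
  obtain ⟨P⟩ : Nonempty (Sylow 7 G) := inferInstance
  obtain ⟨-, hd, hmod, hne, -⟩ :=
    o983_syl 2 12 (h.trans (by norm_num)) (by norm_num) (by norm_num) (by norm_num) P
  have key : ∀ n ≤ 12, n ∣ 12 → n % 7 = 1 → n = 1 := by decide +kernel
  exact hne (key _ (Nat.le_of_dvd (by norm_num) hd) hd hmod)

/-- PIECE SYLA -/
theorem no_simple_600 (hG : ¬ IsMulCommutative G) (h : Nat.card G = 600) : False := by
  haveI : Fact (Nat.Prime 5) := ⟨by norm_num⟩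
  obtain ⟨P⟩ : Nonempty (Sylow 5 G) := inferInstance
  obtain ⟨-, hd, hmod, hne, -⟩ :=
    o983_syl 2 24 (h.trans (by norm_num)) (by norm_num) (by norm_num) (by norm_num) P
  have key : ∀ n ≤ 24, n ∣ 24 → n % 5 = 1 → n = 1 ∨ n = 6 := by decide +kernel
  rcases key _ (Nat.le_of_dvd (by norm_num) hd) hd hmod with h1 | h1
  · exact hne h1
  · have := o983_fact (G := G) (p := 5) hne
    rw [h1, h] at this
    norm_num [Nat.factorial] at this

/-- PIECE SYLA -/
theorem no_simple_945 (hG : ¬ IsMulCommutative G) (h : Nat.card G = 945) : False := by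
  haveI : Fact (Nat.Prime 3) := ⟨by norm_num⟩
  obtain ⟨P⟩ : Nonempty (Sylow 3 G) := inferInstance
  obtain ⟨-, hd, hmod, hne, -⟩ :=
    o983_syl 3 35 (h.trans (by norm_num)) (by norm_num) (by norm_num) (by norm_num) P
  have key : ∀ n ≤ 35, n ∣ 35 → n % 3 = 1 → n = 1 ∨ n = 7 := by decide +kernel
  rcases key _ (Nat.le_of_dvd (by norm_num) hd) hd hmod with h1 | h1
  · exact hne h1
  · have := o983_fact (G := G) (p := 3) hne
    rw [h1, h] at this
    norm_num [Nat.factorial] at this

end Cfsg.Agent.Helper72
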