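import Mathlib
import Cfsg.Agent.Helper72.O983Aux2

/-!
# CALL S0496, piece SYLB: no simple group of order 180, 540, 900 (helper72)
-/

set_option autoImplicit false
set_option linter.style.haveILetI false
set_option linter.unusedVariables false
set_option maxHeartbeats 1000000

namespace Cfsg.Agent.Helper72

open Subgroup

variable {G : Type*} [Group G] [Finite G] [IsSimpleGroup G]

/-- PIECE SYLB -/
theorem no_simple_180 (hG : ¬ IsMulCommutative G) (h : Nat.card G = 180) : False := by
  haveI : Fact (Nat.Prime 5) := ⟨by norm_num⟩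
  obtain ⟨P⟩ : Nonempty (Sylow 5 G) := inferInstance
  obtain ⟨-, e, c, hd, hmod, hne, he, he1, hec, -, -⟩ :=
    o983_data 36 (h.trans (by norm_num)) (by norm_num) (by norm_num) P
  have key : ∀ n ≤ 36, n ∣ 36 → n % 5 = 1 → n = 1 ∨ n = 6 ∨ n = 36 := by decide +kernel
  rcases key _ (Nat.le_of_dvd (by norm_num) hd) hd hmod with h1 | h1 | h1
  · exact hne h1
  · obtain ⟨k, hk, hk2⟩ := o983_alt (G := G) (p := 5) hG (by rw [h1]; norm_num)
    rw [h1, h] at hk
    rw [h] at hk2
    have hk2' : k = 2 := by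
      norm_num [Nat.factorial] at hk
      omega
    subst hk2'
    rcases hk2 with hk2 | hk2
    · omega
    · norm_num [Nat.factorial] at hk2
  · rw [h1] at hec
    have he4 : e ≤ 4 := Nat.le_of_dvd (by norm_num) he
    interval_cases e <;> omega

/-- PIECE SYLB -/
theorem no_simple_540 (hG : ¬ IsMulCommutative G) (h : Nat.card G = 540) : False := by
  haveI : Fact (Nat.Prime 5) := ⟨by norm_num⟩
  obtain ⟨P⟩ : Nonempty (Sylow 5 G) := inferInstance
  obtain ⟨-, e, c, hd, hmod, hne, he, he1, hec, -, -⟩ :=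
    o983_data 108 (h.trans (by norm_num)) (by norm_num) (by norm_num) P
  have key : ∀ n ≤ 108, n ∣ 108 → n % 5 = 1 → n = 1 ∨ n = 6 ∨ n = 36 := by decide +kernel
  rcases key _ (Nat.le_of_dvd (by norm_num) hd) hd hmod with h1 | h1 | h1
  · exact hne h1
  · have := o983_fact (G := G) (p := 5) hne
    rw [h1, h] at this
    norm_num [Nat.factorial] at this
  · rw [h1] at hec
    have he4 : e ≤ 4 := Nat.le_of_dvd (by norm_num) he
    interval_cases e <;> omega

/-- PIECE SYLB -/
theorem no_simple_900 (hG : ¬ IsMulCommutative G) (h : Nat.card G = 900) : False := by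
  haveI : Fact (Nat.Prime 5) := ⟨by norm_num⟩
  obtain ⟨P⟩ : Nonempty (Sylow 5 G) := inferInstance
  obtain ⟨hP, hd, hmod, hne, hN⟩ :=
    o983_syl 2 36 (h.trans (by norm_num)) (by norm_num) (by norm_num) (by norm_num) P
  have key : ∀ n ≤ 36, n ∣ 36 → n % 5 = 1 → n = 1 ∨ n = 6 ∨ n = 36 := by decide +kernel
  rcases key _ (Nat.le_of_dvd (by norm_num) hd) hd hmod with h1 | h1 | h1
  · exact hne h1
  · have := o983_fact (G := G) (p := 5) hne
    rw [h1, h] at this
    norm_num [Nat.factorial] at this
  · -- `N(P) = P` is abelian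
    rw [h1] at hN
    have hN25 : Nat.card (normalizer ((P : Subgroup G) : Set G)) = 25 := by omega
    have hNP : normalizer ((P : Subgroup G) : Set G) = (P : Subgroup G) :=
      (Subgroup.eq_of_le_of_card_ge Subgroup.le_normalizer (by rw [hN25, hP]; norm_num)).symm
    have hcomm : ∀ a b : (P : Subgroup G), a * b = b * a := fun a b =>
      (IsPGroup.isMulCommutative_of_card_eq_prime_sq (G := (P : Subgroup G)) hP).is_comm.comm a b
    refine Cfsg.Agent.Helper9.OrdTools.not_normalizer_le_centralizer P (by rw [hP]; norm_num)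
      (by rw [hP, h]; norm_num) ?_
    rw [hNP]
    intro a ha
    rw [Subgroup.mem_centralizer_iff]
    intro b hb
    exact congrArg Subtype.val (hcomm ⟨b, hb⟩ ⟨a, ha⟩)

end Cfsg.Agent.Helper72
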