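import Mathlib
import Cfsg.Agent.Helper72.O983Aux2
import Cfsg.Agent.S1010

/-!
# CALL S0496, piece SYLC: no simple group of order 420, 840 (helper72)
-/

set_option autoImplicit false
set_option linter.style.haveILetI false
set_option linter.unusedVariables false
set_option maxHeartbeats 1000000

namespace Cfsg.Agent.Helper72

open Subgroup

variable {G : Type*} [Group G] [Finite G] [IsSimpleGroup G]

/-- PIECE SYLC -/
theorem no_simple_420 (hG : ¬ IsMulCommutative G) (h : Nat.card G = 420) : False := by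
  haveI : Fact (Nat.Prime 5) := ⟨by norm_num⟩
  obtain ⟨P⟩ : Nonempty (Sylow 5 G) := inferInstance
  obtain ⟨-, e, c, hd, hmod, hne, he, he1, hec, -, -⟩ :=
    o983_data 84 (h.trans (by norm_num)) (by norm_num) (by norm_num) P
  have key : ∀ n ≤ 84, n ∣ 84 → n % 5 = 1 → n = 1 ∨ n = 6 ∨ n = 21 := by decide +kernel
  rcases key _ (Nat.le_of_dvd (by norm_num) hd) hd hmod with h1 | h1 | h1
  · exact hne h1
  · have := o983_fact (G := G) (p := 5) hne
    rw [h1, h] at this
    norm_num [Nat.factorial] at this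
  · exact Cfsg.Agent.S1010.result h1

/-- PIECE SYLC -/
theorem no_simple_840 (hG : ¬ IsMulCommutative G) (h : Nat.card G = 840) : False := by
  haveI : Fact (Nat.Prime 5) := ⟨by norm_num⟩
  obtain ⟨P⟩ : Nonempty (Sylow 5 G) := inferInstance
  obtain ⟨-, e, c, hd, hmod, hne, he, he1, hec, -, -⟩ :=
    o983_data 168 (h.trans (by norm_num)) (by norm_num) (by norm_num) P
  have key : ∀ n ≤ 168, n ∣ 168 → n % 5 = 1 → n = 1 ∨ n = 6 ∨ n = 21 ∨ n = 56 := by
    decide +kernel
  rcases key _ (Nat.le_of_dvd (by norm_num) hd) hd hmod with h1 | h1 | h1 | h1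
  · exact hne h1
  · have := o983_fact (G := G) (p := 5) hne
    rw [h1, h] at this
    norm_num [Nat.factorial] at this
  · exact Cfsg.Agent.S1010.result h1
  · rw [h1] at hec
    have he4 : e ≤ 4 := Nat.le_of_dvd (by norm_num) he
    interval_cases e <;> omega

end Cfsg.Agent.Helper72
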