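import Mathlib
import Cfsg.Agent.Helper72.O983Aux2

/-!
# CALL S0496, piece SYLD: no simple group of order 560, 672 (helper72)
-/

set_option autoImplicit false
set_option linter.style.haveILetI false
set_option linter.unusedVariables false
set_option maxHeartbeats 1000000

namespace Cfsg.Agent.Helper72

open Subgroup

variable {G : Type*} [Group G] [Finite G] [IsSimpleGroup G]

/-- PIECE SYLD -/
theorem no_simple_560 (hG : ¬ IsMulCommutative G) (h : Nat.card G = 560) : False := by
  haveI : Fact (Nat.Prime 7) := ⟨by norm_num⟩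
  haveI : Fact (Nat.Prime 5) := ⟨by norm_num⟩
  obtain ⟨P⟩ : Nonempty (Sylow 7 G) := inferInstance
  obtain ⟨-, e, c, hd, hmod, hne, he, he1, hec, hC, -⟩ :=
    o983_data 80 (h.trans (by norm_num)) (by norm_num) (by norm_num) P
  have key : ∀ n ≤ 80, n ∣ 80 → n % 7 = 1 → n = 1 ∨ n = 8 := by decide +kernel
  rcases key _ (Nat.le_of_dvd (by norm_num) hd) hd hmod with h1 | h1
  · exact hne h1
  · have h5 : 5 ∣ c := by
      rw [h1] at hec
      have he6 : e ≤ 6 := Nat.le_of_dvd (by norm_num) he
      interval_cases e <;> omega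
    have hT := o983_ruleT (p := 7) (r := 5) (by norm_num) P
      (by rw [hC]; exact Dvd.dvd.mul_left h5 7) hne
    omega

/-- PIECE SYLD -/
theorem no_simple_672 (hG : ¬ IsMulCommutative G) (h : Nat.card G = 672) : False := by
  haveI : Fact (Nat.Prime 7) := ⟨by norm_num⟩
  haveI : Fact (Nat.Prime 2) := ⟨by norm_num⟩
  obtain ⟨P⟩ : Nonempty (Sylow 7 G) := inferInstance
  obtain ⟨-, e, c, hd, hmod, hne, he, he1, hec, hC, -⟩ :=
    o983_data 96 (h.trans (by norm_num)) (by norm_num) (by norm_num) P
  have key : ∀ n ≤ 96, n ∣ 96 → n % 7 = 1 → n = 1 ∨ n = 8 := by decide +kernel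
  rcases key _ (Nat.le_of_dvd (by norm_num) hd) hd hmod with h1 | h1
  · exact hne h1
  · have h2 : 2 ∣ c := by
      rw [h1] at hec
      have he6 : e ≤ 6 := Nat.le_of_dvd (by norm_num) he
      interval_cases e <;> omega
    have hT := o983_ruleT (p := 7) (r := 2) (by norm_num) P
      (by rw [hC]; exact Dvd.dvd.mul_left h2 7) hne
    omega

end Cfsg.Agent.Helper72
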