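import Mathlib

set_option autoImplicit false

/-!
# Polynomial-matrix toolkit for the determinant pieces DETI DETS PAR of CALL S2719 (helper72)
-/

namespace Cfsg.Agent.Helper72.GmPoly

open Matrix Polynomial

variable {ι : Type*} [Fintype ι] [DecidableEq ι] {F : Type*} [Field F]

/-- the constant polynomial matrix of a matrix -/
noncomputable def cm (A : Matrix ι ι F) : Matrix ι ι F[X] := (C : F →+* F[X]).mapMatrix A

theorem cm_apply (A : Matrix ι ι F) (i j : ι) : cm A i j = C (A i j) := rfl

theorem cm_mul (A B : Matrix ι ι F) : cm (A * B) = cm A * cm B := map_mul _ A B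

theorem cm_add (A B : Matrix ι ι F) : cm (A + B) = cm A + cm B := map_add _ A B

theorem cm_one : cm (1 : Matrix ι ι F) = 1 := map_one _

theorem cm_zero : cm (0 : Matrix ι ι F) = 0 := map_zero _

theorem cm_neg (A : Matrix ι ι F) : cm (-A) = -cm A := map_neg _ A

theorem cm_smul (c : F) (A : Matrix ι ι F) : cm (c • A) = C c • cm A := by
  ext i j
  simp [cm_apply]

theorem cm_transpose (A : Matrix ι ι F) : (cm A)ᵀ = cm Aᵀ := by
  ext i j
  simp [cm_apply]

theorem det_cm (A : Matrix ι ι F) : (cm A).det = C A.det :=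
  (RingHom.map_det (C : F →+* F[X]) A).symm

/-- evaluation of a polynomial matrix -/
noncomputable def ev (r : F) (M : Matrix ι ι F[X]) : Matrix ι ι F :=
  (evalRingHom r).mapMatrix M

theorem ev_apply (r : F) (M : Matrix ι ι F[X]) (i j : ι) : ev r M i j = (M i j).eval r := rfl

theorem ev_cm (r : F) (A : Matrix ι ι F) : ev r (cm A) = A := by
  ext i j
  simp [ev_apply, cm_apply]

theorem ev_add (r : F) (M N : Matrix ι ι F[X]) : ev r (M + N) = ev r M + ev r N :=
  map_add _ M N

theorem ev_smul (r : F) (p : F[X]) (M : Matrix ι ι F[X]) : ev r (p • M) = p.eval r • ev r M := by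
  ext i j
  simp [ev_apply]

theorem det_ev (r : F) (M : Matrix ι ι F[X]) : (ev r M).det = M.det.eval r :=
  (RingHom.map_det (evalRingHom r) M).symm

end Cfsg.Agent.Helper72.GmPoly
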