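import Mathlib
import Cfsg.Agent.Helper72.GmPoly

set_option autoImplicit false

namespace Cfsg.Agent.Helper72.GmDETI

open Matrix Polynomial Cfsg.Agent.Helper72.GmPoly

/-- the characteristic matrix as `X • 1 - cm A` -/
theorem charmatrix_eq {ι : Type*} [Fintype ι] [DecidableEq ι] {F : Type*} [Field F]
    (A : Matrix ι ι F) :
    Matrix.charmatrix A = (X : F[X]) • (1 : Matrix ι ι F[X]) - cm A := by
  ext i j
  rw [Matrix.charmatrix_apply, Matrix.sub_apply, Matrix.smul_apply, cm_apply, Matrix.one_apply,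
    Matrix.diagonal_apply]
  split_ifs <;> simp

/-- the characteristic matrix of `-A` as `X • 1 + cm A` -/
theorem charmatrix_neg_eq {ι : Type*} [Fintype ι] [DecidableEq ι] {F : Type*} [Field F]
    (A : Matrix ι ι F) :
    Matrix.charmatrix (-A) = (X : F[X]) • (1 : Matrix ι ι F[X]) + cm A := by
  rw [charmatrix_eq, cm_neg, sub_neg_eq_add]

/-- **DETI**: a matrix whose square is a non-square scalar `lam` has determinant `(-lam)^n`. -/
theorem det_of_sq_nonsquare {ι : Type*} [Fintype ι] [DecidableEq ι] {F : Type*} [Field F]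
    (A : Matrix ι ι F) (lam : F) (hlam : ¬ IsSquare lam)
    (hA : A * A = lam • (1 : Matrix ι ι F)) (n : ℕ) (hcard : Fintype.card ι = 2 * n) :
    A.det = (-lam) ^ n := by
  have hirr : Irreducible (X ^ 2 - C lam : F[X]) :=
    X_pow_sub_C_irreducible_of_prime Nat.prime_two
      (fun b hb => hlam ⟨b, by rw [← hb, pow_two]⟩)
  have hprod : Matrix.charmatrix A * Matrix.charmatrix (-A)
      = (X ^ 2 - C lam : F[X]) • (1 : Matrix ι ι F[X]) := by
    rw [charmatrix_eq, charmatrix_neg_eq]
    have e3 : ((X : F[X]) • (1 : Matrix ι ι F[X]) - cm A) *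
        ((X : F[X]) • (1 : Matrix ι ι F[X]) + cm A)
        = (X * X : F[X]) • (1 : Matrix ι ι F[X]) - cm A * cm A := by
      simp only [Matrix.sub_mul, Matrix.mul_add, Matrix.smul_mul, Matrix.mul_smul, Matrix.one_mul,
        Matrix.mul_one, smul_sub, smul_smul]
      abel
    rw [e3, ← cm_mul, hA, cm_smul, cm_one, ← sub_smul, ← pow_two]
  have hdvd : A.charpoly * (-A).charpoly = (X ^ 2 - C lam : F[X]) ^ (2 * n) := by
    have h1 := congrArg Matrix.det hprod
    rw [Matrix.det_mul, Matrix.det_smul, Matrix.det_one, mul_one, hcard] at h1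
    exact h1
  obtain ⟨i, hi, hass⟩ := (dvd_prime_pow hirr.prime (2 * n)).mp (Dvd.intro _ hdvd)
  have heq : A.charpoly = (X ^ 2 - C lam : F[X]) ^ i :=
    eq_of_monic_of_associated (Matrix.charpoly_monic A)
      ((monic_X_pow_sub_C lam (by norm_num)).pow i) hass
  have hdeg : i = n := by
    have h1 := Matrix.charpoly_natDegree_eq_dim A
    rw [heq, natDegree_pow, natDegree_X_pow_sub_C, hcard] at h1
    omega
  rw [Matrix.det_eq_sign_charpoly_coeff, heq, hdeg, hcard, coeff_zero_eq_eval_zero, eval_pow,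
    eval_sub, eval_pow, eval_X, eval_C, pow_mul, neg_one_sq, one_pow, one_mul]
  congr 1
  simp

end Cfsg.Agent.Helper72.GmDETI
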