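import Mathlib
import Cfsg.Agent.Helper72.GmPoly
import Cfsg.Agent.Helper72.GmDETI

set_option autoImplicit false

namespace Cfsg.Agent.Helper72.GmDETS

open Matrix Polynomial Cfsg.Agent.Helper72.GmPoly

/-- **DETS**: a similarity `A` of `J` with multiplier `-lam` and `A * A = lam` has determinant
`(-lam)^n`. -/
theorem det_of_skew {ι : Type*} [Fintype ι] [DecidableEq ι] {F : Type*} [Field F]
    (h2 : (2 : F) ≠ 0) (A J : Matrix ι ι F) (hJ : J.det ≠ 0) (lam : F) (hlam : lam ≠ 0)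
    (hA : A * A = lam • (1 : Matrix ι ι F)) (hAJ : Aᵀ * J * A = (-lam) • J) (n : ℕ)
    (hcard : Fintype.card ι = 2 * n) : A.det = (-lam) ^ n := by
  have hAJ' : J * A + Aᵀ * J = 0 := by
    have h1 : lam • (Aᵀ * J) = lam • (-(J * A)) := by
      calc lam • (Aᵀ * J) = Aᵀ * J * (A * A) := by rw [hA, Matrix.mul_smul, Matrix.mul_one]
        _ = (Aᵀ * J * A) * A := by rw [Matrix.mul_assoc (Aᵀ * J)]
        _ = lam • (-(J * A)) := by rw [hAJ, Matrix.smul_mul, neg_smul, smul_neg]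
    have h3 := smul_right_injective (Matrix ι ι F) hlam h1
    rw [h3, add_neg_cancel]
  obtain ⟨M, hM⟩ : ∃ M : Matrix ι ι F[X], M = (X : F[X]) • (1 : Matrix ι ι F[X]) + cm A :=
    ⟨_, rfl⟩
  have hMT : Mᵀ = (X : F[X]) • (1 : Matrix ι ι F[X]) + cm Aᵀ := by
    rw [hM, Matrix.transpose_add, Matrix.transpose_smul, Matrix.transpose_one, cm_transpose]
  have hkey : Mᵀ * cm J * M = (X ^ 2 - C lam : F[X]) • cm J := by
    rw [hMT, hM]
    have e3 : ((X : F[X]) • (1 : Matrix ι ι F[X]) + cm Aᵀ) * cm J *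
        ((X : F[X]) • (1 : Matrix ι ι F[X]) + cm A)
        = (X * X : F[X]) • cm J + (X : F[X]) • (cm J * cm A + cm Aᵀ * cm J)
          + cm Aᵀ * cm J * cm A := by
      simp only [Matrix.add_mul, Matrix.mul_add, Matrix.smul_mul, Matrix.mul_smul, Matrix.one_mul,
        Matrix.mul_one, smul_add, smul_smul]
      abel
    rw [e3, ← cm_mul, ← cm_mul, ← cm_add, hAJ', cm_zero, smul_zero, add_zero, ← cm_mul,
      hAJ, cm_smul, ← add_smul, ← pow_two, C_neg, ← sub_eq_add_neg]
  have hdet : M.det ^ 2 = ((X ^ 2 - C lam : F[X]) ^ n) ^ 2 := by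
    have h1 := congrArg Matrix.det hkey
    rw [Matrix.det_mul, Matrix.det_mul, Matrix.det_transpose, Matrix.det_smul, det_cm, hcard]
      at h1
    have hC : (C J.det : F[X]) ≠ 0 := C_ne_zero.mpr hJ
    apply mul_right_cancel₀ hC
    calc M.det ^ 2 * C J.det = M.det * C J.det * M.det := by ring
      _ = (X ^ 2 - C lam) ^ (2 * n) * C J.det := h1
      _ = ((X ^ 2 - C lam) ^ n) ^ 2 * C J.det := by rw [← pow_mul, mul_comm n 2]
  have hmonic : M.det.Monic := by
    have : M = Matrix.charmatrix (-A) := by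
      rw [hM, Cfsg.Agent.Helper72.GmDETI.charmatrix_neg_eq]
    rw [this]
    exact Matrix.charpoly_monic (-A)
  have hmonic2 : ((X ^ 2 - C lam : F[X]) ^ n).Monic :=
    (monic_X_pow_sub_C lam (by norm_num)).pow n
  rcases sq_eq_sq_iff_eq_or_eq_neg.mp hdet with hd | hd
  · have h1 := det_ev (0 : F) M
    have hev : ev (0 : F) M = A := by
      rw [hM, ev_add, ev_smul, eval_X, zero_smul, zero_add, ev_cm]
    rw [hev, hd] at h1
    rw [h1, eval_pow, eval_sub, eval_pow, eval_X, eval_C]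
    congr 1
    simp
  · exfalso
    have h1 := hmonic.leadingCoeff
    rw [hd, leadingCoeff_neg, hmonic2.leadingCoeff] at h1
    exact h2 (by linear_combination -h1)

end Cfsg.Agent.Helper72.GmDETS
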