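import Mathlib
import Cfsg.Agent.Helper72.GmPoly

set_option autoImplicit false

namespace Cfsg.Agent.Helper72.GmPAR

open Matrix Polynomial Cfsg.Agent.Helper72.GmPoly

/-- **PAR**: an involution `g` conjugate to `-g` in dimension `2n` has determinant `(-1)^n`. -/
theorem det_of_anticomm {ι : Type*} [Fintype ι] [DecidableEq ι] {F : Type*} [Field F]
    (h2 : (2 : F) ≠ 0) (g h : Matrix ι ι F) (hg : g * g = 1) (hh : h.det ≠ 0)
    (hanti : h * g = -(g * h)) (n : ℕ) (hcard : Fintype.card ι = 2 * n) : g.det = (-1) ^ n := by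
  obtain ⟨P, hP⟩ : ∃ P : Matrix ι ι F, P = (2 : F)⁻¹ • (1 + g) := ⟨_, rfl⟩
  obtain ⟨P', hP'⟩ : ∃ P' : Matrix ι ι F, P' = (2 : F)⁻¹ • (1 - g) := ⟨_, rfl⟩
  have h4 : (2 : F)⁻¹ * (2 : F)⁻¹ * 2 = (2 : F)⁻¹ := by field_simp
  have hPP' : P * P' = 0 := by
    rw [hP, hP', Matrix.smul_mul, Matrix.mul_smul]
    have : (1 + g) * (1 - g) = 0 := by
      have e : (1 + g) * (1 - g) = 1 - g * g := by noncomm_ring
      rw [e, hg, sub_self]
    rw [this, smul_zero, smul_zero]
  have hP'P : P' * P = 0 := by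
    rw [hP, hP', Matrix.smul_mul, Matrix.mul_smul]
    have : (1 - g) * (1 + g) = 0 := by
      have e : (1 - g) * (1 + g) = 1 - g * g := by noncomm_ring
      rw [e, hg, sub_self]
    rw [this, smul_zero, smul_zero]
  have hPP : P * P = P := by
    rw [hP, Matrix.smul_mul, Matrix.mul_smul, smul_smul]
    have : (1 + g) * (1 + g) = (2 : F) • (1 + g) := by
      have e : (1 + g) * (1 + g) = 1 + g + g + g * g := by noncomm_ring
      rw [e, hg, two_smul]; abel
    rw [this, smul_smul, h4]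
  have hP'P' : P' * P' = P' := by
    rw [hP', Matrix.smul_mul, Matrix.mul_smul, smul_smul]
    have : (1 - g) * (1 - g) = (2 : F) • (1 - g) := by
      have e : (1 - g) * (1 - g) = 1 - g - g + g * g := by noncomm_ring
      rw [e, hg, two_smul]; abel
    rw [this, smul_smul, h4]
  have hsum : P + P' = 1 := by
    rw [hP, hP', ← smul_add]
    have : (1 + g) + (1 - g) = (2 : F) • (1 : Matrix ι ι F) := by rw [two_smul]; abel
    rw [this, smul_smul, inv_mul_cancel₀ h2, one_smul]
  have hdiff : P - P' = g := by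
    rw [hP, hP', ← smul_sub]
    have : (1 + g) - (1 - g) = (2 : F) • g := by rw [two_smul]; abel
    rw [this, smul_smul, inv_mul_cancel₀ h2, one_smul]
  have hhP : h * P = P' * h := by
    rw [hP, hP', Matrix.mul_smul, Matrix.smul_mul, Matrix.mul_add, Matrix.sub_mul, hanti]
    simp [sub_eq_add_neg]
  have hhP' : h * P' = P * h := by
    rw [hP, hP', Matrix.mul_smul, Matrix.smul_mul, Matrix.mul_sub, Matrix.add_mul, hanti]
    simp [sub_eq_add_neg]
  obtain ⟨A, hA⟩ : ∃ A : Matrix ι ι F[X], A = cm P + (X : F[X]) • cm P' := ⟨_, rfl⟩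
  obtain ⟨B, hB⟩ : ∃ B : Matrix ι ι F[X], B = cm P' + (X : F[X]) • cm P := ⟨_, rfl⟩
  have hAB : A * B = (X : F[X]) • (1 : Matrix ι ι F[X]) := by
    rw [hA, hB]
    simp only [Matrix.add_mul, Matrix.mul_add, Matrix.smul_mul, Matrix.mul_smul, ← cm_mul, hPP',
      hP'P, hPP, hP'P', cm_zero, smul_zero, zero_add, add_zero]
    rw [← smul_add, ← cm_add, add_comm, hsum, cm_one]
  have hHA : cm h * A = B * cm h := by
    rw [hA, hB]
    simp only [Matrix.add_mul, Matrix.mul_add, Matrix.smul_mul, Matrix.mul_smul, ← cm_mul, hhP,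
      hhP']
  have hdetAB : A.det = B.det := by
    have h1 := congrArg Matrix.det hHA
    rw [Matrix.det_mul, Matrix.det_mul, det_cm, mul_comm] at h1
    exact mul_right_cancel₀ (C_ne_zero.mpr hh) h1
  have hsq : A.det ^ 2 = ((X : F[X]) ^ n) ^ 2 := by
    have h1 := congrArg Matrix.det hAB
    rw [Matrix.det_mul, ← hdetAB, Matrix.det_smul, Matrix.det_one, mul_one, hcard] at h1
    rw [pow_two, h1, ← pow_mul, mul_comm]
  have hev1 : ev (1 : F) A = 1 := by
    rw [hA, ev_add, ev_smul, ev_cm, ev_cm, eval_X, one_smul, hsum]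
  have hevm : ev (-1 : F) A = g := by
    rw [hA, ev_add, ev_smul, ev_cm, ev_cm, eval_X, neg_one_smul, ← sub_eq_add_neg, hdiff]
  rcases sq_eq_sq_iff_eq_or_eq_neg.mp hsq with hd | hd
  · have h1 := det_ev (-1 : F) A
    rw [hevm, hd, eval_pow, eval_X] at h1
    exact h1
  · exfalso
    have h1 := det_ev (1 : F) A
    rw [hev1, hd, Matrix.det_one, eval_neg, eval_pow, eval_X, one_pow] at h1
    have h3 : (2 : F) = 0 := by linear_combination h1
    exact h2 h3

end Cfsg.Agent.Helper72.GmPAR
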