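import Mathlib

set_option autoImplicit false

namespace Cfsg.Agent.Helper72.GmGRS

open Matrix

/-- **GRS**: the Gram identity of a semisimilarity. -/
theorem gram_of_semi {ι : Type*} [Fintype ι] [DecidableEq ι] {F : Type*} [Field F]
    (h2 : (2 : F) ≠ 0) (Q : (ι → F) → F) (J : Matrix ι ι F)
    (hJ : ∀ v, 2 * Q v = v ⬝ᵥ (J *ᵥ v)) (hJs : Jᵀ = J) (A : Matrix ι ι F) (σ : F ≃+* F) (μ : F)
    (hsemi : ∀ v : ι → F, Q (A *ᵥ (fun i => σ (v i))) = μ * σ (Q v)) :
    Aᵀ * J * A = μ • J.map σ := by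
  obtain ⟨S, hS⟩ : ∃ S, S = Aᵀ * J * A - μ • J.map σ := ⟨_, rfl⟩
  have hSs : Sᵀ = S := by
    rw [hS, Matrix.transpose_sub, Matrix.transpose_mul, Matrix.transpose_mul,
      Matrix.transpose_transpose, Matrix.transpose_smul, ← Matrix.transpose_map, hJs, mul_assoc]
  have e0 : ∀ u : ι → F, u ⬝ᵥ ((Aᵀ * J * A) *ᵥ u) = (A *ᵥ u) ⬝ᵥ (J *ᵥ (A *ᵥ u)) := by
    intro u
    rw [← Matrix.mulVec_mulVec, ← Matrix.mulVec_mulVec, Matrix.dotProduct_mulVec u Aᵀ,
      Matrix.vecMul_transpose]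
  have hq : ∀ w, w ⬝ᵥ (S *ᵥ w) = 0 := by
    intro w
    obtain ⟨v, rfl⟩ : ∃ v : ι → F, w = fun i => σ (v i) :=
      ⟨fun i => σ.symm (w i), by funext i; simp⟩
    rw [hS, Matrix.sub_mulVec, dotProduct_sub, e0, ← hJ, hsemi]
    have e2 : (fun i => σ (v i)) ⬝ᵥ ((μ • J.map σ) *ᵥ (fun i => σ (v i)))
        = μ * σ (v ⬝ᵥ (J *ᵥ v)) := by
      rw [Matrix.smul_mulVec, dotProduct_smul, smul_eq_mul]
      congr 1
      simp only [dotProduct, Matrix.mulVec, Matrix.map_apply, map_sum, map_mul]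
    rw [e2, ← hJ, map_mul]
    have : σ (2 : F) = 2 := map_ofNat σ 2
    rw [this]; ring
  have hS0 : S = 0 := by
    ext i j
    have h1 := hq (Pi.single i 1 + Pi.single j 1)
    have hi := hq (Pi.single i 1)
    have hj := hq (Pi.single j 1)
    simp only [Matrix.mulVec_add, dotProduct_add, add_dotProduct, Matrix.mulVec_single_one,
      single_one_dotProduct, Matrix.col_apply] at h1 hi hj
    have hij : S j i = S i j := by
      have := congrFun (congrFun hSs i) j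
      simpa using this
    rw [hi, hj, hij] at h1
    have h3 : 2 * S i j = 0 := by linear_combination h1
    rcases mul_eq_zero.mp h3 with h | h
    · exact absurd h h2
    · simpa using h
  rw [hS] at hS0
  exact sub_eq_zero.mp hS0

end Cfsg.Agent.Helper72.GmGRS
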