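import Mathlib

set_option autoImplicit false

namespace Cfsg.Agent.Helper72.GmL

open Matrix

/-- **L**: the fixed elements of an involutory field automorphism `σ ≠ 1` of a finite field of odd
characteristic are squares. -/
theorem isSquare_of_fixed {F : Type*} [Field F] [Fintype F] (h2 : (2 : F) ≠ 0) (σ : F ≃+* F)
    (hσ : σ ≠ RingEquiv.refl F) (hσ2 : ∀ x, σ (σ x) = x) (c : F) (hc : σ c = c) : IsSquare c := by
  classical
  by_cases hc0 : c = 0
  · rw [hc0]; exact ⟨0, by simp⟩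
  obtain ⟨θ, hθ⟩ : ∃ θ, σ θ ≠ θ := by
    by_contra hcon
    push Not at hcon
    exact hσ (RingEquiv.ext hcon)
  obtain ⟨ω, hω⟩ : ∃ ω : F, ω = θ - σ θ := ⟨_, rfl⟩
  have hω0 : ω ≠ 0 := by rw [hω]; exact sub_ne_zero.mpr (Ne.symm hθ)
  have hσω : σ ω = -ω := by rw [hω, map_sub, hσ2]; ring
  have hfix_ne : ∀ b : F, σ b = b → ω ≠ b ∧ ω ≠ -b := by
    intro b hb
    constructor
    · intro h
      have h3 : σ ω = ω := by rw [h]; exact hb
      rw [hσω] at h3
      have h4 : (2 : F) * ω = 0 := by linear_combination -h3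
      rcases mul_eq_zero.mp h4 with h5 | h5
      · exact h2 h5
      · exact hω0 h5
    · intro h
      have h3 : σ ω = ω := by rw [h, map_neg, hb]
      rw [hσω] at h3
      have h4 : (2 : F) * ω = 0 := by linear_combination -h3
      rcases mul_eq_zero.mp h4 with h5 | h5
      · exact h2 h5
      · exact hω0 h5
  let F₀ : Subfield F := (σ : F →+* F).eqLocusField (RingHom.id F)
  have hmem : ∀ x : F, x ∈ F₀ ↔ σ x = x := fun x => Iff.rfl
  have : Fintype F₀ := Fintype.ofFinite F₀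
  have hw : σ (ω * ω) = ω * ω := by rw [map_mul, hσω]; ring
  obtain ⟨c₀, hc₀⟩ : ∃ c₀ : F₀, (c₀ : F) = c := ⟨⟨c, (hmem c).mpr hc⟩, rfl⟩
  obtain ⟨w, hw₀⟩ : ∃ w : F₀, (w : F) = ω * ω := ⟨⟨ω * ω, (hmem _).mpr hw⟩, rfl⟩
  by_cases hsq : IsSquare c₀
  · obtain ⟨b, hb⟩ := hsq
    refine ⟨(b : F), ?_⟩
    rw [← hc₀, hb]; rfl
  · have hwsq : ¬ IsSquare w := by
      rintro ⟨b, hb⟩
      have hb' : ω * ω = (b : F) * (b : F) := by rw [← hw₀, hb]; rfl
      have hbfix : σ (b : F) = (b : F) := (hmem _).mp b.2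
      rcases mul_self_eq_mul_self_iff.mp hb' with h | h
      · exact (hfix_ne _ hbfix).1 h
      · exact (hfix_ne _ hbfix).2 h
    have h1 := quadraticChar_neg_one_iff_not_isSquare.mpr hsq
    have h2' := quadraticChar_neg_one_iff_not_isSquare.mpr hwsq
    have hc₀0 : c₀ ≠ 0 := by
      intro h; apply hc0; rw [← hc₀, h]; rfl
    have hw0 : w ≠ 0 := by
      intro h
      have : ω * ω = 0 := by rw [← hw₀, h]; rfl
      exact hω0 (mul_self_eq_zero.mp this)
    have h3 : quadraticChar F₀ (c₀ * w) = 1 := by rw [map_mul, h1, h2']; norm_num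
    obtain ⟨b, hb⟩ := (quadraticChar_one_iff_isSquare (mul_ne_zero hc₀0 hw0)).mp h3
    have hb' : c * (ω * ω) = (b : F) * (b : F) := by
      rw [← hc₀, ← hw₀]
      have := congrArg Subtype.val hb
      simpa using this
    refine ⟨(b : F) / ω, ?_⟩
    field_simp
    linear_combination hb'

end Cfsg.Agent.Helper72.GmL
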