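import Mathlib
import Cfsg.Agent.Helper94.ULag
import Cfsg.Agent.Helper94.USub
import Cfsg.Agent.Helper94.UK
import Cfsg.Agent.Helper97.UNot
import Cfsg.Agent.Helper5.UnitSU

set_option autoImplicit false
open Cfsg Cfsg.Geo Matrix
open Cfsg.Agent.Helper94
open scoped MatrixGroups

namespace Cfsg.Agent.Helper72

universe u

variable {F : Type u} [Field F] {ι : Type} [Fintype ι] [DecidableEq ι]
variable {σ : F ≃+* F} {f : (ι → F) → (ι → F) → F}

theorem bu_cardq_aux (Q : ℕ) (m : ℕ) :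
    ∏ i ∈ Finset.range (m + 1), (Q ^ (m + 1) - Q ^ i) =
      (Q ^ (m + 1) - 1) * (Q ^ m * ∏ i ∈ Finset.range m, (Q ^ m - Q ^ i)) := by
  rw [Finset.prod_range_succ', pow_zero, mul_comm]
  congr 1
  have : ∀ i ∈ Finset.range m, Q ^ (m + 1) - Q ^ (i + 1) = Q * (Q ^ m - Q ^ i) := by
    intro i _
    rw [Nat.mul_sub, pow_succ, pow_succ, mul_comm Q, mul_comm Q]
  rw [Finset.prod_congr rfl this, Finset.prod_mul_distrib, Finset.prod_const, Finset.card_range]

/-- CARDQ -/
theorem bu_card_arith (q m : ℕ) (_hq : 2 ≤ q) :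
    q ^ (2 * m * (2 * m - 1) / 2) *
        ∏ i ∈ Finset.range (2 * m), (if Even i then q ^ (i + 1) + 1 else q ^ (i + 1) - 1)
      = (∏ i : Fin m, ((q ^ 2) ^ m - (q ^ 2) ^ (i : ℕ))) *
        (q ^ (m * m) * ∏ j ∈ Finset.range m, (q ^ (2 * j + 1) + 1)) := by
  rw [Fin.prod_univ_eq_prod_range (fun i => (q ^ 2) ^ m - (q ^ 2) ^ i) m]
  induction m with
  | zero => simp
  | succ m ih =>
    rw [bu_cardq_aux, Finset.prod_range_succ (fun j => q ^ (2 * j + 1) + 1)]
    have e1 : 2 * (m + 1) = 2 * m + 1 + 1 := by ring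
    rw [e1, Finset.prod_range_succ, Finset.prod_range_succ]
    have hev : Even (2 * m) := even_two_mul m
    have hodd : ¬ Even (2 * m + 1) := by
      rw [Nat.not_even_iff_odd]; exact odd_two_mul_add_one m
    rw [if_pos hev, if_neg hodd]
    have e2 : (2 * m + 1 + 1) * (2 * m + 1 + 1 - 1) / 2
        = 2 * m * (2 * m - 1) / 2 + (4 * m + 1) := by
      have a1 : (2 * m + 1 + 1) * (2 * m + 1 + 1 - 1) = 2 * ((m + 1) * (2 * m + 1)) := by
        rw [Nat.add_sub_cancel]; ring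
      have a2 : 2 * m * (2 * m - 1) = 2 * (m * (2 * m - 1)) := by ring
      rw [a1, a2, Nat.mul_div_cancel_left _ (by norm_num), Nat.mul_div_cancel_left _ (by norm_num)]
      rcases Nat.eq_zero_or_pos m with h0 | hpos
      · subst h0; simp
      · obtain ⟨k, rfl⟩ : ∃ k, m = k + 1 := ⟨m - 1, by omega⟩
        have : 2 * (k + 1) - 1 = 2 * k + 1 := by omega
        rw [this]; ring
    rw [e2, pow_add]
    have e3 : (q ^ 2) ^ (m + 1) = q ^ (2 * m + 1 + 1) := by
      rw [← pow_mul]; congr 1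
    have e5 : q ^ ((m + 1) * (m + 1)) = q ^ (m * m) * q ^ (2 * m + 1) := by
      rw [← pow_add]; congr 1; ring
    have e6 : q ^ (4 * m + 1) = (q ^ 2) ^ m * q ^ (2 * m + 1) := by
      rw [← pow_mul, ← pow_add]; congr 1; ring
    rw [e3, e5, e6]
    generalize q ^ (2 * m + 1 + 1) - 1 = Y
    generalize q ^ (2 * m + 1) + 1 = X
    generalize q ^ (2 * m + 1) = Z
    generalize (q ^ 2) ^ m = T at ih ⊢
    generalize q ^ (2 * m * (2 * m - 1) / 2) = A at ih ⊢
    generalize (∏ x ∈ Finset.range (2 * m), if Even x then q ^ (x + 1) + 1 else q ^ (x + 1) - 1)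
      = Pg at ih ⊢
    generalize q ^ (m * m) = R at ih ⊢
    calc A * (T * Z) * (Pg * X * Y) = (A * Pg) * (T * Z * X * Y) := by ring
      _ = _ := by rw [ih]; ring

end Cfsg.Agent.Helper72
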