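import Mathlib
import Cfsg.Agent.Helper94.ULag
import Cfsg.Agent.Helper94.USub
import Cfsg.Agent.Helper94.UK
import Cfsg.Agent.Helper97.UNot
import Cfsg.Agent.Helper5.UnitSU

set_option autoImplicit false
open Cfsg Cfsg.Geo Matrix
open Cfsg.Agent.Helper94
open scoped MatrixGroups

namespace Cfsg.Agent.Helper72

universe u

variable {F : Type u} [Field F] {ι : Type} [Fintype ι] [DecidableEq ι]
variable {σ : F ≃+* F} {f : (ι → F) → (ι → F) → F}

/-- IDXG -/
theorem bu_index_glue {G : Type*} [Group G] (K S H E : Subgroup G) [Finite K] (hS : S.Normal)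
    (hEH : E ≤ H) (hEK : E ≤ K) : H.relIndex (K ⊓ S) ∣ E.relIndex K := by
  refine (Subgroup.relIndex_dvd_of_le_left (K ⊓ S) hEH).trans ?_
  have h1 := Subgroup.relIndex_inf_mul_relIndex E S K
  have h2 := Subgroup.relIndex_inf_mul_relIndex S E K
  rw [inf_eq_left.mpr hEK] at h2
  have : Finite E := Finite.of_injective (Subgroup.inclusion hEK) (Subgroup.inclusion_injective hEK)
  have h3 : S.relIndex E ∣ S.relIndex K := by
    have e1 := Subgroup.relIndex_ker (QuotientGroup.mk' S) (K := E)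
    have e2 := Subgroup.relIndex_ker (QuotientGroup.mk' S) (K := K)
    rw [QuotientGroup.ker_mk'] at e1 e2
    rw [e1, e2]
    exact Subgroup.card_dvd_of_le (Subgroup.map_mono hEK)
  have h4 : S.relIndex E ≠ 0 := by
    intro h0
    have := Subgroup.relIndex_dvd_card S E
    rw [h0] at this
    exact Nat.card_pos.ne' (Nat.eq_zero_of_zero_dvd this)
  obtain ⟨t, ht⟩ := h3
  rw [inf_comm K S]
  refine ⟨t, ?_⟩
  rw [inf_comm S E, ← h1, ht] at h2
  have h5 : S.relIndex E * E.relIndex K = S.relIndex E * (E.relIndex (S ⊓ K) * t) := by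
    rw [h2]; ring
  exact Nat.eq_of_mul_eq_mul_left (Nat.pos_of_ne_zero h4) h5

end Cfsg.Agent.Helper72
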