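import Mathlib
import Cfsg.Agent.Helper94.ULag
import Cfsg.Agent.Helper94.USub
import Cfsg.Agent.Helper94.UK
import Cfsg.Agent.Helper97.UNot
import Cfsg.Agent.Helper5.UnitSU

set_option autoImplicit false
open Cfsg Cfsg.Geo Matrix
open Cfsg.Agent.Helper94
open scoped MatrixGroups

namespace Cfsg.Agent.Helper72

universe u

variable {F : Type u} [Field F] {ι : Type} [Fintype ι] [DecidableEq ι]
variable {σ : F ≃+* F} {f : (ι → F) → (ι → F) → F}

/-- LAM -/
theorem bu_lambda [Fintype F] {q n : ℕ} (hF : Fintype.card F = q ^ 2) (hq : Odd q) (hn : 0 < n)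
    (hv : padicValNat 2 n < padicValNat 2 (q + 1)) :
    ∃ l : F, l ^ (q + 1) = 1 ∧ l ^ n = -1 := by
  classical
  obtain ⟨g, hg⟩ := IsCyclic.exists_generator (α := Fˣ)
  have hord : orderOf g = q ^ 2 - 1 := by
    rw [orderOf_eq_card_of_forall_mem_zpowers hg, Nat.card_eq_fintype_card, Fintype.card_units, hF]
  have hq3 : 3 ≤ q := by
    obtain ⟨k, rfl⟩ := hq
    rcases Nat.eq_zero_or_pos k with h0 | hpos
    · subst h0
      have : 1 < Fintype.card F := Fintype.one_lt_card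
      rw [hF] at this; simp at this
    · omega
  set b := padicValNat 2 n with hb
  have h2b : 2 ^ (b + 1) ∣ q + 1 := (padicValNat_dvd_iff_le (by omega)).mpr hv
  obtain ⟨c, hc⟩ := h2b
  have hc0 : c ≠ 0 := by
    rintro rfl
    simp at hc
  obtain ⟨u, hu⟩ : 2 ^ b ∣ n := pow_padicValNat_dvd
  have hu_odd : Odd u := by
    rw [← Nat.not_even_iff_odd]
    rintro ⟨w, hw⟩
    have : 2 ^ (b + 1) ∣ n := ⟨w, by rw [hu, hw, pow_succ]; ring⟩
    exact pow_succ_padicValNat_not_dvd hn.ne' this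
  have hqq : q ^ 2 - 1 = (q - 1) * (q + 1) := by
    obtain ⟨k, rfl⟩ : ∃ k, q = k + 1 := ⟨q - 1, by omega⟩
    rw [Nat.add_sub_cancel]
    have : (k + 1) ^ 2 = k * (k + 1 + 1) + 1 := by ring
    rw [this, Nat.add_sub_cancel]
  have hN : (q - 1) * c * 2 ^ b * 2 = q ^ 2 - 1 := by
    rw [hqq, hc, pow_succ]; ring
  have hN0 : (q - 1) * c * 2 ^ b ≠ 0 :=
    Nat.mul_ne_zero (Nat.mul_ne_zero (by omega) hc0) (by positivity)
  have h1 : (g ^ ((q - 1) * c)) ^ (q + 1) = 1 := by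
    rw [← pow_mul]
    have : (q - 1) * c * (q + 1) = (q ^ 2 - 1) * c := by rw [hqq]; ring
    rw [this, pow_mul, ← hord, pow_orderOf_eq_one, one_pow]
  have h2 : ((g ^ ((q - 1) * c)) ^ 2 ^ b : Fˣ) = -1 := by
    have ht2 : ((g ^ ((q - 1) * c)) ^ 2 ^ b) ^ 2 = 1 := by
      rw [← pow_mul, ← pow_mul, ← mul_assoc, hN, ← hord, pow_orderOf_eq_one]
    have ht1 : (g ^ ((q - 1) * c)) ^ 2 ^ b ≠ 1 := by
      rw [← pow_mul]
      apply pow_ne_one_of_lt_orderOf hN0
      rw [hord, ← hN]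
      omega
    have h3 : (((g ^ ((q - 1) * c)) ^ 2 ^ b : Fˣ) : F) * (((g ^ ((q - 1) * c)) ^ 2 ^ b : Fˣ) : F)
        = 1 := by
      rw [← Units.val_mul, ← pow_two, ht2, Units.val_one]
    rcases mul_self_eq_one_iff.mp h3 with h | h
    · exact absurd (Units.ext h) ht1
    · exact Units.ext (by rw [h]; simp)
  refine ⟨((g ^ ((q - 1) * c) : Fˣ) : F), ?_, ?_⟩
  · rw [← Units.val_pow_eq_pow_val, h1, Units.val_one]
  · rw [hu, pow_mul, ← Units.val_pow_eq_pow_val, h2]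
    simp [hu_odd.neg_one_pow]

end Cfsg.Agent.Helper72
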