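import Mathlib
import Cfsg.Agent.Helper94.ULag
import Cfsg.Agent.Helper94.USub
import Cfsg.Agent.Helper94.UK
import Cfsg.Agent.Helper97.UNot
import Cfsg.Agent.Helper5.UnitSU

set_option autoImplicit false
open Cfsg Cfsg.Geo Matrix
open Cfsg.Agent.Helper94
open scoped MatrixGroups

namespace Cfsg.Agent.Helper72

universe u

variable {F : Type u} [Field F] {ι : Type} [Fintype ι] [DecidableEq ι]
variable {σ : F ≃+* F} {f : (ι → F) → (ι → F) → F}

/-- NSC -/
theorem bu_not_scalar (x : Matrix ι ι F) (z : F) (hx : x = z • (1 : Matrix ι ι F)) :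
    Module.finrank F (LinearMap.ker (Matrix.mulVecLin (x - 1))) = 0 ∨
      Module.finrank F (LinearMap.ker (Matrix.mulVecLin (x - 1))) = Fintype.card ι := by
  by_cases hz : z = 1
  · right
    have : x - 1 = 0 := by rw [hx, hz, one_smul, sub_self]
    rw [this]
    have h2 : LinearMap.ker (Matrix.mulVecLin (0 : Matrix ι ι F)) = ⊤ := by
      ext v; simp
    rw [h2, finrank_top, Module.finrank_fintype_fun_eq_card]
  · left
    have h2 : LinearMap.ker (Matrix.mulVecLin (x - 1)) = ⊥ := by
      rw [eq_bot_iff]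
      intro v hv
      rw [LinearMap.mem_ker, Matrix.mulVecLin_apply] at hv
      have e : x - 1 = (z - 1) • (1 : Matrix ι ι F) := by rw [hx, sub_smul, one_smul]
      rw [e, Matrix.smul_mulVec, Matrix.one_mulVec] at hv
      rcases smul_eq_zero.mp hv with h | h
      · exact absurd (sub_eq_zero.mp h) hz
      · rw [Submodule.mem_bot]; exact h
    rw [h2, finrank_bot]

end Cfsg.Agent.Helper72
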