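import Mathlib
import Cfsg.Agent.Helper94.ULag
import Cfsg.Agent.Helper94.USub
import Cfsg.Agent.Helper94.UK
import Cfsg.Agent.Helper97.UNot
import Cfsg.Agent.Helper5.UnitSU

set_option autoImplicit false
open Cfsg Cfsg.Geo Matrix
open Cfsg.Agent.Helper94
open scoped MatrixGroups

namespace Cfsg.Agent.Helper72

universe u

variable {F : Type u} [Field F] {ι : Type} [Fintype ι] [DecidableEq ι]
variable {σ : F ≃+* F} {f : (ι → F) → (ι → F) → F}

/-- ODD core -/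
theorem bu_no_swap_aux {W W' : Submodule F (ι → F)} (X : Matrix ι ι F)
    (h1 : ∀ a ∈ W, X *ᵥ a ∈ W') (h2 : ∀ b ∈ W', X *ᵥ b ∈ W) (j : ℕ) :
    (∀ a ∈ W, (X ^ (2 * j + 1)) *ᵥ a ∈ W') ∧ (∀ b ∈ W', (X ^ (2 * j + 1)) *ᵥ b ∈ W) := by
  induction j with
  | zero => simpa using ⟨h1, h2⟩
  | succ j ih =>
    have e : X ^ (2 * (j + 1) + 1) = X * (X * X ^ (2 * j + 1)) := by
      have : 2 * (j + 1) + 1 = 2 * j + 1 + 1 + 1 := by ring
      rw [this, pow_succ', pow_succ']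
    rw [e]
    constructor
    · intro a ha
      rw [← Matrix.mulVec_mulVec, ← Matrix.mulVec_mulVec]
      exact h1 _ (h2 _ (ih.1 a ha))
    · intro b hb
      rw [← Matrix.mulVec_mulVec, ← Matrix.mulVec_mulVec]
      exact h2 _ (h1 _ (ih.2 b hb))

/-- ODD -/
theorem bu_no_swap [Nonempty ι] {r : ℕ} (hr : Odd r) (x : GL ι F) (hxr : x ^ r = 1)
    {W W' : Submodule F (ι → F)} (p : ULagPair f W W') :
    ¬ ((∀ a ∈ W, (x : Matrix ι ι F) *ᵥ a ∈ W') ∧ (∀ b ∈ W', (x : Matrix ι ι F) *ᵥ b ∈ W)) := by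
  rintro ⟨h1, h2⟩
  obtain ⟨j, rfl⟩ := hr
  have hX : (x : Matrix ι ι F) ^ (2 * j + 1) = 1 := by
    have := congrArg (fun y : GL ι F => (y : Matrix ι ι F)) hxr
    simpa using this
  have h3 := bu_no_swap_aux (x : Matrix ι ι F) h1 h2 j
  rw [hX] at h3
  have hW : ∀ a ∈ W, a = 0 := fun a ha => p.disj a ha (by simpa using h3.1 a ha)
  have hW' : ∀ b ∈ W', b = 0 := fun b hb => p.disj b (by simpa using h3.2 b hb) hb
  obtain ⟨a, ha, b, hb, hab⟩ := p.dec (fun _ => (1 : F))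
  rw [hW a ha, hW' b hb, add_zero] at hab
  obtain ⟨i⟩ := ‹Nonempty ι›
  have := congrFun hab i
  simp at this

end Cfsg.Agent.Helper72
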