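import Mathlib
import Cfsg.Agent.Helper94.ULag
import Cfsg.Agent.Helper94.USub
import Cfsg.Agent.Helper94.UK
import Cfsg.Agent.Helper97.UNot
import Cfsg.Agent.Helper5.UnitSU

set_option autoImplicit false
open Cfsg Cfsg.Geo Matrix
open Cfsg.Agent.Helper94
open scoped MatrixGroups

namespace Cfsg.Agent.Helper72

universe u

variable {F : Type u} [Field F] {ι : Type} [Fintype ι] [DecidableEq ι]
variable {σ : F ≃+* F} {f : (ι → F) → (ι → F) → F}

/-- OM3, general diagonal form. -/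
theorem bu_omega3_aux [Fintype F] {q r : ℕ} (d : Fin 3 → F) (hq : ∀ i, d i ^ (q + 1) = 1)
    (hr : ∀ i, d i ^ r = 1) (h1 : ∀ i, d i ≠ 1) (hdet : d 0 * d 1 * d 2 = 1) :
    ∃ a : GL (Fin 3) F, a ∈ GU 3 F q ∧ (a : Matrix (Fin 3) (Fin 3) F).det = 1 ∧ a ^ r = 1 ∧
      ∀ v : Fin 3 → F, (a : Matrix (Fin 3) (Fin 3) F) *ᵥ v = v → v = 0 := by
  classical
  have hdet' : (Matrix.diagonal d).det = 1 := by
    rw [Matrix.det_diagonal, Fin.prod_univ_three]; exact hdet
  have hunit : IsUnit (Matrix.diagonal d).det := by rw [hdet']; exact isUnit_one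
  let a : GL (Fin 3) F := Matrix.GeneralLinearGroup.mk'' (Matrix.diagonal d) hunit
  have ha : (a : Matrix (Fin 3) (Fin 3) F) = Matrix.diagonal d := rfl
  refine ⟨a, Cfsg.Agent.Helper5.diagonal_mem_GU d hq a ha, ?_, ?_, ?_⟩
  · rw [ha]; exact hdet'
  · apply Units.ext
    rw [Units.val_pow_eq_pow_val, ha, Matrix.diagonal_pow, Units.val_one]
    have : d ^ r = fun _ => (1 : F) := by
      funext i; exact hr i
    rw [this]; exact Matrix.diagonal_one
  · intro v hv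
    rw [ha] at hv
    funext i
    have h := congrFun hv i
    rw [Matrix.mulVec_diagonal] at h
    have h2 : (d i - 1) * v i = 0 := by rw [sub_mul, h, one_mul, sub_self]
    rcases mul_eq_zero.mp h2 with h3 | h3
    · exact absurd (sub_eq_zero.mp h3) (h1 i)
    · exact h3

/-- OM3 -/
theorem bu_omega3 [Fintype F] {q r : ℕ} (hF : Fintype.card F = q ^ 2) (hr : r.Prime) (hr2 : r ≠ 2)
    (hrq : r ∣ q + 1) :
    ∃ a : GL (Fin 3) F, a ∈ GU 3 F q ∧ (a : Matrix (Fin 3) (Fin 3) F).det = 1 ∧ a ^ r = 1 ∧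
      ∀ v : Fin 3 → F, (a : Matrix (Fin 3) (Fin 3) F) *ᵥ v = v → v = 0 := by
  classical
  have := Fact.mk hr
  have hq1 : 1 ≤ q := by
    rcases Nat.eq_zero_or_pos q with h0 | h
    · subst h0
      have : 0 < Fintype.card F := Fintype.card_pos
      rw [hF] at this; simp at this
    · exact h
  have hqq : q ^ 2 - 1 = (q - 1) * (q + 1) := by
    obtain ⟨k, rfl⟩ : ∃ k, q = k + 1 := ⟨q - 1, by omega⟩
    rw [Nat.add_sub_cancel]
    have : (k + 1) ^ 2 = k * (k + 1 + 1) + 1 := by ring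
    rw [this, Nat.add_sub_cancel]
  have hdvd : r ∣ Fintype.card Fˣ := by
    rw [Fintype.card_units, hF, hqq]
    exact hrq.mul_left _
  obtain ⟨w, hw⟩ := exists_prime_orderOf_dvd_card r hdvd
  have hwr : w ^ r = 1 := by rw [← hw]; exact pow_orderOf_eq_one w
  have hwq : w ^ (q + 1) = 1 := by
    obtain ⟨t, ht⟩ := hrq; rw [ht, pow_mul, hwr, one_pow]
  have hw1 : w ≠ 1 := by
    intro h; rw [h, orderOf_one] at hw; exact hr.one_lt.ne hw
  have hw2 : w ^ 2 ≠ 1 := by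
    intro h
    have := orderOf_dvd_of_pow_eq_one h
    rw [hw] at this
    exact hr2 ((Nat.prime_dvd_prime_iff_eq hr Nat.prime_two).mp this)
  have hF1 : ((w : Fˣ) : F) ≠ 1 := fun h => hw1 (Units.ext h)
  have hF2 : ((((w ^ 2)⁻¹ : Fˣ)) : F) ≠ 1 := by
    intro h
    have : (w ^ 2)⁻¹ = 1 := Units.ext h
    exact hw2 (inv_eq_one.mp this)
  have hFq : ((w : Fˣ) : F) ^ (q + 1) = 1 := by
    rw [← Units.val_pow_eq_pow_val, hwq, Units.val_one]
  have hFr : ((w : Fˣ) : F) ^ r = 1 := by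
    rw [← Units.val_pow_eq_pow_val, hwr, Units.val_one]
  have hFq2 : ((((w ^ 2)⁻¹ : Fˣ)) : F) ^ (q + 1) = 1 := by
    rw [← Units.val_pow_eq_pow_val, inv_pow, ← pow_mul, mul_comm, pow_mul, hwq, one_pow, inv_one,
      Units.val_one]
  have hFr2 : ((((w ^ 2)⁻¹ : Fˣ)) : F) ^ r = 1 := by
    rw [← Units.val_pow_eq_pow_val, inv_pow, ← pow_mul, mul_comm, pow_mul, hwr, one_pow, inv_one,
      Units.val_one]
  refine bu_omega3_aux (q := q) (r := r) ![((w : Fˣ) : F), ((w : Fˣ) : F), ((((w ^ 2)⁻¹ : Fˣ)) : F)]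
    ?_ ?_ ?_ ?_
  · intro i; fin_cases i
    · exact hFq
    · exact hFq
    · exact hFq2
  · intro i; fin_cases i
    · exact hFr
    · exact hFr
    · exact hFr2
  · intro i; fin_cases i
    · exact hF1
    · exact hF1
    · exact hF2
  · show ((w : Fˣ) : F) * ((w : Fˣ) : F) * ((((w ^ 2)⁻¹ : Fˣ)) : F) = 1
    rw [← Units.val_mul, ← Units.val_mul, ← pow_two, mul_inv_cancel, Units.val_one]

end Cfsg.Agent.Helper72
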