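import Mathlib
import Cfsg.Prelude.Def_GeometricClasses
import Cfsg.Prelude.Def_ClassicalGeometry
import Cfsg.Agent.Helper13.SympGen

/-!
# CALL S5975, piece JMAT (helper72)

A symplectic basis `e₁, e₂, f₁, f₂` of the 4-dimensional symplectic space carries a
self-adjoint matrix `J'` with `J'² = n` acting by `e₁ ↦ e₂ ↦ n e₁`, `f₁ ↦ n f₂`, `f₂ ↦ f₁`.
-/

set_option autoImplicit false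

namespace Cfsg.Agent.Helper72

open Matrix Module

section c3ej
variable {F : Type*} [Field F]

/-- the matrix with columns `f₁, f₂` (left block) and `e₁, e₂` (right block) -/
def c3ejA (e₁ e₂ f₁ f₂ : Fin 2 ⊕ Fin 2 → F) : Matrix (Fin 2 ⊕ Fin 2) (Fin 2 ⊕ Fin 2) F :=
  Matrix.of fun i j => Sum.elim ![f₁ i, f₂ i] ![e₁ i, e₂ i] j

/-- the model matrix in standard coordinates -/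
def c3ejJ0 (n : F) : Matrix (Fin 2 ⊕ Fin 2) (Fin 2 ⊕ Fin 2) F :=
  Matrix.fromBlocks !![0, 1; n, 0] 0 0 !![0, n; 1, 0]

theorem c3ejA_mulVec (e₁ e₂ f₁ f₂ v : Fin 2 ⊕ Fin 2 → F) :
    c3ejA e₁ e₂ f₁ f₂ *ᵥ v = v (Sum.inl 0) • f₁ + v (Sum.inl 1) • f₂ + v (Sum.inr 0) • e₁
      + v (Sum.inr 1) • e₂ := by
  funext i
  simp [c3ejA, Matrix.mulVec, dotProduct, Fintype.sum_sum_type, Fin.sum_univ_two]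
  ring

theorem c3ejJ0_mulVec (n : F) (v : Fin 2 ⊕ Fin 2 → F) :
    c3ejJ0 n *ᵥ v = v (Sum.inl 0) • (n • Pi.single (Sum.inl 1) (1 : F))
      + v (Sum.inl 1) • Pi.single (Sum.inl 0) (1 : F)
      + v (Sum.inr 0) • Pi.single (Sum.inr 1) (1 : F)
      + v (Sum.inr 1) • (n • Pi.single (Sum.inr 0) (1 : F)) := by
  funext i
  rcases i with i | i <;> fin_cases i <;>
    simp [c3ejJ0, Matrix.mulVec, dotProduct, Fintype.sum_sum_type, Fin.sum_univ_two] <;> ring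

theorem c3ejJ0_sq (n : F) : c3ejJ0 n * c3ejJ0 n = n • (1 : Matrix (Fin 2 ⊕ Fin 2) (Fin 2 ⊕ Fin 2) F) := by
  apply Cfsg.Agent.Helper13.mulVec_ext
  intro v
  rw [← Matrix.mulVec_mulVec, Matrix.smul_mulVec, Matrix.one_mulVec]
  funext i
  rcases i with i | i <;> fin_cases i <;>
    simp [c3ejJ0, Matrix.mulVec, dotProduct, Fintype.sum_sum_type, Fin.sum_univ_two]

theorem c3ejJ0_sa (n : F) (u v : Fin 2 ⊕ Fin 2 → F) :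
    Cfsg.sympForm 2 F (c3ejJ0 n *ᵥ u) v = Cfsg.sympForm 2 F u (c3ejJ0 n *ᵥ v) := by
  rw [Cfsg.Agent.Helper13.sympForm_apply, Cfsg.Agent.Helper13.sympForm_apply]
  simp [c3ejJ0, Matrix.mulVec, dotProduct, Fintype.sum_sum_type, Fin.sum_univ_two]
  ring

variable (e₁ e₂ f₁ f₂ : Fin 2 ⊕ Fin 2 → F)

theorem c3ejA_symp (h11 : Cfsg.sympForm 2 F e₁ f₁ = 1) (h22 : Cfsg.sympForm 2 F e₂ f₂ = 1)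
    (h12 : Cfsg.sympForm 2 F e₁ f₂ = 0) (h21 : Cfsg.sympForm 2 F e₂ f₁ = 0)
    (hee : Cfsg.sympForm 2 F e₁ e₂ = 0) (hff : Cfsg.sympForm 2 F f₁ f₂ = 0)
    (u v : Fin 2 ⊕ Fin 2 → F) :
    Cfsg.sympForm 2 F (c3ejA e₁ e₂ f₁ f₂ *ᵥ u) (c3ejA e₁ e₂ f₁ f₂ *ᵥ v) = Cfsg.sympForm 2 F u v := by
  have s := fun a b : Fin 2 ⊕ Fin 2 → F => Cfsg.Agent.Helper13.sympForm_swap (m := 2) a b
  have k1 : Cfsg.sympForm 2 F f₁ e₁ = -1 := by rw [s, h11]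
  have k2 : Cfsg.sympForm 2 F f₂ e₂ = -1 := by rw [s, h22]
  have k3 : Cfsg.sympForm 2 F f₂ e₁ = 0 := by rw [s, h12, neg_zero]
  have k4 : Cfsg.sympForm 2 F f₁ e₂ = 0 := by rw [s, h21, neg_zero]
  have k5 : Cfsg.sympForm 2 F e₂ e₁ = 0 := by rw [s, hee, neg_zero]
  have k6 : Cfsg.sympForm 2 F f₂ f₁ = 0 := by rw [s, hff, neg_zero]
  rw [c3ejA_mulVec, c3ejA_mulVec]
  simp only [Cfsg.Agent.Helper13.sympForm_add_left, Cfsg.Agent.Helper13.sympForm_add_right,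
    Cfsg.Agent.Helper13.sympForm_smul_left, Cfsg.Agent.Helper13.sympForm_smul_right,
    Cfsg.Agent.Helper13.sympForm_self, h11, h22, h12, h21, hee, hff, k1, k2, k3, k4, k5, k6]
  rw [Cfsg.Agent.Helper13.sympForm_apply, Fin.sum_univ_two]
  ring

theorem c3ejA_det (h11 : Cfsg.sympForm 2 F e₁ f₁ = 1) (h22 : Cfsg.sympForm 2 F e₂ f₂ = 1)
    (h12 : Cfsg.sympForm 2 F e₁ f₂ = 0) (h21 : Cfsg.sympForm 2 F e₂ f₁ = 0)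
    (hee : Cfsg.sympForm 2 F e₁ e₂ = 0) (hff : Cfsg.sympForm 2 F f₁ f₂ = 0) :
    IsUnit (c3ejA e₁ e₂ f₁ f₂).det :=
  SymplecticGroup.symplectic_det
    ((Cfsg.Agent.Helper13.mem_symplecticGroup_iff_sympForm _).mpr
      (c3ejA_symp e₁ e₂ f₁ f₂ h11 h22 h12 h21 hee hff))

/-- the transported matrix -/
noncomputable def c3ejJ (n : F) : Matrix (Fin 2 ⊕ Fin 2) (Fin 2 ⊕ Fin 2) F :=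
  c3ejA e₁ e₂ f₁ f₂ * c3ejJ0 n * (c3ejA e₁ e₂ f₁ f₂)⁻¹

theorem c3ejJ_mulVec (n : F) (hA : IsUnit (c3ejA e₁ e₂ f₁ f₂).det) (v : Fin 2 ⊕ Fin 2 → F) :
    c3ejJ e₁ e₂ f₁ f₂ n *ᵥ (c3ejA e₁ e₂ f₁ f₂ *ᵥ v) = c3ejA e₁ e₂ f₁ f₂ *ᵥ (c3ejJ0 n *ᵥ v) := by
  rw [c3ejJ, Matrix.mulVec_mulVec, Matrix.mul_assoc, Matrix.nonsing_inv_mul _ hA, Matrix.mul_one,
    Matrix.mulVec_mulVec]

theorem c3ejA_inv_mulVec (hA : IsUnit (c3ejA e₁ e₂ f₁ f₂).det) (v : Fin 2 ⊕ Fin 2 → F) :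
    c3ejA e₁ e₂ f₁ f₂ *ᵥ ((c3ejA e₁ e₂ f₁ f₂)⁻¹ *ᵥ v) = v := by
  rw [Matrix.mulVec_mulVec, Matrix.mul_nonsing_inv _ hA, Matrix.one_mulVec]

theorem c3ejJ_sq (n : F) (hA : IsUnit (c3ejA e₁ e₂ f₁ f₂).det) :
    c3ejJ e₁ e₂ f₁ f₂ n * c3ejJ e₁ e₂ f₁ f₂ n = n • (1 : Matrix (Fin 2 ⊕ Fin 2) (Fin 2 ⊕ Fin 2) F) := by
  unfold c3ejJ
  calc c3ejA e₁ e₂ f₁ f₂ * c3ejJ0 n * (c3ejA e₁ e₂ f₁ f₂)⁻¹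
        * (c3ejA e₁ e₂ f₁ f₂ * c3ejJ0 n * (c3ejA e₁ e₂ f₁ f₂)⁻¹)
      = c3ejA e₁ e₂ f₁ f₂ * c3ejJ0 n * ((c3ejA e₁ e₂ f₁ f₂)⁻¹ * c3ejA e₁ e₂ f₁ f₂)
        * c3ejJ0 n * (c3ejA e₁ e₂ f₁ f₂)⁻¹ := by simp only [Matrix.mul_assoc]
    _ = c3ejA e₁ e₂ f₁ f₂ * (c3ejJ0 n * c3ejJ0 n) * (c3ejA e₁ e₂ f₁ f₂)⁻¹ := by
        rw [Matrix.nonsing_inv_mul _ hA, Matrix.mul_one]
        simp only [Matrix.mul_assoc]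
    _ = n • (1 : Matrix (Fin 2 ⊕ Fin 2) (Fin 2 ⊕ Fin 2) F) := by
        rw [c3ejJ0_sq, Matrix.mul_smul, Matrix.mul_one, Matrix.smul_mul,
          Matrix.mul_nonsing_inv _ hA]

theorem c3ejJ_sa (n : F) (hA : IsUnit (c3ejA e₁ e₂ f₁ f₂).det)
    (hs : ∀ u v, Cfsg.sympForm 2 F (c3ejA e₁ e₂ f₁ f₂ *ᵥ u) (c3ejA e₁ e₂ f₁ f₂ *ᵥ v)
      = Cfsg.sympForm 2 F u v) (u v : Fin 2 ⊕ Fin 2 → F) :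
    Cfsg.sympForm 2 F (c3ejJ e₁ e₂ f₁ f₂ n *ᵥ u) v
      = Cfsg.sympForm 2 F u (c3ejJ e₁ e₂ f₁ f₂ n *ᵥ v) := by
  have hu := c3ejA_inv_mulVec e₁ e₂ f₁ f₂ hA u
  have hv := c3ejA_inv_mulVec e₁ e₂ f₁ f₂ hA v
  calc Cfsg.sympForm 2 F (c3ejJ e₁ e₂ f₁ f₂ n *ᵥ u) v
      = Cfsg.sympForm 2 F
          (c3ejJ e₁ e₂ f₁ f₂ n *ᵥ (c3ejA e₁ e₂ f₁ f₂ *ᵥ ((c3ejA e₁ e₂ f₁ f₂)⁻¹ *ᵥ u)))
          (c3ejA e₁ e₂ f₁ f₂ *ᵥ ((c3ejA e₁ e₂ f₁ f₂)⁻¹ *ᵥ v)) := by rw [hu, hv]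
    _ = Cfsg.sympForm 2 F ((c3ejA e₁ e₂ f₁ f₂)⁻¹ *ᵥ u)
          (c3ejJ0 n *ᵥ ((c3ejA e₁ e₂ f₁ f₂)⁻¹ *ᵥ v)) := by
        rw [c3ejJ_mulVec _ _ _ _ n hA, hs, c3ejJ0_sa]
    _ = Cfsg.sympForm 2 F (c3ejA e₁ e₂ f₁ f₂ *ᵥ ((c3ejA e₁ e₂ f₁ f₂)⁻¹ *ᵥ u))
          (c3ejJ e₁ e₂ f₁ f₂ n *ᵥ (c3ejA e₁ e₂ f₁ f₂ *ᵥ ((c3ejA e₁ e₂ f₁ f₂)⁻¹ *ᵥ v))) := by
        rw [c3ejJ_mulVec _ _ _ _ n hA, hs]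
    _ = Cfsg.sympForm 2 F u (c3ejJ e₁ e₂ f₁ f₂ n *ᵥ v) := by rw [hu, hv]

theorem c3ejA_e1 : c3ejA e₁ e₂ f₁ f₂ *ᵥ Pi.single (Sum.inr 0) (1 : F) = e₁ := by
  rw [c3ejA_mulVec]; simp

theorem c3ejA_e2 : c3ejA e₁ e₂ f₁ f₂ *ᵥ Pi.single (Sum.inr 1) (1 : F) = e₂ := by
  rw [c3ejA_mulVec]; simp

theorem c3ejA_f1 : c3ejA e₁ e₂ f₁ f₂ *ᵥ Pi.single (Sum.inl 0) (1 : F) = f₁ := by
  rw [c3ejA_mulVec]; simp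

theorem c3ejA_f2 : c3ejA e₁ e₂ f₁ f₂ *ᵥ Pi.single (Sum.inl 1) (1 : F) = f₂ := by
  rw [c3ejA_mulVec]; simp

theorem c3ejJ_e1 (n : F) (hA : IsUnit (c3ejA e₁ e₂ f₁ f₂).det) :
    c3ejJ e₁ e₂ f₁ f₂ n *ᵥ e₁ = e₂ := by
  have h := c3ejJ_mulVec e₁ e₂ f₁ f₂ n hA (Pi.single (Sum.inr 0) (1 : F))
  rw [c3ejA_e1] at h
  rw [h, c3ejJ0_mulVec, c3ejA_mulVec]
  simp

theorem c3ejJ_e2 (n : F) (hA : IsUnit (c3ejA e₁ e₂ f₁ f₂).det) :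
    c3ejJ e₁ e₂ f₁ f₂ n *ᵥ e₂ = n • e₁ := by
  have h := c3ejJ_mulVec e₁ e₂ f₁ f₂ n hA (Pi.single (Sum.inr 1) (1 : F))
  rw [c3ejA_e2] at h
  rw [h, c3ejJ0_mulVec, c3ejA_mulVec]
  simp

theorem c3ejJ_f1 (n : F) (hA : IsUnit (c3ejA e₁ e₂ f₁ f₂).det) :
    c3ejJ e₁ e₂ f₁ f₂ n *ᵥ f₁ = n • f₂ := by
  have h := c3ejJ_mulVec e₁ e₂ f₁ f₂ n hA (Pi.single (Sum.inl 0) (1 : F))
  rw [c3ejA_f1] at h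
  rw [h, c3ejJ0_mulVec, c3ejA_mulVec]
  simp

theorem c3ejJ_f2 (n : F) (hA : IsUnit (c3ejA e₁ e₂ f₁ f₂).det) :
    c3ejJ e₁ e₂ f₁ f₂ n *ᵥ f₂ = f₁ := by
  have h := c3ejJ_mulVec e₁ e₂ f₁ f₂ n hA (Pi.single (Sum.inl 1) (1 : F))
  rw [c3ejA_f2] at h
  rw [h, c3ejJ0_mulVec, c3ejA_mulVec]
  simp

/-- two matrices agreeing on the four vectors are equal -/
theorem c3ejA_ext (hA : IsUnit (c3ejA e₁ e₂ f₁ f₂).det)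
    (M M' : Matrix (Fin 2 ⊕ Fin 2) (Fin 2 ⊕ Fin 2) F) (h1 : M *ᵥ e₁ = M' *ᵥ e₁)
    (h2 : M *ᵥ e₂ = M' *ᵥ e₂) (h3 : M *ᵥ f₁ = M' *ᵥ f₁) (h4 : M *ᵥ f₂ = M' *ᵥ f₂) : M = M' := by
  have h : M * c3ejA e₁ e₂ f₁ f₂ = M' * c3ejA e₁ e₂ f₁ f₂ := by
    apply Cfsg.Agent.Helper13.mulVec_ext
    intro v
    rw [← Matrix.mulVec_mulVec, ← Matrix.mulVec_mulVec, c3ejA_mulVec]
    simp only [Matrix.mulVec_add, Matrix.mulVec_smul, h1, h2, h3, h4]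
  calc M = M * c3ejA e₁ e₂ f₁ f₂ * (c3ejA e₁ e₂ f₁ f₂)⁻¹ := by
        rw [Matrix.mul_assoc, Matrix.mul_nonsing_inv _ hA, Matrix.mul_one]
    _ = M' := by rw [h, Matrix.mul_assoc, Matrix.mul_nonsing_inv _ hA, Matrix.mul_one]

end c3ej

/-- PIECE JMAT -/
theorem c3e_jmat {F : Type*} [Field F] (n : F) (e₁ e₂ f₁ f₂ : Fin 2 ⊕ Fin 2 → F)
    (h11 : Cfsg.sympForm 2 F e₁ f₁ = 1) (h22 : Cfsg.sympForm 2 F e₂ f₂ = 1)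
    (h12 : Cfsg.sympForm 2 F e₁ f₂ = 0) (h21 : Cfsg.sympForm 2 F e₂ f₁ = 0)
    (hee : Cfsg.sympForm 2 F e₁ e₂ = 0) (hff : Cfsg.sympForm 2 F f₁ f₂ = 0) :
    ∃ J' : Matrix (Fin 2 ⊕ Fin 2) (Fin 2 ⊕ Fin 2) F, J' * J' = n • (1 : Matrix _ _ F) ∧
      (∀ u v, Cfsg.sympForm 2 F (J' *ᵥ u) v = Cfsg.sympForm 2 F u (J' *ᵥ v)) ∧
      J' *ᵥ e₁ = e₂ ∧ J' *ᵥ e₂ = n • e₁ ∧ J' *ᵥ f₁ = n • f₂ ∧ J' *ᵥ f₂ = f₁ ∧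
      ∀ M M' : Matrix (Fin 2 ⊕ Fin 2) (Fin 2 ⊕ Fin 2) F, M *ᵥ e₁ = M' *ᵥ e₁ →
        M *ᵥ e₂ = M' *ᵥ e₂ → M *ᵥ f₁ = M' *ᵥ f₁ → M *ᵥ f₂ = M' *ᵥ f₂ → M = M' := by
  have hA := c3ejA_det e₁ e₂ f₁ f₂ h11 h22 h12 h21 hee hff
  have hs := c3ejA_symp e₁ e₂ f₁ f₂ h11 h22 h12 h21 hee hff
  exact ⟨c3ejJ e₁ e₂ f₁ f₂ n, c3ejJ_sq e₁ e₂ f₁ f₂ n hA, c3ejJ_sa e₁ e₂ f₁ f₂ n hA hs,
    c3ejJ_e1 e₁ e₂ f₁ f₂ n hA, c3ejJ_e2 e₁ e₂ f₁ f₂ n hA, c3ejJ_f1 e₁ e₂ f₁ f₂ n hA,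
    c3ejJ_f2 e₁ e₂ f₁ f₂ n hA, c3ejA_ext e₁ e₂ f₁ f₂ hA⟩

end Cfsg.Agent.Helper72
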