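import Mathlib
import Cfsg.Prelude.Def_GeometricClasses
import Cfsg.Prelude.Def_ClassicalGeometry
import Cfsg.Agent.Helper13.SympGen
import Cfsg.Agent.Helper72.C3EJMAT

/-!
# CALL S5975, piece JISO (helper72)

Two self-adjoint square roots of `n` on the 4-dimensional symplectic space, each with a vector
pair `u, w` with `f(u, w) = 1`, `f(J u, w) = 0`, are conjugate under the symplectic group.
-/

set_option autoImplicit false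

namespace Cfsg.Agent.Helper72

open Matrix Module

section c3eji
variable {F : Type*} [Field F]

/-- the frame attached to `J, u, w`, and `J` as the transported model matrix -/
theorem c3eji_frame (h2 : (2 : F) ≠ 0) (n : F) (hn0 : n ≠ 0)
    (J : Matrix (Fin 2 ⊕ Fin 2) (Fin 2 ⊕ Fin 2) F) (hJ : J * J = n • (1 : Matrix _ _ F))
    (hsa : ∀ u v, Cfsg.sympForm 2 F (J *ᵥ u) v = Cfsg.sympForm 2 F u (J *ᵥ v))
    (u w : Fin 2 ⊕ Fin 2 → F) (h1 : Cfsg.sympForm 2 F u w = 1)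
    (h0 : Cfsg.sympForm 2 F (J *ᵥ u) w = 0) :
    IsUnit (c3ejA u (J *ᵥ u) w (n⁻¹ • (J *ᵥ w))).det ∧
    (∀ a b, Cfsg.sympForm 2 F (c3ejA u (J *ᵥ u) w (n⁻¹ • (J *ᵥ w)) *ᵥ a)
      (c3ejA u (J *ᵥ u) w (n⁻¹ • (J *ᵥ w)) *ᵥ b) = Cfsg.sympForm 2 F a b) ∧
    J = c3ejJ u (J *ᵥ u) w (n⁻¹ • (J *ᵥ w)) n := by
  have hJJ : ∀ v : Fin 2 ⊕ Fin 2 → F, J *ᵥ (J *ᵥ v) = n • v := by
    intro v
    rw [Matrix.mulVec_mulVec, hJ, Matrix.smul_mulVec, Matrix.one_mulVec]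
  have hself : ∀ v : Fin 2 ⊕ Fin 2 → F, Cfsg.sympForm 2 F v (J *ᵥ v) = 0 := by
    intro v
    have e1 := hsa v v
    rw [Cfsg.Agent.Helper13.sympForm_swap] at e1
    have e2 : (2 : F) * Cfsg.sympForm 2 F v (J *ᵥ v) = 0 := by linear_combination -e1
    rcases mul_eq_zero.mp e2 with h | h
    · exact absurd h h2
    · exact h
  have r11 : Cfsg.sympForm 2 F u w = 1 := h1
  have r22 : Cfsg.sympForm 2 F (J *ᵥ u) (n⁻¹ • (J *ᵥ w)) = 1 := by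
    rw [Cfsg.Agent.Helper13.sympForm_smul_right, hsa, hJJ, Cfsg.Agent.Helper13.sympForm_smul_right,
      h1]
    field_simp
  have r12 : Cfsg.sympForm 2 F u (n⁻¹ • (J *ᵥ w)) = 0 := by
    rw [Cfsg.Agent.Helper13.sympForm_smul_right, ← hsa, h0, mul_zero]
  have r21 : Cfsg.sympForm 2 F (J *ᵥ u) w = 0 := h0
  have ree : Cfsg.sympForm 2 F u (J *ᵥ u) = 0 := hself u
  have rff : Cfsg.sympForm 2 F w (n⁻¹ • (J *ᵥ w)) = 0 := by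
    rw [Cfsg.Agent.Helper13.sympForm_smul_right, hself, mul_zero]
  have hA := c3ejA_det u (J *ᵥ u) w (n⁻¹ • (J *ᵥ w)) r11 r22 r12 r21 ree rff
  have hs := c3ejA_symp u (J *ᵥ u) w (n⁻¹ • (J *ᵥ w)) r11 r22 r12 r21 ree rff
  refine ⟨hA, hs, ?_⟩
  apply c3ejA_ext u (J *ᵥ u) w (n⁻¹ • (J *ᵥ w)) hA
  · rw [c3ejJ_e1 _ _ _ _ n hA]
  · rw [c3ejJ_e2 _ _ _ _ n hA, hJJ]
  · rw [c3ejJ_f1 _ _ _ _ n hA, smul_smul, mul_inv_cancel₀ hn0, one_smul]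
  · rw [c3ejJ_f2 _ _ _ _ n hA, Matrix.mulVec_smul, hJJ, smul_smul, inv_mul_cancel₀ hn0, one_smul]

end c3eji

/-- PIECE JISO -/
theorem c3e_jiso {F : Type*} [Field F] (h2 : (2 : F) ≠ 0) (n : F) (hn0 : n ≠ 0)
    (J J' : Matrix (Fin 2 ⊕ Fin 2) (Fin 2 ⊕ Fin 2) F) (hJ : J * J = n • (1 : Matrix _ _ F))
    (hJ' : J' * J' = n • (1 : Matrix _ _ F))
    (hsa : ∀ u v, Cfsg.sympForm 2 F (J *ᵥ u) v = Cfsg.sympForm 2 F u (J *ᵥ v))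
    (hsa' : ∀ u v, Cfsg.sympForm 2 F (J' *ᵥ u) v = Cfsg.sympForm 2 F u (J' *ᵥ v))
    (u w u' w' : Fin 2 ⊕ Fin 2 → F) (h1 : Cfsg.sympForm 2 F u w = 1)
    (h0 : Cfsg.sympForm 2 F (J *ᵥ u) w = 0) (h1' : Cfsg.sympForm 2 F u' w' = 1)
    (h0' : Cfsg.sympForm 2 F (J' *ᵥ u') w' = 0) :
    ∃ g : GL (Fin 2 ⊕ Fin 2) F, g ∈ Cfsg.spGL 2 F ∧
      (g : Matrix (Fin 2 ⊕ Fin 2) (Fin 2 ⊕ Fin 2) F) * J =
        J' * (g : Matrix (Fin 2 ⊕ Fin 2) (Fin 2 ⊕ Fin 2) F) := by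
  obtain ⟨hA, hs, hJe⟩ := c3eji_frame h2 n hn0 J hJ hsa u w h1 h0
  obtain ⟨hA', hs', hJe'⟩ := c3eji_frame h2 n hn0 J' hJ' hsa' u' w' h1' h0'
  set A := c3ejA u (J *ᵥ u) w (n⁻¹ • (J *ᵥ w)) with hAdef
  set A' := c3ejA u' (J' *ᵥ u') w' (n⁻¹ • (J' *ᵥ w')) with hA'def
  have i1 : A⁻¹ * A = 1 := Matrix.nonsing_inv_mul _ hA
  have i2 : A * A⁻¹ = 1 := Matrix.mul_nonsing_inv _ hA
  have i1' : A'⁻¹ * A' = 1 := Matrix.nonsing_inv_mul _ hA'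
  have i2' : A' * A'⁻¹ = 1 := Matrix.mul_nonsing_inv _ hA'
  have v1 : A' * A⁻¹ * (A * A'⁻¹) = 1 := by
    calc A' * A⁻¹ * (A * A'⁻¹) = A' * (A⁻¹ * A) * A'⁻¹ := by simp only [Matrix.mul_assoc]
      _ = 1 := by rw [i1, Matrix.mul_one, i2']
  have v2 : A * A'⁻¹ * (A' * A⁻¹) = 1 := by
    calc A * A'⁻¹ * (A' * A⁻¹) = A * (A'⁻¹ * A') * A⁻¹ := by simp only [Matrix.mul_assoc]
      _ = 1 := by rw [i1', Matrix.mul_one, i2]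
  refine ⟨⟨A' * A⁻¹, A * A'⁻¹, v1, v2⟩, ?_, ?_⟩
  · show ∀ a b : Fin 2 ⊕ Fin 2 → F, Cfsg.sympForm 2 F ((A' * A⁻¹) *ᵥ a) ((A' * A⁻¹) *ᵥ b)
      = Cfsg.sympForm 2 F a b
    intro a b
    rw [← Matrix.mulVec_mulVec, ← Matrix.mulVec_mulVec, hs', ← hs (A⁻¹ *ᵥ a) (A⁻¹ *ᵥ b),
      Matrix.mulVec_mulVec, Matrix.mulVec_mulVec, i2, Matrix.one_mulVec, Matrix.one_mulVec]
  · show A' * A⁻¹ * J = J' * (A' * A⁻¹)
    have e1 : J = A * c3ejJ0 n * A⁻¹ := hJe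
    have e2 : J' = A' * c3ejJ0 n * A'⁻¹ := hJe'
    calc A' * A⁻¹ * J = A' * A⁻¹ * (A * c3ejJ0 n * A⁻¹) := by rw [← e1]
      _ = A' * (A⁻¹ * A) * c3ejJ0 n * A⁻¹ := by simp only [Matrix.mul_assoc]
      _ = A' * c3ejJ0 n * (A'⁻¹ * A') * A⁻¹ := by rw [i1, i1', Matrix.mul_one, Matrix.mul_one]
      _ = A' * c3ejJ0 n * A'⁻¹ * (A' * A⁻¹) := by simp only [Matrix.mul_assoc]
      _ = J' * (A' * A⁻¹) := by rw [← e2]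

end Cfsg.Agent.Helper72
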