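import Mathlib
import Cfsg.Prelude.Def_GeometricClasses
import Cfsg.Prelude.Def_ClassicalGeometry
import Cfsg.Agent.Helper13.SympGen

/-!
# CALL S5975, piece R1 (helper72)

A non-scalar symplectic involution of the 4-dimensional symplectic space anticommutes with a
self-adjoint square root of `n`.
-/

set_option autoImplicit false

namespace Cfsg.Agent.Helper72

open Matrix Module

/-- PIECE R1 (JMAT is the hypothesis `hjmat`): involutions -/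
theorem c3e_r1 {F : Type*} [Field F]
    (hjmat : ∀ (n : F) (e₁ e₂ f₁ f₂ : Fin 2 ⊕ Fin 2 → F), Cfsg.sympForm 2 F e₁ f₁ = 1 →
      Cfsg.sympForm 2 F e₂ f₂ = 1 → Cfsg.sympForm 2 F e₁ f₂ = 0 → Cfsg.sympForm 2 F e₂ f₁ = 0 →
      Cfsg.sympForm 2 F e₁ e₂ = 0 → Cfsg.sympForm 2 F f₁ f₂ = 0 →
      ∃ J' : Matrix (Fin 2 ⊕ Fin 2) (Fin 2 ⊕ Fin 2) F, J' * J' = n • (1 : Matrix _ _ F) ∧
        (∀ u v, Cfsg.sympForm 2 F (J' *ᵥ u) v = Cfsg.sympForm 2 F u (J' *ᵥ v)) ∧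
        J' *ᵥ e₁ = e₂ ∧ J' *ᵥ e₂ = n • e₁ ∧ J' *ᵥ f₁ = n • f₂ ∧ J' *ᵥ f₂ = f₁ ∧
        ∀ M M' : Matrix (Fin 2 ⊕ Fin 2) (Fin 2 ⊕ Fin 2) F, M *ᵥ e₁ = M' *ᵥ e₁ →
          M *ᵥ e₂ = M' *ᵥ e₂ → M *ᵥ f₁ = M' *ᵥ f₁ → M *ᵥ f₂ = M' *ᵥ f₂ → M = M')
    (h2 : (2 : F) ≠ 0) (n : F) (x : GL (Fin 2 ⊕ Fin 2) F)
    (hx : x ∈ Cfsg.spGL 2 F)
    (hx2 : ((x ^ 2 : GL (Fin 2 ⊕ Fin 2) F) : Matrix (Fin 2 ⊕ Fin 2) (Fin 2 ⊕ Fin 2) F) = 1)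
    (hns : ∀ z : F, (x : Matrix (Fin 2 ⊕ Fin 2) (Fin 2 ⊕ Fin 2) F) ≠ z • 1) :
    ∃ J' : Matrix (Fin 2 ⊕ Fin 2) (Fin 2 ⊕ Fin 2) F, J' * J' = n • (1 : Matrix _ _ F) ∧
      (∀ u v, Cfsg.sympForm 2 F (J' *ᵥ u) v = Cfsg.sympForm 2 F u (J' *ᵥ v)) ∧
      (x : Matrix (Fin 2 ⊕ Fin 2) (Fin 2 ⊕ Fin 2) F) * J' =
        (-1 : F) • (J' * (x : Matrix (Fin 2 ⊕ Fin 2) (Fin 2 ⊕ Fin 2) F)) := by
  set X : Matrix (Fin 2 ⊕ Fin 2) (Fin 2 ⊕ Fin 2) F :=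
    (x : Matrix (Fin 2 ⊕ Fin 2) (Fin 2 ⊕ Fin 2) F) with hX
  have hXX : X * X = 1 := by
    rw [← hx2, pow_two, Units.val_mul]
  have hXv : ∀ v : Fin 2 ⊕ Fin 2 → F, X *ᵥ (X *ᵥ v) = v := by
    intro v
    rw [Matrix.mulVec_mulVec, hXX, Matrix.one_mulVec]
  have hpres : ∀ u v : Fin 2 ⊕ Fin 2 → F,
      Cfsg.sympForm 2 F (X *ᵥ u) (X *ᵥ v) = Cfsg.sympForm 2 F u v := hx
  -- orthogonality of the two eigenspaces
  have horth : ∀ a b : Fin 2 ⊕ Fin 2 → F, X *ᵥ a = a → X *ᵥ b = -b →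
      Cfsg.sympForm 2 F a b = 0 := by
    intro a b ha hb
    have e1 := hpres a b
    rw [ha, hb, Cfsg.Agent.Helper13.sympForm_neg_right] at e1
    have e2 : (2 : F) * Cfsg.sympForm 2 F a b = 0 := by linear_combination -e1
    rcases mul_eq_zero.mp e2 with h | h
    · exact absurd h h2
    · exact h
  have horth' : ∀ a b : Fin 2 ⊕ Fin 2 → F, X *ᵥ a = a → X *ᵥ b = -b →
      Cfsg.sympForm 2 F b a = 0 := by
    intro a b ha hb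
    rw [Cfsg.Agent.Helper13.sympForm_swap, horth a b ha hb, neg_zero]
  -- a nonzero vector in each eigenspace
  obtain ⟨e₁, he₁0, he₁⟩ : ∃ e : Fin 2 ⊕ Fin 2 → F, e ≠ 0 ∧ X *ᵥ e = e := by
    by_contra hcon
    push_neg at hcon
    apply hns (-1)
    apply Cfsg.Agent.Helper13.mulVec_ext
    intro v
    rw [Matrix.smul_mulVec, Matrix.one_mulVec]
    by_contra hv
    have h1 : v + X *ᵥ v ≠ 0 := by
      intro h
      apply hv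
      rw [neg_one_smul]
      exact (eq_neg_of_add_eq_zero_right h)
    apply hcon _ h1
    rw [Matrix.mulVec_add, hXv, add_comm]
  obtain ⟨e₂, he₂0, he₂⟩ : ∃ e : Fin 2 ⊕ Fin 2 → F, e ≠ 0 ∧ X *ᵥ e = -e := by
    by_contra hcon
    push_neg at hcon
    apply hns 1
    apply Cfsg.Agent.Helper13.mulVec_ext
    intro v
    rw [Matrix.smul_mulVec, Matrix.one_mulVec, one_smul]
    by_contra hv
    have h1 : v - X *ᵥ v ≠ 0 := by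
      intro h
      apply hv
      exact (sub_eq_zero.mp h).symm
    apply hcon _ h1
    rw [Matrix.mulVec_sub, hXv, neg_sub]
  -- partners
  obtain ⟨f₁, hf₁, h11⟩ : ∃ f : Fin 2 ⊕ Fin 2 → F, X *ᵥ f = f ∧ Cfsg.sympForm 2 F e₁ f = 1 := by
    obtain ⟨v, hv⟩ : ∃ v, Cfsg.sympForm 2 F e₁ v ≠ 0 := by
      by_contra hcon
      push_neg at hcon
      exact he₁0 (Cfsg.Agent.Helper13.sympForm_sep e₁ hcon)
    have e1 : Cfsg.sympForm 2 F e₁ (X *ᵥ v) = Cfsg.sympForm 2 F e₁ v := by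
      have := hpres e₁ v
      rwa [he₁] at this
    refine ⟨(2 * Cfsg.sympForm 2 F e₁ v)⁻¹ • (v + X *ᵥ v), ?_, ?_⟩
    · rw [Matrix.mulVec_smul, Matrix.mulVec_add, hXv, add_comm]
    · rw [Cfsg.Agent.Helper13.sympForm_smul_right, Cfsg.Agent.Helper13.sympForm_add_right, e1]
      field_simp
      ring
  obtain ⟨f₂, hf₂, h22⟩ : ∃ f : Fin 2 ⊕ Fin 2 → F, X *ᵥ f = -f ∧ Cfsg.sympForm 2 F e₂ f = 1 := by
    obtain ⟨v, hv⟩ : ∃ v, Cfsg.sympForm 2 F e₂ v ≠ 0 := by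
      by_contra hcon
      push_neg at hcon
      exact he₂0 (Cfsg.Agent.Helper13.sympForm_sep e₂ hcon)
    have e1 : Cfsg.sympForm 2 F e₂ (X *ᵥ v) = - Cfsg.sympForm 2 F e₂ v := by
      have := hpres e₂ v
      rw [he₂, Cfsg.Agent.Helper13.sympForm_neg_left] at this
      linear_combination -this
    refine ⟨(2 * Cfsg.sympForm 2 F e₂ v)⁻¹ • (v - X *ᵥ v), ?_, ?_⟩
    · rw [Matrix.mulVec_smul, Matrix.mulVec_sub, hXv, ← smul_neg, neg_sub]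
    · rw [Cfsg.Agent.Helper13.sympForm_smul_right, Cfsg.Agent.Helper13.sympForm_sub_right, e1]
      field_simp
      ring
  obtain ⟨J', hJ2, hJsa, hJe₁, hJe₂, hJf₁, hJf₂, hext⟩ := hjmat n e₁ e₂ f₁ f₂ h11 h22
    (horth e₁ f₂ he₁ hf₂) (horth' f₁ e₂ hf₁ he₂) (horth e₁ e₂ he₁ he₂) (horth f₁ f₂ hf₁ hf₂)
  refine ⟨J', hJ2, hJsa, ?_⟩
  apply hext
  · rw [← Matrix.mulVec_mulVec, Matrix.smul_mulVec, ← Matrix.mulVec_mulVec, hJe₁, he₂, he₁, hJe₁,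
      neg_one_smul]
  · rw [← Matrix.mulVec_mulVec, Matrix.smul_mulVec, ← Matrix.mulVec_mulVec, hJe₂, he₂,
      Matrix.mulVec_smul, he₁, Matrix.mulVec_neg, hJe₂, neg_one_smul, neg_neg]
  · rw [← Matrix.mulVec_mulVec, Matrix.smul_mulVec, ← Matrix.mulVec_mulVec, hJf₁, hf₁,
      Matrix.mulVec_smul, hf₂, hJf₁, neg_one_smul, smul_neg]
  · rw [← Matrix.mulVec_mulVec, Matrix.smul_mulVec, ← Matrix.mulVec_mulVec, hJf₂, hf₂, hf₁,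
      Matrix.mulVec_neg, hJf₂, neg_one_smul, neg_neg]

end Cfsg.Agent.Helper72
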