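import Mathlib
import Cfsg.Prelude.Def_GeometricClasses
import Cfsg.Prelude.Def_ClassicalGeometry
import Cfsg.Agent.Helper13.SympGen

/-!
# CALL S5975, piece R2 (helper72)

A symplectic `x` of the 4-dimensional symplectic space with `x² = -1`, where `-1 = ι²` is a
square, commutes with a self-adjoint square root of `n`.
-/

set_option autoImplicit false

namespace Cfsg.Agent.Helper72

open Matrix Module

/-- PIECE R2 (JMAT is the hypothesis `hjmat`): `x² = -1` with `-1` a square -/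
theorem c3e_r2 {F : Type*} [Field F]
    (hjmat : ∀ (n : F) (e₁ e₂ f₁ f₂ : Fin 2 ⊕ Fin 2 → F), Cfsg.sympForm 2 F e₁ f₁ = 1 →
      Cfsg.sympForm 2 F e₂ f₂ = 1 → Cfsg.sympForm 2 F e₁ f₂ = 0 → Cfsg.sympForm 2 F e₂ f₁ = 0 →
      Cfsg.sympForm 2 F e₁ e₂ = 0 → Cfsg.sympForm 2 F f₁ f₂ = 0 →
      ∃ J' : Matrix (Fin 2 ⊕ Fin 2) (Fin 2 ⊕ Fin 2) F, J' * J' = n • (1 : Matrix _ _ F) ∧
        (∀ u v, Cfsg.sympForm 2 F (J' *ᵥ u) v = Cfsg.sympForm 2 F u (J' *ᵥ v)) ∧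
        J' *ᵥ e₁ = e₂ ∧ J' *ᵥ e₂ = n • e₁ ∧ J' *ᵥ f₁ = n • f₂ ∧ J' *ᵥ f₂ = f₁ ∧
        ∀ M M' : Matrix (Fin 2 ⊕ Fin 2) (Fin 2 ⊕ Fin 2) F, M *ᵥ e₁ = M' *ᵥ e₁ →
          M *ᵥ e₂ = M' *ᵥ e₂ → M *ᵥ f₁ = M' *ᵥ f₁ → M *ᵥ f₂ = M' *ᵥ f₂ → M = M')
    (h2 : (2 : F) ≠ 0) (n ι : F) (hι : ι * ι = -1)
    (x : GL (Fin 2 ⊕ Fin 2) F) (hx : x ∈ Cfsg.spGL 2 F)
    (hx2 : ((x ^ 2 : GL (Fin 2 ⊕ Fin 2) F) : Matrix (Fin 2 ⊕ Fin 2) (Fin 2 ⊕ Fin 2) F) =
      (-1 : F) • 1) :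
    ∃ J' : Matrix (Fin 2 ⊕ Fin 2) (Fin 2 ⊕ Fin 2) F, J' * J' = n • (1 : Matrix _ _ F) ∧
      (∀ u v, Cfsg.sympForm 2 F (J' *ᵥ u) v = Cfsg.sympForm 2 F u (J' *ᵥ v)) ∧
      (x : Matrix (Fin 2 ⊕ Fin 2) (Fin 2 ⊕ Fin 2) F) * J' =
        J' * (x : Matrix (Fin 2 ⊕ Fin 2) (Fin 2 ⊕ Fin 2) F) := by
  set X : Matrix (Fin 2 ⊕ Fin 2) (Fin 2 ⊕ Fin 2) F :=
    (x : Matrix (Fin 2 ⊕ Fin 2) (Fin 2 ⊕ Fin 2) F) with hX
  have hXX : X * X = (-1 : F) • 1 := by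
    rw [← hx2, pow_two, Units.val_mul]
  have hXv : ∀ v : Fin 2 ⊕ Fin 2 → F, X *ᵥ (X *ᵥ v) = -v := by
    intro v
    rw [Matrix.mulVec_mulVec, hXX, Matrix.smul_mulVec, Matrix.one_mulVec, neg_one_smul]
  have hpres : ∀ u v : Fin 2 ⊕ Fin 2 → F,
      Cfsg.sympForm 2 F (X *ᵥ u) (X *ᵥ v) = Cfsg.sympForm 2 F u v := hx
  have hι0 : ι ≠ 0 := by
    rintro rfl
    simp at hι
  have hιn : (-ι) * (-ι) = -1 := by rw [neg_mul_neg, hι]
  -- eigenspaces are totally isotropic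
  have hiso : ∀ c : F, c * c = -1 → ∀ a b : Fin 2 ⊕ Fin 2 → F, X *ᵥ a = c • a → X *ᵥ b = c • b →
      Cfsg.sympForm 2 F a b = 0 := by
    intro c hc a b ha hb
    have e1 := hpres a b
    rw [ha, hb, Cfsg.Agent.Helper13.sympForm_smul_left, Cfsg.Agent.Helper13.sympForm_smul_right,
      ← mul_assoc, hc] at e1
    have e2 : (2 : F) * Cfsg.sympForm 2 F a b = 0 := by linear_combination -e1
    rcases mul_eq_zero.mp e2 with h | h
    · exact absurd h h2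
    · exact h
  -- the two projections
  have hP : ∀ v : Fin 2 ⊕ Fin 2 → F, X *ᵥ (v - ι • X *ᵥ v) = ι • (v - ι • X *ᵥ v) := by
    intro v
    rw [Matrix.mulVec_sub, Matrix.mulVec_smul, hXv, smul_sub, smul_smul, hι]
    simp only [smul_neg, neg_smul, one_smul, sub_neg_eq_add]
    abel
  have hM : ∀ v : Fin 2 ⊕ Fin 2 → F, X *ᵥ (v + ι • X *ᵥ v) = (-ι) • (v + ι • X *ᵥ v) := by
    intro v
    rw [Matrix.mulVec_add, Matrix.mulVec_smul, hXv, smul_add, smul_smul, neg_mul, hι]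
    simp only [smul_neg, neg_smul, one_smul, neg_neg]
    abel
  -- step 1: a nonzero vector in the `ι`-eigenspace
  obtain ⟨e₁, he₁0, he₁⟩ : ∃ e : Fin 2 ⊕ Fin 2 → F, e ≠ 0 ∧ X *ᵥ e = ι • e := by
    by_contra hcon
    push_neg at hcon
    have hall : ∀ v : Fin 2 ⊕ Fin 2 → F, X *ᵥ v = (-ι) • v := by
      intro v
      have h0 : v - ι • X *ᵥ v = 0 := by
        by_contra h
        exact hcon _ h (hP v)
      have h1 : v = ι • X *ᵥ v := sub_eq_zero.mp h0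
      calc X *ᵥ v = (-ι) • (ι • X *ᵥ v) := by
            rw [smul_smul, neg_mul, hι, neg_neg, one_smul]
        _ = (-ι) • v := by rw [← h1]
    have hv0 : (Pi.single (Sum.inl 0) 1 : Fin 2 ⊕ Fin 2 → F) ≠ 0 := by
      intro h
      have := congrFun h (Sum.inl 0)
      simp at this
    exact hv0 (Cfsg.Agent.Helper13.sympForm_sep _
      (fun y => hiso (-ι) hιn _ y (hall _) (hall y)))
  -- step 2: its partner
  obtain ⟨f₁, hf₁, h11⟩ :
      ∃ f : Fin 2 ⊕ Fin 2 → F, X *ᵥ f = (-ι) • f ∧ Cfsg.sympForm 2 F e₁ f = 1 := by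
    obtain ⟨v, hv⟩ : ∃ v, Cfsg.sympForm 2 F e₁ v ≠ 0 := by
      by_contra hcon
      push_neg at hcon
      exact he₁0 (Cfsg.Agent.Helper13.sympForm_sep e₁ hcon)
    have e1 : ι * Cfsg.sympForm 2 F e₁ (X *ᵥ v) = Cfsg.sympForm 2 F e₁ v := by
      have := hpres e₁ v
      rwa [he₁, Cfsg.Agent.Helper13.sympForm_smul_left] at this
    refine ⟨(2 * Cfsg.sympForm 2 F e₁ v)⁻¹ • (v + ι • X *ᵥ v), ?_, ?_⟩
    · rw [Matrix.mulVec_smul, hM, smul_comm]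
    · rw [Cfsg.Agent.Helper13.sympForm_smul_right, Cfsg.Agent.Helper13.sympForm_add_right,
        Cfsg.Agent.Helper13.sympForm_smul_right, e1]
      field_simp
      ring
  have hf₁e₁ : Cfsg.sympForm 2 F f₁ e₁ = -1 := by
    rw [Cfsg.Agent.Helper13.sympForm_swap, h11]
  -- the perp of the pair, and the projection on it
  have hWX : ∀ v : Fin 2 ⊕ Fin 2 → F, Cfsg.sympForm 2 F v e₁ = 0 → Cfsg.sympForm 2 F v f₁ = 0 →
      Cfsg.sympForm 2 F (X *ᵥ v) e₁ = 0 ∧ Cfsg.sympForm 2 F (X *ᵥ v) f₁ = 0 := by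
    intro v h1 h2'
    constructor
    · have := hpres v e₁
      rw [he₁, Cfsg.Agent.Helper13.sympForm_smul_right, h1] at this
      rcases mul_eq_zero.mp this with h | h
      · exact absurd h hι0
      · exact h
    · have := hpres v f₁
      rw [hf₁, Cfsg.Agent.Helper13.sympForm_smul_right, h2'] at this
      rcases mul_eq_zero.mp this with h | h
      · exact absurd h (neg_ne_zero.mpr hι0)
      · exact h
  have hπ1 : ∀ w : Fin 2 ⊕ Fin 2 → F,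
      Cfsg.sympForm 2 F (w - Cfsg.sympForm 2 F w f₁ • e₁ - Cfsg.sympForm 2 F e₁ w • f₁) e₁ = 0 := by
    intro w
    rw [Cfsg.Agent.Helper13.sympForm_sub_left, Cfsg.Agent.Helper13.sympForm_sub_left,
      Cfsg.Agent.Helper13.sympForm_smul_left, Cfsg.Agent.Helper13.sympForm_smul_left,
      Cfsg.Agent.Helper13.sympForm_self, hf₁e₁, Cfsg.Agent.Helper13.sympForm_swap w e₁]
    ring
  have hπ2 : ∀ w : Fin 2 ⊕ Fin 2 → F,
      Cfsg.sympForm 2 F (w - Cfsg.sympForm 2 F w f₁ • e₁ - Cfsg.sympForm 2 F e₁ w • f₁) f₁ = 0 := by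
    intro w
    rw [Cfsg.Agent.Helper13.sympForm_sub_left, Cfsg.Agent.Helper13.sympForm_sub_left,
      Cfsg.Agent.Helper13.sympForm_smul_left, Cfsg.Agent.Helper13.sympForm_smul_left,
      Cfsg.Agent.Helper13.sympForm_self, h11]
    ring
  have hπ3 : ∀ u w : Fin 2 ⊕ Fin 2 → F, Cfsg.sympForm 2 F u e₁ = 0 → Cfsg.sympForm 2 F u f₁ = 0 →
      Cfsg.sympForm 2 F u (w - Cfsg.sympForm 2 F w f₁ • e₁ - Cfsg.sympForm 2 F e₁ w • f₁)
        = Cfsg.sympForm 2 F u w := by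
    intro u w h1 h2'
    rw [Cfsg.Agent.Helper13.sympForm_sub_right, Cfsg.Agent.Helper13.sympForm_sub_right,
      Cfsg.Agent.Helper13.sympForm_smul_right, Cfsg.Agent.Helper13.sympForm_smul_right, h1, h2']
    ring
  -- step 3: a nonzero vector of the perp
  obtain ⟨w₀, hw₀⟩ : ∃ w : Fin 2 ⊕ Fin 2 → F,
      w - Cfsg.sympForm 2 F w f₁ • e₁ - Cfsg.sympForm 2 F e₁ w • f₁ ≠ 0 := by
    by_contra hcon
    push_neg at hcon
    have hspan : ∀ w : Fin 2 ⊕ Fin 2 → F,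
        w ∈ Submodule.span F ({e₁, f₁} : Set (Fin 2 ⊕ Fin 2 → F)) := by
      intro w
      have hw : w = Cfsg.sympForm 2 F w f₁ • e₁ + Cfsg.sympForm 2 F e₁ w • f₁ := by
        have := hcon w
        rw [sub_sub, sub_eq_zero] at this
        exact this
      rw [hw]
      exact Submodule.add_mem _ (Submodule.smul_mem _ _ (Submodule.subset_span (by simp)))
        (Submodule.smul_mem _ _ (Submodule.subset_span (by simp)))
    have htop : Submodule.span F ({e₁, f₁} : Set (Fin 2 ⊕ Fin 2 → F)) = ⊤ :=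
      Submodule.eq_top_iff'.mpr hspan
    have hfr : Module.finrank F (Submodule.span F ({e₁, f₁} : Set (Fin 2 ⊕ Fin 2 → F))) ≤ 2 := by
      classical
      have := finrank_span_finset_le_card (R := F) ({e₁, f₁} : Finset (Fin 2 ⊕ Fin 2 → F))
      simp only [Finset.coe_insert, Finset.coe_singleton] at this
      exact this.trans Finset.card_le_two
    rw [htop, finrank_top] at hfr
    simp at hfr
  obtain ⟨u, hu0, hue, huf⟩ : ∃ u : Fin 2 ⊕ Fin 2 → F, u ≠ 0 ∧ Cfsg.sympForm 2 F u e₁ = 0 ∧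
      Cfsg.sympForm 2 F u f₁ = 0 := ⟨_, hw₀, hπ1 w₀, hπ2 w₀⟩
  obtain ⟨w, hwe, hwf, huw⟩ : ∃ w : Fin 2 ⊕ Fin 2 → F, Cfsg.sympForm 2 F w e₁ = 0 ∧
      Cfsg.sympForm 2 F w f₁ = 0 ∧ Cfsg.sympForm 2 F u w ≠ 0 := by
    obtain ⟨w', hw'⟩ : ∃ v, Cfsg.sympForm 2 F u v ≠ 0 := by
      by_contra hcon
      push_neg at hcon
      exact hu0 (Cfsg.Agent.Helper13.sympForm_sep u hcon)
    exact ⟨_, hπ1 w', hπ2 w', by rw [hπ3 u w' hue huf]; exact hw'⟩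
  -- step 4: a pair of eigenvectors in the perp with nonzero product
  obtain ⟨a, b, hae, haf, hbe, hbf, ha, hb, hab⟩ : ∃ a b : Fin 2 ⊕ Fin 2 → F,
      Cfsg.sympForm 2 F a e₁ = 0 ∧ Cfsg.sympForm 2 F a f₁ = 0 ∧
      Cfsg.sympForm 2 F b e₁ = 0 ∧ Cfsg.sympForm 2 F b f₁ = 0 ∧
      X *ᵥ a = ι • a ∧ X *ᵥ b = (-ι) • b ∧ Cfsg.sympForm 2 F a b ≠ 0 := by
    have hWP : ∀ v : Fin 2 ⊕ Fin 2 → F, Cfsg.sympForm 2 F v e₁ = 0 →
        Cfsg.sympForm 2 F v f₁ = 0 →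
        (Cfsg.sympForm 2 F (v - ι • X *ᵥ v) e₁ = 0 ∧ Cfsg.sympForm 2 F (v - ι • X *ᵥ v) f₁ = 0) ∧
        (Cfsg.sympForm 2 F (v + ι • X *ᵥ v) e₁ = 0 ∧
          Cfsg.sympForm 2 F (v + ι • X *ᵥ v) f₁ = 0) := by
      intro v h1 h2'
      obtain ⟨h3, h4⟩ := hWX v h1 h2'
      refine ⟨⟨?_, ?_⟩, ⟨?_, ?_⟩⟩
      · rw [Cfsg.Agent.Helper13.sympForm_sub_left, Cfsg.Agent.Helper13.sympForm_smul_left, h1, h3]
        ring
      · rw [Cfsg.Agent.Helper13.sympForm_sub_left, Cfsg.Agent.Helper13.sympForm_smul_left, h2', h4]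
        ring
      · rw [Cfsg.Agent.Helper13.sympForm_add_left, Cfsg.Agent.Helper13.sympForm_smul_left, h1, h3]
        ring
      · rw [Cfsg.Agent.Helper13.sympForm_add_left, Cfsg.Agent.Helper13.sympForm_smul_left, h2', h4]
        ring
    obtain ⟨⟨hu1, hu2⟩, ⟨hu3, hu4⟩⟩ := hWP u hue huf
    obtain ⟨⟨hw1, hw2⟩, ⟨hw3, hw4⟩⟩ := hWP w hwe hwf
    by_cases hc1 : Cfsg.sympForm 2 F (u - ι • X *ᵥ u) (w + ι • X *ᵥ w) = 0
    · by_cases hc2 : Cfsg.sympForm 2 F (w - ι • X *ᵥ w) (u + ι • X *ᵥ u) = 0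
      · exfalso
        apply huw
        have hpp := hiso ι hι _ _ (hP u) (hP w)
        have hmm := hiso (-ι) hιn _ _ (hM u) (hM w)
        have hc2' : Cfsg.sympForm 2 F (u + ι • X *ᵥ u) (w - ι • X *ᵥ w) = 0 := by
          rw [Cfsg.Agent.Helper13.sympForm_swap, hc2, neg_zero]
        have hsum : Cfsg.sympForm 2 F ((u - ι • X *ᵥ u) + (u + ι • X *ᵥ u))
            ((w - ι • X *ᵥ w) + (w + ι • X *ᵥ w)) = 0 := by
          have hbil : ∀ p q r s : Fin 2 ⊕ Fin 2 → F, Cfsg.sympForm 2 F (p + q) (r + s)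
              = Cfsg.sympForm 2 F p r + Cfsg.sympForm 2 F p s + Cfsg.sympForm 2 F q r
                + Cfsg.sympForm 2 F q s := by
            intro p q r s
            rw [Cfsg.Agent.Helper13.sympForm_add_left, Cfsg.Agent.Helper13.sympForm_add_right,
              Cfsg.Agent.Helper13.sympForm_add_right]
            ring
          rw [hbil, hpp, hc1, hc2', hmm]
          ring
        have h2u : (u - ι • X *ᵥ u) + (u + ι • X *ᵥ u) = (2 : F) • u := by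
          rw [two_smul]; abel
        have h2w : (w - ι • X *ᵥ w) + (w + ι • X *ᵥ w) = (2 : F) • w := by
          rw [two_smul]; abel
        rw [h2u, h2w, Cfsg.Agent.Helper13.sympForm_smul_left,
          Cfsg.Agent.Helper13.sympForm_smul_right] at hsum
        rcases mul_eq_zero.mp hsum with h | h
        · exact absurd h h2
        · rcases mul_eq_zero.mp h with h | h
          · exact absurd h h2
          · exact h
      · exact ⟨_, _, hw1, hw2, hu3, hu4, hP w, hM u, hc2⟩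
    · exact ⟨_, _, hu1, hu2, hw3, hw4, hP u, hM w, hc1⟩
  -- step 5: the frame
  have h22 : Cfsg.sympForm 2 F a ((Cfsg.sympForm 2 F a b)⁻¹ • b) = 1 := by
    rw [Cfsg.Agent.Helper13.sympForm_smul_right, inv_mul_cancel₀ hab]
  have h12 : Cfsg.sympForm 2 F e₁ ((Cfsg.sympForm 2 F a b)⁻¹ • b) = 0 := by
    rw [Cfsg.Agent.Helper13.sympForm_smul_right, Cfsg.Agent.Helper13.sympForm_swap e₁ b, hbe,
      neg_zero, mul_zero]
  have hff : Cfsg.sympForm 2 F f₁ ((Cfsg.sympForm 2 F a b)⁻¹ • b) = 0 := by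
    rw [Cfsg.Agent.Helper13.sympForm_smul_right, hiso (-ι) hιn f₁ b hf₁ hb, mul_zero]
  have hf₂ : X *ᵥ ((Cfsg.sympForm 2 F a b)⁻¹ • b) = (-ι) • ((Cfsg.sympForm 2 F a b)⁻¹ • b) := by
    rw [Matrix.mulVec_smul, hb, smul_comm]
  obtain ⟨J', hJ2, hJsa, hJe₁, hJe₂, hJf₁, hJf₂, hext⟩ := hjmat n e₁ a f₁
    ((Cfsg.sympForm 2 F a b)⁻¹ • b) h11 h22 h12 haf (hiso ι hι e₁ a he₁ ha) hff
  refine ⟨J', hJ2, hJsa, ?_⟩
  apply hext
  · rw [← Matrix.mulVec_mulVec, ← Matrix.mulVec_mulVec, hJe₁, ha, he₁, Matrix.mulVec_smul, hJe₁]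
  · rw [← Matrix.mulVec_mulVec, ← Matrix.mulVec_mulVec, hJe₂, ha, Matrix.mulVec_smul, he₁,
      Matrix.mulVec_smul, hJe₂, smul_comm]
  · rw [← Matrix.mulVec_mulVec, ← Matrix.mulVec_mulVec, hJf₁, hf₁, Matrix.mulVec_smul, hf₂,
      Matrix.mulVec_smul, hJf₁, smul_comm]
  · rw [← Matrix.mulVec_mulVec, ← Matrix.mulVec_mulVec, hJf₂, hf₂, hf₁, Matrix.mulVec_smul, hJf₂]

end Cfsg.Agent.Helper72
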