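/-
Sub-CALL TB (helper43), piece FULL (double by helper72): glue a fixed space of dimension `2 k₀` and
type defect `ε₀` to a block.
-/
import Mathlib
import Cfsg.Prelude.Def_GeometricClasses
import Cfsg.Prelude.Def_Classical
import Cfsg.Agent.Helper58.TSDefs
import Cfsg.Agent.Helper43.PrimeOrdO3
import Cfsg.Agent.Helper33.OType
import Cfsg.Agent.Helper31.TBPRODND
import Cfsg.Agent.Helper31.TBPRODTS
import Cfsg.Agent.Helper98.TBSPLIT
import Cfsg.Agent.Helper93.TBTYPEPROD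

set_option autoImplicit false

namespace Cfsg.Agent.Helper72.TB

open Module Polynomial Cfsg Cfsg.Geo Cfsg.Agent.Helper58.TS
open Cfsg.Agent.Helper43 Cfsg.Agent.Helper43.OrthEven Cfsg.Agent.Helper43.CycFactors
  Cfsg.Agent.Helper43.PrimeOrdMat
open scoped MatrixGroups

universe u

section lvl2

variable {F : Type u} [Field F] [Fintype F]

omit [Fintype F] in
/-- a totally singular subspace of a `2m`-dimensional space with nondegenerate polar form has
dimension at most `m` -/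
theorem full72_ts_le {V : Type*} [AddCommGroup V] [Module F V] [FiniteDimensional F V]
    (Q : QuadraticForm F V) (hQ : (QuadraticMap.polarBilin Q).Nondegenerate) (m : ℕ)
    (hdim : finrank F V = 2 * m) (U : Submodule F V) (hU : ∀ u ∈ U, Q u = 0) :
    finrank F U ≤ m := by
  have h : TwoFam.QSpace (⇑Q) (QuadraticMap.polarBilin Q) m :=
    ⟨fun x y => by
      rw [QuadraticMap.polarBilin_apply_apply]
      unfold QuadraticMap.polar
      ring, fun c x => by rw [QuadraticMap.map_smul]; rfl, hQ, hdim⟩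
  exact h.finrank_ts_le hU

/-- core of FULL for an abstract fixed space `V₀` -/
theorem full72_core (r : ℕ) [Fact r.Prime] (hrF : (r : F) ≠ 0) {V₁ : Type u} [AddCommGroup V₁]
    [Module F V₁] [FiniteDimensional F V₁] (Q₁ : QuadraticForm F V₁) (T₁ : Module.End F V₁)
    (hnd : PolarNondeg Q₁) (hT : ∀ v, Q₁ (T₁ v) = Q₁ v) (hcyc : aeval T₁ (cyclotomic r F) = 0)
    (l : ℕ) (hl : 1 ≤ l) (hV₁ : finrank F V₁ = 2 * l) (k₀ ε₀ : ℕ)
    {V₀ : Type u} [AddCommGroup V₀] [Module F V₀] [FiniteDimensional F V₀]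
    (Q₀ : QuadraticForm F V₀) (hnd₀ : PolarNondeg Q₀) (hdim₀ : finrank F V₀ = 2 * k₀)
    (htype₀ : HasTS Q₀ k₀ ↔ ε₀ = 0)
    (hbd₀ : ∀ U₀ : Submodule F V₀, (∀ u ∈ U₀, Q₀ u = 0) → finrank F U₀ + ε₀ ≤ k₀) :
    ∃ (V' : Type u) (_ : AddCommGroup V') (_ : Module F V') (_ : FiniteDimensional F V')
      (Q' : QuadraticForm F V') (T : Module.End F V'),
      PolarNondeg Q' ∧ finrank F V' = 2 * (k₀ + l) ∧
      (HasTS Q' (k₀ + l) ↔ (ε₀ = 0 ↔ HasTS Q₁ l)) ∧ (∀ v, Q' (T v) = Q' v) ∧ T ^ r = 1 ∧ T ≠ 1 ∧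
      ∀ W : Submodule F V', W.map T ≤ W → (∀ w ∈ W, Q' w = 0) →
        ∃ (w : ℕ) (U₁ : Submodule F V₁), U₁.map T₁ ≤ U₁ ∧ (∀ u ∈ U₁, Q₁ u = 0) ∧ w + ε₀ ≤ k₀ ∧
          finrank F W = w + finrank F U₁ := by
  classical
  have hr : r.Prime := Fact.out
  have hT₁r : T₁ ^ r = 1 := by
    have h1 : aeval T₁ (X ^ r - 1 : F[X]) = 0 := by
      rw [← cyclotomic_prime_mul_X_sub_one F r, map_mul, hcyc, zero_mul]
    simpa [sub_eq_zero] using h1
  refine ⟨V₀ × V₁, inferInstance, inferInstance, inferInstance, Q₀.prod Q₁,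
    (1 : Module.End F V₀).prodMap T₁, Cfsg.Agent.Helper31.TB.tb_prod_nd Q₀ Q₁ hnd₀ hnd, ?_, ?_, ?_, ?_, ?_, ?_⟩
  · rw [Module.finrank_prod, hdim₀, hV₁]
    ring
  · rw [Cfsg.Agent.Helper93.TB.tb_type_prod Q₀ Q₁ hnd₀ hnd k₀ l hdim₀ hV₁, htype₀]
  · rintro ⟨x, y⟩
    rw [LinearMap.prodMap_apply, QuadraticMap.prod_apply, QuadraticMap.prod_apply, hT]
    rfl
  · have key : ∀ n : ℕ, ((1 : Module.End F V₀).prodMap T₁) ^ n
        = (1 : Module.End F V₀).prodMap (T₁ ^ n) := by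
      intro n
      induction n with
      | zero =>
        rw [pow_zero, pow_zero]
        exact LinearMap.prodMap_one.symm
      | succ n ih =>
        rw [pow_succ, ih, pow_succ, LinearMap.prodMap_mul, mul_one]
    rw [key r, hT₁r]
    exact LinearMap.prodMap_one
  · intro h1
    have hT1 : T₁ = 1 := by
      ext y
      have h2 := congrArg (fun f : Module.End F (V₀ × V₁) => (f (0, y)).2) h1
      exact h2
    rw [hT1] at hcyc
    have h2 : aeval (1 : Module.End F V₁) (cyclotomic r F) = (r : F) • (1 : Module.End F V₁) := by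
      have h3 := Polynomial.aeval_algebraMap_apply (A := F) (Module.End F V₁) (1 : F)
        (cyclotomic r F)
      rw [map_one] at h3
      rw [h3, Polynomial.coe_aeval_eq_eval, eval_one_cyclotomic_prime,
        Algebra.algebraMap_eq_smul_one]
    rw [h2] at hcyc
    have hpos : 0 < finrank F V₁ := by omega
    obtain ⟨y, hy⟩ := (Module.finrank_pos_iff_exists_ne_zero).mp hpos
    have h4 := congrArg (fun f : Module.End F V₁ => f y) hcyc
    simp only [LinearMap.smul_apply, Module.End.one_apply, LinearMap.zero_apply] at h4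
    rcases smul_eq_zero.mp h4 with h5 | h5
    · exact hrF h5
    · exact hy h5
  · intro W hW hW0
    have hcop : IsCoprime (X - 1 : F[X]) (cyclotomic r F) := by
      have h1 : Irreducible (X - 1 : F[X]) := by
        have := irreducible_X_sub_C (1 : F)
        simpa using this
      exact (h1.coprime_iff_not_dvd).mpr (X_sub_one_not_dvd_cyclotomic hr hrF)
    have ha : aeval (1 : Module.End F V₀) (X - 1 : F[X]) = 0 := by simp
    obtain ⟨Ua, Ub, -, hUb, rfl⟩ :=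
      Cfsg.Agent.Helper98.TB.tb_split (1 : Module.End F V₀) T₁ (X - 1) (cyclotomic r F) hcop ha hcyc W hW
    obtain ⟨h1, h2, h3⟩ := Cfsg.Agent.Helper31.TB.tb_prod_ts Q₀ Q₁ Ua Ub hW0
    exact ⟨finrank F Ua, Ub, hUb, h2, hbd₀ Ua h1, h3⟩

/-- FULL. -/
theorem tb_full (r : ℕ) [Fact r.Prime] (hrF : (r : F) ≠ 0) {V₁ : Type u} [AddCommGroup V₁]
    [Module F V₁] [FiniteDimensional F V₁] (Q₁ : QuadraticForm F V₁) (T₁ : Module.End F V₁)
    (hnd : PolarNondeg Q₁) (hT : ∀ v, Q₁ (T₁ v) = Q₁ v) (hcyc : aeval T₁ (cyclotomic r F) = 0)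
    (l : ℕ) (hl : 1 ≤ l) (hV₁ : finrank F V₁ = 2 * l) (k₀ ε₀ : ℕ) (hε : ε₀ ≤ 1) (hεk : ε₀ ≤ k₀) :
    ∃ (V' : Type u) (_ : AddCommGroup V') (_ : Module F V') (_ : FiniteDimensional F V')
      (Q' : QuadraticForm F V') (T : Module.End F V'),
      PolarNondeg Q' ∧ finrank F V' = 2 * (k₀ + l) ∧
      (HasTS Q' (k₀ + l) ↔ (ε₀ = 0 ↔ HasTS Q₁ l)) ∧ (∀ v, Q' (T v) = Q' v) ∧ T ^ r = 1 ∧ T ≠ 1 ∧
      ∀ W : Submodule F V', W.map T ≤ W → (∀ w ∈ W, Q' w = 0) →
        ∃ (w : ℕ) (U₁ : Submodule F V₁), U₁.map T₁ ≤ U₁ ∧ (∀ u ∈ U₁, Q₁ u = 0) ∧ w + ε₀ ≤ k₀ ∧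
          finrank F W = w + finrank F U₁ := by
  classical
  rcases Nat.eq_zero_or_pos ε₀ with h0 | h0
  · subst h0
    have hdim : finrank F (Fin k₀ ⊕ Fin k₀ → F) = 2 * k₀ := by
      rw [Module.finrank_fintype_fun_eq_card, Fintype.card_sum, Fintype.card_fin]
      ring
    exact full72_core r hrF Q₁ T₁ hnd hT hcyc l hl hV₁ k₀ 0 (plusQF k₀ F)
      (polarNondeg_of_nondegenerate _ (plusQF_nondeg k₀)) hdim
      ⟨fun _ => rfl, fun _ => hasTS_plus k₀⟩
      (fun U₀ hU₀ => by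
        have := full72_ts_le (plusQF k₀ F) (plusQF_nondeg k₀) k₀ hdim U₀ hU₀
        omega)
  · have hε1 : ε₀ = 1 := by omega
    subst hε1
    -- a nonsquare-type constant
    obtain ⟨ζ, hζ⟩ : ∃ ζ : F, ∀ t : F, t ^ 2 + t + ζ ≠ 0 := by
      have hni : ¬ Function.Injective (fun t : F => t ^ 2 + t) := by
        intro hinj
        have h1 : (fun t : F => t ^ 2 + t) 0 = (fun t : F => t ^ 2 + t) (-1) := by
          simp
        have h2 := hinj h1
        have h3 : (1 : F) = 0 := by linear_combination h2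
        exact one_ne_zero h3
      have hns : ¬ Function.Surjective (fun t : F => t ^ 2 + t) := fun hs =>
        hni (Finite.injective_iff_surjective.mpr hs)
      obtain ⟨c, hc⟩ : ∃ c : F, ∀ t : F, t ^ 2 + t ≠ c := by
        by_contra hcon
        apply hns
        intro c
        by_contra hc
        exact hcon ⟨c, fun t ht => hc ⟨t, ht⟩⟩
      refine ⟨-c, fun t ht => hc t ?_⟩
      show t ^ 2 + t = c
      linear_combination ht
    have hac : ∀ z₁ z₂ : F, z₁ ^ 2 + 1 * z₁ * z₂ + ζ * z₂ ^ 2 = 0 → z₁ = 0 ∧ z₂ = 0 :=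
      fun z₁ z₂ h => Cfsg.Agent.S2617.aniso ζ hζ z₁ z₂ h
    have hdim : finrank F ((Fin (k₀ - 1) ⊕ Fin (k₀ - 1)) ⊕ Fin 2 → F) = 2 * k₀ := by
      rw [Module.finrank_fintype_fun_eq_card, Fintype.card_sum, Fintype.card_sum, Fintype.card_fin,
        Fintype.card_fin]
      omega
    have hnots := not_hasTS_minus (F := F) (m := k₀) hεk 1 ζ hac
    exact full72_core r hrF Q₁ T₁ hnd hT hcyc l hl hV₁ k₀ 1 (minusQF (k₀ - 1) F 1 ζ)
      (polarNondeg_of_nondegenerate _ (minusQF_nondeg (k₀ - 1) 1 ζ hac)) hdim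
      ⟨fun h => absurd h hnots, fun h => absurd h (by norm_num)⟩
      (fun U₀ hU₀ => by
        by_contra hlt
        exact hnots ⟨U₀, by omega, hU₀⟩)

end lvl2

end Cfsg.Agent.Helper72.TB
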