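import Mathlib
import Cfsg.Agent.Helper62.BG36Def
import Cfsg.Agent.Helper63.PLength
import Cfsg.Agent.Helper68.BG36Aux
import Cfsg.Agent.Helper35.CoprimeGen

/-!
# B&G Theorem 3.6, piece (D2): the `p`-closed toolkit

Lemmas about `opp p L = O_{p'}(L)` (inside the ambient group), `PCl p L` (`L` is `p`-closed) and
`p`-length one, for the reduction part of B&G Theorem 3.6 (helper62's CALL S1444).
-/

set_option autoImplicit false

namespace Cfsg.Agent.Helper72

open Subgroup Cfsg.Agent.Helper62.BG36 Cfsg.Agent.Helper63.PLen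
open scoped Pointwise

set_option linter.unusedSectionVars false
set_option linter.unusedVariables false

universe u

variable {G : Type u} [Group G] [Finite G]

/-! ## (D2) `p`-closed toolkit -/

theorem bg36_opp_le (p : ℕ) (L : Subgroup G) : opp p L ≤ L := Subgroup.map_subtype_le _

theorem bg36_opp_coprime (p : ℕ) [Fact p.Prime] (L : Subgroup G) :
    (Nat.card (opp p L)).Coprime p := by
  have h1 : Nat.card (opp p L) = Nat.card (Cfsg.pPrimeCore p ↥L) :=
    (Nat.card_congr (Subgroup.equivMapOfInjective _ _ L.subtype_injective).toEquiv).symm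
  rw [h1]
  exact Cfsg.Agent.Helper24.coprime_card_pPrimeCore p

theorem bg36_le_opp (p : ℕ) [Fact p.Prime] {A L : Subgroup G} (hAL : A ≤ L)
    (hn : L ≤ normalizer (A : Set G)) (hA : (Nat.card A).Coprime p) : A ≤ opp p L := by
  have hN : (A.subgroupOf L).Normal := Subgroup.normal_subgroupOf_of_le_normalizer hn
  have hc : (Nat.card (A.subgroupOf L)).Coprime p := by
    rw [Cfsg.Agent.Helper35.card_subgroupOf_of_le hAL]; exact hA
  have h1 : A.subgroupOf L ≤ Cfsg.pPrimeCore p ↥L := Cfsg.Agent.Helper24.le_pPrimeCore hN hc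
  intro a ha
  exact ⟨⟨a, hAL ha⟩, h1 (Subgroup.mem_subgroupOf.mpr ha), rfl⟩

theorem bg36_le_normalizer_opp (p : ℕ) (L : Subgroup G) : L ≤ normalizer (opp p L : Set G) := by
  apply Cfsg.Agent.Helper35.le_normalizer_of_forall_conj_mem
  intro l hl x hx
  obtain ⟨y, hy, rfl⟩ := hx
  have h1 : (⟨l, hl⟩ : ↥L) * y * (⟨l, hl⟩ : ↥L)⁻¹ ∈ Cfsg.pPrimeCore p ↥L :=
    (Cfsg.pPrimeCore_normal p ↥L).conj_mem y hy _
  exact ⟨_, h1, rfl⟩

theorem bg36_opp_normalizer (p : ℕ) [Fact p.Prime] (L : Subgroup G) :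
    normalizer (L : Set G) ≤ normalizer (opp p L : Set G) := by
  intro g hg
  rw [Cfsg.Agent.Helper35.mem_normalizer_iff_conj_smul_eq]
  have hgL : MulAut.conj g • L = L := Cfsg.Agent.Helper35.conj_smul_eq_self_of_mem_normalizer hg
  have hle : MulAut.conj g • opp p L ≤ opp p L := by
    apply bg36_le_opp
    · have := Cfsg.Agent.Helper35.conj_smul_le_conj_smul (g := g) (bg36_opp_le p L)
      rwa [hgL] at this
    · have := Cfsg.Agent.Helper35.conj_smul_le_normalizer (bg36_le_normalizer_opp p L) g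
      rwa [hgL] at this
    · rw [Cfsg.Agent.Helper35.card_conj_smul]; exact bg36_opp_coprime p L
  exact Subgroup.eq_of_le_of_card_ge hle (by rw [Cfsg.Agent.Helper35.card_conj_smul])

/-- The quotient of `L` by `N ∩ L` is the image of `L` in `G / N`: transport of `p`-length. -/
theorem bg36_pl_quot_of_map (p : ℕ) [Fact p.Prime] {k : ℕ} (L N : Subgroup G) [N.Normal]
    (h : Cfsg.PLengthLE p k ↥(L.map (QuotientGroup.mk' N))) :
    Cfsg.PLengthLE p k (↥L ⧸ N.subgroupOf L) := by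
  have hf := MonoidHom.subgroupMap_surjective (QuotientGroup.mk' N) L
  have hker : N.subgroupOf L = ((QuotientGroup.mk' N).subgroupMap L).ker := by
    ext x
    rw [Subgroup.mem_subgroupOf, MonoidHom.mem_ker]
    constructor
    · intro hx
      apply Subtype.ext
      simpa using hx
    · intro hx
      have := congrArg Subtype.val hx
      simpa using this
  have e := (QuotientGroup.quotientMulEquivOfEq hker).trans
    (QuotientGroup.quotientKerEquivOfSurjective _ hf)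
  exact pLengthLE_of_surjective p e.symm.toMonoidHom e.symm.surjective h

theorem bg36_pl1_of_pcl (p : ℕ) [Fact p.Prime] {L : Subgroup G} (h : PCl p L) :
    Cfsg.PLengthLE p 1 ↥L := by
  obtain ⟨T, hTL, hTp, hT⟩ := h
  have hLT : L ≤ normalizer (T : Set G) := by
    apply Cfsg.Agent.Helper35.le_normalizer_of_forall_conj_mem
    intro l hl t ht
    apply hT _ (L.mul_mem (L.mul_mem hl (hTL ht)) (L.inv_mem hl))
    obtain ⟨k, hk⟩ := hTp ⟨t, ht⟩
    refine ⟨k, ?_⟩
    have hk' : t ^ p ^ k = 1 := by simpa using congrArg Subtype.val hk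
    rw [conj_pow, hk']
    simp
  have hN : (T.subgroupOf L).Normal := Subgroup.normal_subgroupOf_of_le_normalizer hLT
  have hTp' : IsPGroup p ↥(T.subgroupOf L) := by
    intro x
    obtain ⟨k, hk⟩ := hTp ⟨(x : ↥L), Subgroup.mem_subgroupOf.mp x.2⟩
    refine ⟨k, ?_⟩
    apply Subtype.ext
    apply Subtype.ext
    simpa using congrArg Subtype.val hk
  have h1 : Cfsg.PLengthLE p 1 ↥(T.subgroupOf L) := pLengthLE_one_of_isPGroup p hTp'
  -- the quotient has order prime to `p`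
  have h2 : (Nat.card (↥L ⧸ T.subgroupOf L)).Coprime p := by
    rw [← Subgroup.index_eq_card]
    obtain ⟨P, hP⟩ := hTp'.exists_le_sylow
    have hPT : (P : Subgroup ↥L) ≤ T.subgroupOf L := by
      intro x hx
      rw [Subgroup.mem_subgroupOf]
      apply hT _ x.2
      obtain ⟨k, hk⟩ := P.isPGroup' ⟨x, hx⟩
      refine ⟨k, ?_⟩
      have := congrArg Subtype.val hk
      simpa using congrArg Subtype.val this
    have heq : T.subgroupOf L = (P : Subgroup ↥L) := le_antisymm hP hPT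
    rw [heq]
    have hp : p.Prime := Fact.out
    rw [Nat.coprime_comm, Nat.Prime.coprime_iff_not_dvd hp]
    exact P.not_dvd_index
  have h3 : Cfsg.PLengthLE p 0 (↥L ⧸ T.subgroupOf L) := pLengthLE_of_coprime p h2
  exact pLengthLE_extension p (T.subgroupOf L) h1 h3

theorem bg36_pcl_of_pl1 (p : ℕ) [Fact p.Prime] {L : Subgroup G} (h : Cfsg.PLengthLE p 1 ↥L)
    (hO : opp p L = ⊥) : PCl p L := by
  have hp : p.Prime := Fact.out
  have h1 : (Cfsg.upperPSeries p ↥L 1).1 = ⊥ := by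
    rw [upper_one_eq]
    have : (Cfsg.pPrimeCore p ↥L).map L.subtype = (⊥ : Subgroup ↥L).map L.subtype := by
      rw [Subgroup.map_bot]; exact hO
    exact Subgroup.map_injective L.subtype_injective this
  have h2 : IsPGroup p (Cfsg.upperPSeries p ↥L 2).1 := isPGroup_upper_two p h1
  have h3 := fac_upper (G := ↥L) p 2
  rw [fac_even ⟨1, rfl⟩] at h3
  have htop : (Cfsg.upperPSeries p ↥L (2 + 1)).1 = ⊤ := h
  rw [htop, Subgroup.relIndex_top_right] at h3
  refine ⟨(Cfsg.upperPSeries p ↥L 2).1.map L.subtype, Subgroup.map_subtype_le _, ?_, ?_⟩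
  · exact h2.map L.subtype
  · intro g hg hgp
    obtain ⟨k, hk⟩ := hgp
    refine ⟨⟨g, hg⟩, ?_, rfl⟩
    show (⟨g, hg⟩ : ↥L) ∈ (Cfsg.upperPSeries p ↥L 2).1
    rw [← QuotientGroup.eq_one_iff]
    have e1 : ((⟨g, hg⟩ : ↥L) : ↥L ⧸ (Cfsg.upperPSeries p ↥L 2).1) ^ p ^ k = 1 := by
      rw [← QuotientGroup.mk_pow]
      have : (⟨g, hg⟩ : ↥L) ^ p ^ k = 1 := Subtype.ext (by simpa using hk)
      rw [this]; rfl
    have e2 : ((⟨g, hg⟩ : ↥L) : ↥L ⧸ (Cfsg.upperPSeries p ↥L 2).1) ^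
        (Cfsg.upperPSeries p ↥L 2).1.index = 1 := by
      rw [Subgroup.index_eq_card]; exact pow_card_eq_one'
    have e3 := orderOf_dvd_of_pow_eq_one e1
    have e4 := orderOf_dvd_of_pow_eq_one e2
    have e5 : orderOf ((⟨g, hg⟩ : ↥L) : ↥L ⧸ (Cfsg.upperPSeries p ↥L 2).1) ∣ 1 := by
      have := Nat.dvd_gcd e4 e3
      rwa [Nat.Coprime.gcd_eq_one (Nat.Coprime.pow_right k h3)] at this
    exact orderOf_eq_one_iff.mp (Nat.dvd_one.mp e5)

theorem bg36_pl1_of_map_mk (p : ℕ) [Fact p.Prime] {L N : Subgroup G} [N.Normal] (hNL : N ≤ L)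
    (hN : (Nat.card N).Coprime p)
    (h : Cfsg.PLengthLE p 1 ↥(L.map (QuotientGroup.mk' N))) : Cfsg.PLengthLE p 1 ↥L := by
  have h1 : Cfsg.PLengthLE p 0 ↥(N.subgroupOf L) :=
    pLengthLE_of_coprime p (by rw [Cfsg.Agent.Helper35.card_subgroupOf_of_le hNL]; exact hN)
  have h2 := bg36_pl_quot_of_map p L N h
  have h3 := pLengthLE_extension p (N.subgroupOf L) h1 h2
  rwa [Nat.zero_add] at h3

theorem bg36_pl1_of_two_map_mk (p : ℕ) [Fact p.Prime] {L N₁ N₂ : Subgroup G} [N₁.Normal]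
    [N₂.Normal] (_h₁ : N₁ ≤ L) (_h₂ : N₂ ≤ L) (h : N₁ ⊓ N₂ = ⊥)
    (hq₁ : Cfsg.PLengthLE p 1 ↥(L.map (QuotientGroup.mk' N₁)))
    (hq₂ : Cfsg.PLengthLE p 1 ↥(L.map (QuotientGroup.mk' N₂))) : Cfsg.PLengthLE p 1 ↥L := by
  apply Cfsg.Agent.Helper68.bg36_pLengthLE_of_inf_eq_bot p (N₁.subgroupOf L) (N₂.subgroupOf L)
  · rw [eq_bot_iff]
    intro x hx
    have hx1 : (x : G) ∈ N₁ ⊓ N₂ := ⟨Subgroup.mem_subgroupOf.mp hx.1, Subgroup.mem_subgroupOf.mp hx.2⟩
    rw [h, Subgroup.mem_bot] at hx1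
    rw [Subgroup.mem_bot]
    exact Subtype.ext hx1
  · exact bg36_pl_quot_of_map p L N₁ hq₁
  · exact bg36_pl_quot_of_map p L N₂ hq₂

theorem bg36_pcl_of_map_mk (p : ℕ) [Fact p.Prime] {L N : Subgroup G} [N.Normal] (hNL : N ≤ L)
    (hN : IsPGroup p N) (h : PCl p (L.map (QuotientGroup.mk' N))) : PCl p L := by
  obtain ⟨T, hTL, hTp, hT⟩ := h
  refine ⟨T.comap (QuotientGroup.mk' N) ⊓ L, inf_le_right, ?_, ?_⟩
  · intro g
    have hg1 : QuotientGroup.mk' N (g : G) ∈ T := g.2.1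
    obtain ⟨a, ha⟩ := hTp ⟨_, hg1⟩
    have ha' : (QuotientGroup.mk' N (g : G)) ^ p ^ a = 1 := by
      simpa using congrArg Subtype.val ha
    have hgN : (g : G) ^ p ^ a ∈ N := by
      rw [← QuotientGroup.eq_one_iff]
      have : (((g : G) ^ p ^ a : G) : G ⧸ N) = (QuotientGroup.mk' N (g : G)) ^ p ^ a := rfl
      rw [this, ha']
    obtain ⟨b, hb⟩ := hN ⟨_, hgN⟩
    have hb' : ((g : G) ^ p ^ a) ^ p ^ b = 1 := by simpa using congrArg Subtype.val hb
    refine ⟨a + b, ?_⟩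
    apply Subtype.ext
    rw [Subgroup.coe_pow, pow_add, pow_mul, hb']
    rfl
  · intro g hg hgp
    obtain ⟨k, hk⟩ := hgp
    refine ⟨?_, hg⟩
    show QuotientGroup.mk' N g ∈ T
    apply hT _ (Subgroup.mem_map_of_mem _ hg)
    refine ⟨k, ?_⟩
    rw [← map_pow, hk, map_one]

end Cfsg.Agent.Helper72
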