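import Mathlib
import Cfsg.Agent.Helper72.BG36D2
import Cfsg.Agent.Helper35.Burnside
import Cfsg.Agent.Helper64.MetaFrattini

/-!
# B&G Theorem 3.6, piece (D4): the Frattini quotient

* `bg36_opp_frat_quot`: if `V` is a normal `p`-subgroup of `H` with `C_H(V) ≤ V` and `N ≤ Φ(V)`,
  then `O_{p'}(H / N) = 1`.
* `bg36_elemAb_of_frat`: a `p`-group with trivial Frattini subgroup is elementary abelian.
-/

set_option autoImplicit false

namespace Cfsg.Agent.Helper72

open Subgroup Cfsg.Agent.Helper62.BG36 Cfsg.Agent.Helper63.PLen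
open scoped Pointwise

set_option linter.unusedSectionVars false
set_option linter.unusedVariables false

universe u

variable {G : Type u} [Group G] [Finite G]

/-! ## (D4) the Frattini quotient has no normal `p'`-subgroup -/

theorem bg36_opp_frat_quot (p : ℕ) [Fact p.Prime] (H V N : Subgroup G) [H.Normal] [V.Normal]
    [N.Normal] (hVH : V ≤ H) (hVp : IsPGroup p V) (hCV : H ⊓ centralizer (V : Set G) ≤ V)
    (hN : N ≤ (frattini ↥V).map V.subtype) :
    opp p (H.map (QuotientGroup.mk' N)) = ⊥ := by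
  have hp : p.Prime := Fact.out
  rw [eq_bot_iff]
  intro ā hā
  rw [Subgroup.mem_bot]
  obtain ⟨π, hπ⟩ : ∃ π : G →* G ⧸ N, π = QuotientGroup.mk' N := ⟨_, rfl⟩
  rw [← hπ] at hā
  have hAle := bg36_opp_le p (H.map π)
  have hAcop := bg36_opp_coprime p (H.map π)
  have hAnorm := bg36_le_normalizer_opp p (H.map π)
  obtain ⟨a, haH, rfl⟩ := hAle hā
  obtain ⟨j, m, hm, hom⟩ := Nat.exists_eq_pow_mul_and_not_dvd (orderOf_pos a).ne' p hp.ne_one
  obtain ⟨a', ha'⟩ : ∃ a' : G, a' = a ^ (p ^ j) := ⟨_, rfl⟩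
  have ha'H : a' ∈ H := by rw [ha']; exact H.pow_mem haH _
  have ha'A : π a' ∈ opp p (H.map π) := by
    rw [ha', map_pow]; exact Subgroup.pow_mem _ hā _
  have hord : (orderOf a').Coprime p := by
    have h1 : a' ^ m = 1 := by rw [ha', ← pow_mul, ← hom, pow_orderOf_eq_one]
    exact Nat.Coprime.coprime_dvd_left (orderOf_dvd_of_pow_eq_one h1)
      ((Nat.Prime.coprime_iff_not_dvd hp).mpr hm).symm
  have hVpi : IsPGroup p ↥(V.map π) := hVp.map π
  have hinf : V.map π ⊓ opp p (H.map π) = ⊥ :=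
    Cfsg.Agent.Helper24.inf_eq_bot_of_isPGroup_of_coprime hVpi hAcop
  have hF : ∀ y ∈ V, a' * y * a'⁻¹ * y⁻¹ ∈ (frattini ↥V).map V.subtype := by
    intro y hy
    apply hN
    have h1 : π (a' * y * a'⁻¹ * y⁻¹) ∈ V.map π ⊓ opp p (H.map π) := by
      constructor
      · exact Subgroup.mem_map_of_mem π
          (V.mul_mem ((inferInstance : V.Normal).conj_mem y hy a') (V.inv_mem hy))
      · have h2 : π y ∈ H.map π := Subgroup.mem_map_of_mem π (hVH hy)
        have h3 : π y * (π a')⁻¹ * (π y)⁻¹ ∈ opp p (H.map π) :=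
          (Subgroup.mem_normalizer_iff.mp (hAnorm h2) _).mp (Subgroup.inv_mem _ ha'A)
        have h4 : π (a' * y * a'⁻¹ * y⁻¹) = π a' * (π y * (π a')⁻¹ * (π y)⁻¹) := by
          simp [mul_assoc]
        rw [h4]
        exact Subgroup.mul_mem _ ha'A h3
    rw [hinf, Subgroup.mem_bot, hπ] at h1
    exact (QuotientGroup.eq_one_iff _).mp h1
  have hnV : a' ∈ normalizer (V : Set G) := by
    rw [normalizer_eq_top_iff.mpr inferInstance]; exact Subgroup.mem_top _
  have hcent := Cfsg.Agent.Helper35.centralizes_of_coprime_of_frattini hVp hnV hord hF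
  have ha'V : a' ∈ V :=
    hCV ⟨ha'H, Subgroup.mem_centralizer_iff.mpr (fun y hy => (hcent y hy).symm)⟩
  have ha'1 : a' = 1 := by
    obtain ⟨k, hk⟩ := hVp ⟨a', ha'V⟩
    have hk' : a' ^ p ^ k = 1 := by simpa using congrArg Subtype.val hk
    have h1 := orderOf_dvd_of_pow_eq_one hk'
    have h2 : orderOf a' ∣ 1 := by
      have := Nat.dvd_gcd dvd_rfl h1
      rwa [Nat.Coprime.gcd_eq_one (Nat.Coprime.pow_right k hord)] at this
    exact orderOf_eq_one_iff.mp (Nat.dvd_one.mp h2)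
  have h5 : (π a) ^ p ^ j = 1 := by rw [← map_pow, ← ha', ha'1, map_one]
  have h6 : orderOf (π a) ∣ p ^ j := orderOf_dvd_of_pow_eq_one h5
  have h7 : orderOf (π a) ∣ Nat.card ↥(opp p (H.map π)) := by
    have := orderOf_dvd_natCard (⟨π a, hā⟩ : ↥(opp p (H.map π)))
    rwa [Subgroup.orderOf_mk] at this
  have h8 : orderOf (π a) ∣ 1 := by
    have := Nat.dvd_gcd h7 h6
    rwa [Nat.Coprime.gcd_eq_one (Nat.Coprime.pow_right j hAcop)] at this
  exact orderOf_eq_one_iff.mp (Nat.dvd_one.mp h8)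

theorem bg36_elemAb_of_frat (p : ℕ) [Fact p.Prime] (V : Subgroup G) (hVp : IsPGroup p V)
    (hfrat : (frattini ↥V).map V.subtype = ⊥) :
    (∀ a ∈ V, ∀ b ∈ V, a * b = b * a) ∧ ∀ a ∈ V, a ^ p = 1 := by
  have hp : p.Prime := Fact.out
  have hF : frattini ↥V = ⊥ :=
    (Subgroup.map_eq_bot_iff_of_injective _ V.subtype_injective).mp hfrat
  constructor
  · intro a ha b hb
    have hmem : (⟨a, ha⟩ : ↥V) * ⟨b, hb⟩ * (⟨a, ha⟩ : ↥V)⁻¹ * (⟨b, hb⟩ : ↥V)⁻¹ ∈ frattini ↥V := by
      rw [frattini, Order.radical]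
      simp only [Subgroup.mem_iInf]
      intro M hM
      have hMn : M.Normal := Cfsg.Agent.Helper64.coatom_normal_of_pgroup hVp M hM
      have hidx : Nat.card (↥V ⧸ M) = p := Cfsg.Agent.Helper64.coatom_index_of_pgroup hVp M hM
      have : Fact (Nat.card (↥V ⧸ M)).Prime := ⟨by rw [hidx]; exact hp⟩
      have hcyc : IsCyclic (↥V ⧸ M) := isCyclic_of_prime_card (p := Nat.card (↥V ⧸ M)) rfl
      rw [← QuotientGroup.eq_one_iff]
      have hc := Std.Commutative.comm (op := (· * · : ↥V ⧸ M → _ → _))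
        ((⟨a, ha⟩ : ↥V) : ↥V ⧸ M) ((⟨b, hb⟩ : ↥V) : ↥V ⧸ M)
      simp only [QuotientGroup.mk_mul, QuotientGroup.mk_inv]
      rw [hc]
      group
    rw [hF, Subgroup.mem_bot] at hmem
    have h1 := congrArg Subtype.val hmem
    have h2 : a * b * a⁻¹ * b⁻¹ = 1 := by simpa using h1
    calc a * b = (a * b * a⁻¹ * b⁻¹) * (b * a) := by group
      _ = b * a := by rw [h2, one_mul]
  · intro a ha
    have h1 := Cfsg.Agent.Helper64.pow_prime_mem_frattini_of_pgroup hVp (⟨a, ha⟩ : ↥V)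
    rw [hF, Subgroup.mem_bot] at h1
    simpa using congrArg Subtype.val h1

end Cfsg.Agent.Helper72
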