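import Cfsg.Agent.Helper72.BG36FinC
import Cfsg.Agent.Helper55.BG36Ab

/-!
# B&G Theorem 3.6: the final configuration

`bg36_final`: the configuration reached in a minimal counterexample to B&G Theorem 3.6
(`V` elementary abelian `p`-group, `K` a `p'`-group acting faithfully on `V`, `S` a `p`-group
acting on `K`, `R` of prime order acting on everything) is contradictory.  The abelian case is
`Cfsg.Agent.Helper55.bg36_abelian`.
-/

set_option autoImplicit false

namespace Cfsg.Agent.Helper72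

open Subgroup

universe u

/-- Final configuration of B&G Theorem 3.6. -/
theorem bg36_final {G : Type u} [Group G] [Finite G] (hodd : Odd (Nat.card G))
    (hsolv : Group.IsSolvable G) (p : ℕ) [Fact p.Prime] (V K S R : Subgroup G)
    (hVp : ∀ v ∈ V, v ^ p = 1) (hVab : ∀ a ∈ V, ∀ b ∈ V, a * b = b * a)
    (hKp : (Nat.card K).Coprime p) (hSp : IsPGroup p S)
    (hRr : (Nat.card R).Prime) (hRp : Nat.card R ≠ p)
    (hRK : (Nat.card R).Coprime (Nat.card K))
    (hKV : K ≤ normalizer (V : Set G)) (hSV : S ≤ normalizer (V : Set G))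
    (hRV : R ≤ normalizer (V : Set G)) (hSK : S ≤ normalizer (K : Set G))
    (hRK' : R ≤ normalizer (K : Set G)) (hRS : R ≤ normalizer (S : Set G))
    (hKf : K ⊓ centralizer (V : Set G) = ⊥) (hSf : S ⊓ centralizer (V : Set G) = ⊥)
    (hVK : V ⊓ centralizer (K : Set G) = ⊥)
    (hSR : S ⊓ centralizer (R : Set G) = ⊥)
    (hSirr : ∀ S₀ : Subgroup G, S₀ ≤ S → R ≤ normalizer (S₀ : Set G) → S₀ = ⊥ ∨ S₀ = S)
    (hKmin : ∀ K₀ : Subgroup G, K₀ ≤ K → K₀ ≠ K → S ≤ normalizer (K₀ : Set G) →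
      R ≤ normalizer (K₀ : Set G) → K₀ ≤ centralizer (S : Set G))
    (hKS : ¬ K ≤ centralizer (S : Set G))
    (hCV : IsZGroup ↥(V ⊓ centralizer (R : Set G)))
    (hCK : IsZGroup ↥(K ⊓ centralizer (R : Set G))) : False := by
  have hp : p.Prime := Fact.out
  have h : BGF p V K S R :=
    { hsolv := hsolv, hp := hp, hVp := hVp, hVab := hVab, hKp := hKp, hSp := hSp, hRr := hRr,
      hRp := hRp, hRK := hRK, hKV := hKV, hSV := hSV, hRV := hRV, hSK := hSK, hRK' := hRK',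
      hRS := hRS, hKf := hKf, hSR := hSR, hKmin := hKmin, hKS := hKS, hCV := hCV, hCK := hCK }
  obtain ⟨t, ht, hKt⟩ := h.exists_isPGroup
  have : Fact t.Prime := ⟨ht⟩
  obtain ⟨x, hx, hx1⟩ := bgf_exists_ne_one hRr
  have hcx := bgf_centralizer_singleton hRr hx hx1
  have hK1 := h.K_ne_bot
  -- `t` divides the order of `K`
  have htK : t ∣ Nat.card K := by
    obtain ⟨n, hn⟩ := IsPGroup.iff_card.mp hKt
    rcases Nat.eq_zero_or_pos n with h0 | h0
    · rw [h0, pow_zero] at hn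
      exact absurd (Subgroup.card_eq_one.mp hn) hK1
    · rw [hn]
      exact dvd_pow_self t h0.ne'
  have hpt : p ≠ t := by
    intro hpt
    have h1 : p ∣ Nat.gcd (Nat.card K) p := Nat.dvd_gcd (hpt ▸ htK) dvd_rfl
    rw [Nat.Coprime.gcd_eq_one hKp] at h1
    exact hp.one_lt.ne' (Nat.dvd_one.mp h1)
  have htr : t ≠ Nat.card R := by
    intro htr
    have h1 : t ∣ Nat.gcd (Nat.card R) (Nat.card K) := Nat.dvd_gcd (htr ▸ dvd_rfl) htK
    rw [Nat.Coprime.gcd_eq_one hRK] at h1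
    exact ht.one_lt.ne' (Nat.dvd_one.mp h1)
  have hS1 : S ≠ ⊥ := by
    intro hS
    apply hKS
    rw [hS, Subgroup.le_centralizer_iff]
    exact bot_le
  have hCVx : IsCyclic ↥(V ⊓ centralizer ({x} : Set G)) := by
    rw [hcx]
    have hP : IsPGroup p ↥(V ⊓ centralizer (R : Set G)) := h.isPGroup_V.to_le inf_le_left
    have hnil : Group.IsNilpotent ↥(V ⊓ centralizer (R : Set G)) := hP.isNilpotent
    infer_instance
  have hCKx : IsCyclic ↥(K ⊓ centralizer ({x} : Set G)) := by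
    rw [hcx]
    have hP : IsPGroup t ↥(K ⊓ centralizer (R : Set G)) := hKt.to_le inf_le_left
    have hnil : Group.IsNilpotent ↥(K ⊓ centralizer (R : Set G)) := hP.isNilpotent
    infer_instance
  exact Helper55.bg36_abelian hodd hp ht hRr hpt (Ne.symm hRp) htr V K S x hVab hVp h.K_comm hKt
    hSp hS1 hKV hSV (hRV hx) hSK (hRK' hx) (hRS hx) (bgf_orderOf hRr hx hx1) hVK hSf hKf
    (by rw [hcx]; exact hSR)
    (fun S₀ hS₀ hxS₀ => hSirr S₀ hS₀ (bgf_le_of_mem hRr hx hx1 hxS₀))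
    (fun K₀ hK₀ hne hSK₀ hxK₀ => hKmin K₀ hK₀ hne hSK₀ (bgf_le_of_mem hRr hx hx1 hxK₀))
    (fun hSK' => hKS (Subgroup.le_centralizer_iff.mp hSK')) hCVx hCKx

/-- Final configuration of B&G Theorem 3.6, with `R` given by a generator `x` of prime order. -/
theorem bg36_final_elt {X : Type u} [Group X] [Finite X] (hodd : Odd (Nat.card X))
    (hsolv : Group.IsSolvable X) (p : ℕ) [Fact p.Prime] (V K S : Subgroup X) (x : X)
    (hVp : ∀ v ∈ V, v ^ p = 1) (hVab : ∀ a ∈ V, ∀ b ∈ V, a * b = b * a)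
    (hKp : (Nat.card K).Coprime p) (hSp : IsPGroup p S)
    (hxr : (orderOf x).Prime) (hcop : (Nat.card ↥(V ⊔ K ⊔ S)).Coprime (orderOf x))
    (hKV : K ≤ normalizer (V : Set X)) (hSV : S ≤ normalizer (V : Set X))
    (hxV : x ∈ normalizer (V : Set X)) (hSK : S ≤ normalizer (K : Set X))
    (hxK : x ∈ normalizer (K : Set X)) (hxS : x ∈ normalizer (S : Set X))
    (hKf : K ⊓ centralizer (V : Set X) = ⊥) (hSf : S ⊓ centralizer (V : Set X) = ⊥)
    (hVK : V ⊓ centralizer (K : Set X) = ⊥)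
    (hSx : S ⊓ centralizer ({x} : Set X) = ⊥)
    (hSirr : ∀ S₀ : Subgroup X, S₀ ≤ S → x ∈ normalizer (S₀ : Set X) → S₀ = ⊥ ∨ S₀ = S)
    (hKmin : ∀ K₀ : Subgroup X, K₀ ≤ K → K₀ ≠ K → S ≤ normalizer (K₀ : Set X) →
      x ∈ normalizer (K₀ : Set X) → K₀ ≤ centralizer (S : Set X))
    (hSK' : ¬ S ≤ centralizer (K : Set X))
    (hCV : IsCyclic ↥(V ⊓ centralizer ({x} : Set X)))
    (hCK : IsZGroup ↥(K ⊓ centralizer ({x} : Set X))) : False := by
  have hp : p.Prime := Fact.out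
  have hRr : (Nat.card (zpowers x)).Prime := by rw [Nat.card_zpowers]; exact hxr
  have hx : x ∈ zpowers x := mem_zpowers x
  have hx1 : x ≠ 1 := by
    intro h
    rw [h, orderOf_one] at hxr
    exact Nat.not_prime_one hxr
  have hcx := bgf_centralizer_singleton hRr hx hx1
  have hS1 : S ≠ ⊥ := by
    intro hS
    apply hSK'
    rw [hS]
    exact bot_le
  have hRp : Nat.card (zpowers x) ≠ p := by
    rw [Nat.card_zpowers]
    intro hxp
    have h1 : p ∣ Nat.card S := by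
      obtain ⟨n, hn⟩ := IsPGroup.iff_card.mp hSp
      rcases Nat.eq_zero_or_pos n with h0 | h0
      · rw [h0, pow_zero] at hn
        exact absurd (Subgroup.card_eq_one.mp hn) hS1
      · rw [hn]
        exact dvd_pow_self p h0.ne'
    have h2 : p ∣ Nat.card ↥(V ⊔ K ⊔ S) := h1.trans (Subgroup.card_dvd_of_le le_sup_right)
    have h3 : p ∣ Nat.gcd (Nat.card ↥(V ⊔ K ⊔ S)) (orderOf x) := Nat.dvd_gcd h2 (hxp ▸ dvd_rfl)
    rw [Nat.Coprime.gcd_eq_one hcop] at h3
    exact hp.one_lt.ne' (Nat.dvd_one.mp h3)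
  have hRK : (Nat.card (zpowers x)).Coprime (Nat.card K) := by
    rw [Nat.card_zpowers]
    exact (Nat.Coprime.coprime_dvd_left
      (Subgroup.card_dvd_of_le (le_sup_right.trans le_sup_left)) hcop).symm
  refine bg36_final hodd hsolv p V K S (zpowers x) hVp hVab hKp hSp hRr hRp hRK hKV hSV
    (zpowers_le.mpr hxV) hSK (zpowers_le.mpr hxK) (zpowers_le.mpr hxS) hKf hSf hVK
    (by rw [← hcx]; exact hSx)
    (fun S₀ hS₀ hR => hSirr S₀ hS₀ (hR hx))
    (fun K₀ hK₀ hne hSK₀ hR => hKmin K₀ hK₀ hne hSK₀ (hR hx))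
    (fun hKS => hSK' (Subgroup.le_centralizer_iff.mp hKS)) ?_ ?_
  · rw [← hcx]
    infer_instance
  · rw [← hcx]
    exact hCK

end Cfsg.Agent.Helper72
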