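import Mathlib
import Cfsg.Agent.Helper62.BG36Def
import Cfsg.Agent.Helper62.FitAct
import Cfsg.Agent.Helper68.BG36Aux
import Cfsg.Agent.Helper68.BG36Aux2
import Cfsg.Agent.Helper72.BG36D2
import Cfsg.Agent.Helper72.BG36Fin

/-!
# B&G Theorem 3.6: the second half of the minimal-counterexample analysis

`bg36_core`: given the structure `L = V K`, `H = V N_H(K)` of piece (D3), `C_V(K) = 1` (R4) and
CLAIM A (commutators `[X, R']` of proper invariant subgroups are `p`-closed), the group `H` is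
`p`-closed.  Steps R3 (b)-(d), R5, R6 of the blueprint and the call of the final configuration
`bg36_final_elt`.
-/

set_option autoImplicit false
set_option linter.unusedSectionVars false
set_option linter.unusedVariables false

namespace Cfsg.Agent.Helper72

open Subgroup Cfsg.Agent.Helper62.BG36
open scoped commutatorElement

universe u

variable {G : Type u} [Group G]

/-! ### General lemmas -/

/-- `X` normalises `[X, R]`. -/
theorem bgc_le_normalizer_commutator (X R : Subgroup G) :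
    X ≤ normalizer ((⁅X, R⁆ : Subgroup G) : Set G) := by
  apply Helper35.le_normalizer_of_forall_conj_mem
  intro a ha c hc
  have h1 : (⁅X, R⁆ : Subgroup G) ≤ (⁅X, R⁆ : Subgroup G).comap (MulAut.conj a).toMonoidHom := by
    rw [Subgroup.commutator_le]
    intro g₁ hg₁ g₂ hg₂
    rw [Subgroup.mem_comap]
    have h2 : (MulAut.conj a).toMonoidHom ⁅g₁, g₂⁆ = ⁅a * g₁, g₂⁆ * ⁅a, g₂⁆⁻¹ := by
      simp only [MulEquiv.coe_toMonoidHom, MulAut.conj_apply, commutatorElement_def]
      group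
    rw [h2]
    exact Subgroup.mul_mem _ (Subgroup.commutator_mem_commutator (X.mul_mem ha hg₁) hg₂)
      (Subgroup.inv_mem _ (Subgroup.commutator_mem_commutator ha hg₂))
  have h3 := h1 hc
  rw [Subgroup.mem_comap] at h3
  simpa using h3

/-- A `p`-subgroup and a `p'`-subgroup meet trivially. -/
theorem bgc_inf_eq_bot [Finite G] (p : ℕ) [Fact p.Prime] {P K : Subgroup G} (hP : IsPGroup p P)
    (hK : (Nat.card K).Coprime p) : P ⊓ K = ⊥ := by
  apply Disjoint.eq_bot
  apply Subgroup.disjoint_of_coprime_natCard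
  obtain ⟨n, hn⟩ := IsPGroup.iff_card.mp hP
  rw [hn]
  exact Nat.Coprime.pow_left n hK.symm

/-- If `V` is normal, `M` a `p'`-group with `V ∩ M = 1`, and `v m` is a `p`-element, then
`m = 1`. -/
theorem bgc_pelt [Finite G] (p : ℕ) [Fact p.Prime] {V M : Subgroup G} [V.Normal]
    (hVM : V ⊓ M = ⊥) (hM : (Nat.card M).Coprime p) {v m : G} (hv : v ∈ V) (hm : m ∈ M) {j : ℕ}
    (hj : (v * m) ^ p ^ j = 1) : m = 1 := by
  have h1 : ((m ^ p ^ j : G) : G ⧸ V) = 1 := by
    have h2 : ((v * m : G) : G ⧸ V) = (m : G ⧸ V) := by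
      rw [QuotientGroup.mk_mul, (QuotientGroup.eq_one_iff v).mpr hv, one_mul]
    rw [QuotientGroup.mk_pow, ← h2, ← QuotientGroup.mk_pow, hj]; rfl
  have h3 : m ^ p ^ j ∈ V := (QuotientGroup.eq_one_iff _).mp h1
  have h4 : m ^ p ^ j ∈ V ⊓ M := ⟨h3, M.pow_mem hm _⟩
  rw [hVM, Subgroup.mem_bot] at h4
  have h5 : orderOf m ∣ p ^ j := orderOf_dvd_of_pow_eq_one h4
  have h6 : orderOf m ∣ Nat.card M := Subgroup.orderOf_dvd_natCard M hm
  have h7 : orderOf m = 1 := Nat.eq_one_of_dvd_coprimes (hM.pow_right j) h6 h5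
  exact orderOf_eq_one_iff.mp h7

/-- If the `p`-elements of `[X, R]` lie in the `p`-subgroup `T ≤ [X, R]`, then `X` normalises
`T`. -/
theorem bgc_normT (p : ℕ) {X R T : Subgroup G} (hT : T ≤ ⁅X, R⁆) (hTp : IsPGroup p T)
    (hcl : ∀ g ∈ (⁅X, R⁆ : Subgroup G), (∃ k : ℕ, g ^ p ^ k = 1) → g ∈ T) :
    X ≤ normalizer (T : Set G) := by
  apply Helper35.le_normalizer_of_forall_conj_mem
  intro a ha t ht
  apply hcl
  · exact bgf_conj_mem (bgc_le_normalizer_commutator X R) ha (hT ht)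
  · obtain ⟨k, hk⟩ := hTp ⟨t, ht⟩
    refine ⟨k, ?_⟩
    have hk' : t ^ p ^ k = 1 := by simpa using congrArg Subtype.val hk
    rw [conj_pow, hk']; simp

/-- A subgroup `Z` of a `p`-group `T` normalising a `p'`-group `Y` which normalises `T`
centralises `Y`. -/
theorem bgc_centralizes [Finite G] (p : ℕ) [Fact p.Prime] {T Y Z : Subgroup G}
    (hTp : IsPGroup p T) (hYT : Y ≤ normalizer (T : Set G)) (hY : (Nat.card Y).Coprime p)
    (hZT : Z ≤ T) (hZY : Z ≤ normalizer (Y : Set G)) : Z ≤ centralizer (Y : Set G) := by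
  intro z hz
  rw [Subgroup.mem_centralizer_iff]
  intro y hy
  have h1 : z * y * z⁻¹ * y⁻¹ ∈ T ⊓ Y := by
    constructor
    · have h2 : y * z⁻¹ * y⁻¹ ∈ T := bgf_conj_mem hYT hy (T.inv_mem (hZT hz))
      have e : z * y * z⁻¹ * y⁻¹ = z * (y * z⁻¹ * y⁻¹) := by group
      rw [e]; exact T.mul_mem (hZT hz) h2
    · exact Y.mul_mem (bgf_conj_mem hZY hz hy) (Y.inv_mem hy)
  rw [bgc_inf_eq_bot p hTp hY, Subgroup.mem_bot] at h1
  exact (mul_inv_eq_iff_eq_mul.mp (mul_inv_eq_one.mp h1)).symm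

/-- In a finite cyclic group, an element `b` with `b ^ p = 1` lies in the subgroup generated by
any element of order `p`. -/
theorem bgc_cyc_mem {C : Type*} [Group C] [Finite C] [IsCyclic C] {p : ℕ} (hp : p.Prime)
    {a b : C} (ha : orderOf a = p) (hb : b ^ p = 1) : b ∈ zpowers a := by
  classical
  have := Fintype.ofFinite C
  have h1 := IsCyclic.card_pow_eq_one_le (α := C) hp.pos
  have h2 : (Finset.image (fun i : ℕ => a ^ i) (Finset.range p)).card = p := by
    rw [Finset.card_image_of_injOn, Finset.card_range]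
    intro i hi j hj hij
    have hi' : i ∈ Set.Iio (orderOf a) := by rw [ha]; simpa using hi
    have hj' : j ∈ Set.Iio (orderOf a) := by rw [ha]; simpa using hj
    exact pow_injOn_Iio_orderOf hi' hj' hij
  have h3 : Finset.image (fun i : ℕ => a ^ i) (Finset.range p) ⊆
      Finset.univ.filter (fun y : C => y ^ p = 1) := by
    intro y hy
    obtain ⟨i, -, rfl⟩ := Finset.mem_image.mp hy
    simp only [Finset.mem_filter, Finset.mem_univ, true_and]
    rw [← pow_mul, mul_comm, pow_mul, ← ha, pow_orderOf_eq_one, one_pow]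
  have h4 := Finset.eq_of_subset_of_card_le h3 (by rw [h2]; exact h1)
  have h5 : b ∈ Finset.univ.filter (fun y : C => y ^ p = 1) := by simp [hb]
  rw [← h4] at h5
  obtain ⟨i, -, rfl⟩ := Finset.mem_image.mp h5
  exact Subgroup.pow_mem _ (mem_zpowers a) i

/-- Two subgroups of a cyclic `p`-group with trivial intersection: one of them is trivial. -/
theorem bgc_cyclic_disjoint [Finite G] (p : ℕ) [Fact p.Prime] {A B C : Subgroup G}
    (hC : IsCyclic ↥C) (hCp : IsPGroup p C) (hA : A ≤ C) (hB : B ≤ C) (hAB : A ⊓ B = ⊥) :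
    A = ⊥ ∨ B = ⊥ := by
  by_contra hcon
  push Not at hcon
  obtain ⟨hA1, hB1⟩ := hcon
  have key : ∀ D : Subgroup G, D ≤ C → D ≠ ⊥ → ∃ d ∈ D, orderOf d = p := by
    intro D hD hD1
    have hDp : IsPGroup p D := hCp.to_le hD
    obtain ⟨n, hn⟩ := IsPGroup.iff_card.mp hDp
    have hn0 : n ≠ 0 := by
      rintro rfl
      rw [pow_zero] at hn
      exact hD1 (Subgroup.card_eq_one.mp hn)
    have hdvd : p ∣ Nat.card D := by rw [hn]; exact dvd_pow_self p hn0
    obtain ⟨d, hd⟩ := exists_prime_orderOf_dvd_card' (G := ↥D) p hdvd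
    exact ⟨d.1, d.2, by rw [Subgroup.orderOf_coe]; exact hd⟩
  obtain ⟨a, haA, hao⟩ := key A hA hA1
  obtain ⟨b, hbB, hbo⟩ := key B hB hB1
  have ha' : orderOf (⟨a, hA haA⟩ : ↥C) = p := by
    rw [← Subgroup.orderOf_coe]; exact hao
  have hb' : (⟨b, hB hbB⟩ : ↥C) ^ p = 1 := by
    apply Subtype.ext
    simp only [Subgroup.coe_pow, Subgroup.coe_one]
    rw [← hbo]; exact pow_orderOf_eq_one b
  have h1 := bgc_cyc_mem (Fact.out : p.Prime) ha' hb'
  obtain ⟨i, hi⟩ := Subgroup.mem_zpowers_iff.mp h1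
  have h2 : a ^ i = b := by
    have := congrArg Subtype.val hi
    simpa using this
  have h3 : b ∈ A ⊓ B := ⟨by rw [← h2]; exact A.zpow_mem haA i, hbB⟩
  rw [hAB, Subgroup.mem_bot] at h3
  rw [h3, orderOf_one] at hbo
  exact (Fact.out : p.Prime).one_lt.ne hbo


/-! ### The configuration `H = V N`, `N = N_H(K)`, `S` an `R`-invariant Sylow `p`-subgroup of `N` -/

/-- The configuration of the second half of the proof of B&G 3.6. -/
structure BGC (p : ℕ) (H R V K N S : Subgroup G) : Prop where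
  nV : V.Normal
  hcop : (Nat.card H).Coprime (Nat.card R)
  hHR : (⁅H, R⁆ : Subgroup G) = H
  hVH : V ≤ H
  hKp : (Nat.card K).Coprime p
  hKN : K ≤ N
  hNH : N ≤ H
  hNK : N ≤ normalizer (K : Set G)
  hRK : R ≤ normalizer (K : Set G)
  hRN : R ≤ normalizer (N : Set G)
  hfrat : ∀ h ∈ H, ∃ v ∈ V, ∃ n ∈ N, h = v * n
  hVN : V ⊓ N = ⊥
  hSN : S ≤ N
  hSp : IsPGroup p S
  hSyl : ¬ p ∣ S.relIndex N
  hRS : R ≤ normalizer (S : Set G)
  hSK : S ⊓ centralizer (K : Set G) = ⊥
  hS : S ≠ ⊥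
  hA : ∀ X : Subgroup G, V ≤ X → X ≤ H → R ≤ normalizer (X : Set G) → X ≠ H →
    PCl p (⁅X, R⁆ : Subgroup G)

variable [Finite G]

/-- `R` does not centralise `S`. -/
theorem BGC.not_centralizes [Group.IsSolvable G] (p : ℕ) [Fact p.Prime]
    {H R V K N S : Subgroup G} (h : BGC p H R V K N S) : ¬ R ≤ centralizer (S : Set G) := by
  intro hc
  have hnV := h.nV
  have hsolvN : Group.IsSolvable N := inferInstance
  have hcopN : (Nat.card N).Coprime (Nat.card R) :=
    Nat.Coprime.coprime_dvd_left (Subgroup.card_dvd_of_le h.hNH) h.hcop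
  have h1 := Helper68.bg36a_comm_coprime_of_centralizes' p h.hRN hsolvN hcopN h.hSN h.hSp h.hSyl hc
  have h2 : (⁅H, R⁆ : Subgroup G) ≤ V ⊔ ⁅N, R⁆ := by
    rw [Subgroup.commutator_le]
    intro g hg r hr
    obtain ⟨v, hv, n, hn, rfl⟩ := h.hfrat g hg
    have e : ⁅v * n, r⁆ = v * ⁅n, r⁆ * (r * v⁻¹ * r⁻¹) := by
      simp only [commutatorElement_def]; group
    rw [e]
    refine Subgroup.mul_mem _ (Subgroup.mul_mem _ (Subgroup.mem_sup_left hv)
      (Subgroup.mem_sup_right (Subgroup.commutator_mem_commutator hn hr)))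
      (Subgroup.mem_sup_left ?_)
    exact hnV.conj_mem _ (V.inv_mem hv) r
  have h3 : S ≤ ⁅N, R⁆ := by
    intro s hs
    have h4 : s ∈ V ⊔ ⁅N, R⁆ := h2 (by rw [h.hHR]; exact h.hNH (h.hSN hs))
    obtain ⟨v, hv, c, hc', hvc⟩ := Subgroup.mem_sup_of_normal_left.mp h4
    have hcN : c ∈ N := Helper35.commutator_le_of_le_normalizer h.hRN hc'
    have hv1 : v ∈ V ⊓ N := ⟨hv, by
      have e : v = s * c⁻¹ := by rw [← hvc]; group
      rw [e]; exact N.mul_mem (h.hSN hs) (N.inv_mem hcN)⟩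
    rw [h.hVN, Subgroup.mem_bot] at hv1
    rw [← hvc, hv1, one_mul]; exact hc'
  apply h.hS
  have h5 : S ⊓ ⁅N, R⁆ = ⊥ := bgc_inf_eq_bot p h.hSp h1
  exact (inf_eq_left.mpr h3).symm.trans h5

/-- For an `R`-invariant `S₀ ≤ S` with `V K S₀ ≠ H`, `R` centralises `S₀`. -/
theorem BGC.comm_eq_bot (p : ℕ) [Fact p.Prime] {H R V K N S : Subgroup G}
    (h : BGC p H R V K N S) {S₀ : Subgroup G} (hS₀ : S₀ ≤ S)
    (hRS₀ : R ≤ normalizer (S₀ : Set G)) (hne : V ⊔ K ⊔ S₀ ≠ H) :
    (⁅S₀, R⁆ : Subgroup G) = ⊥ := by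
  have hnV := h.nV
  have hX1 : V ≤ V ⊔ K ⊔ S₀ := le_sup_left.trans le_sup_left
  have hX2 : V ⊔ K ⊔ S₀ ≤ H :=
    sup_le (sup_le h.hVH (h.hKN.trans h.hNH)) (hS₀.trans (h.hSN.trans h.hNH))
  have hRV : R ≤ normalizer (V : Set G) := by rw [Subgroup.normalizer_eq_top]; exact le_top
  have hX3 : R ≤ normalizer ((V ⊔ K ⊔ S₀ : Subgroup G) : Set G) :=
    Helper35.le_normalizer_sup (Helper35.le_normalizer_sup hRV h.hRK) hRS₀
  obtain ⟨T, hT, hTp, hcl⟩ := h.hA _ hX1 hX2 hX3 hne
  have hXT := bgc_normT p hT hTp hcl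
  have h1 : (⁅S₀, R⁆ : Subgroup G) ≤ T := by
    intro g hg
    apply hcl g (Subgroup.commutator_mono le_sup_right le_rfl hg)
    have hgS : g ∈ S := hS₀ (Helper35.commutator_le_of_le_normalizer hRS₀ hg)
    obtain ⟨k, hk⟩ := h.hSp ⟨g, hgS⟩
    exact ⟨k, by simpa using congrArg Subtype.val hk⟩
  have h2 : (⁅S₀, R⁆ : Subgroup G) ≤ centralizer (K : Set G) :=
    bgc_centralizes p hTp ((le_sup_right.trans le_sup_left).trans hXT) h.hKp h1
      ((Helper35.commutator_le_of_le_normalizer hRS₀).trans (hS₀.trans (h.hSN.trans h.hNK)))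
  rw [eq_bot_iff, ← h.hSK]
  exact le_inf ((Helper35.commutator_le_of_le_normalizer hRS₀).trans hS₀) h2

/-- `H = V K S`. -/
theorem BGC.sup_eq [Group.IsSolvable G] (p : ℕ) [Fact p.Prime] {H R V K N S : Subgroup G}
    (h : BGC p H R V K N S) : V ⊔ K ⊔ S = H := by
  by_contra hne
  have h1 := h.comm_eq_bot p le_rfl h.hRS hne
  rw [Subgroup.commutator_eq_bot_iff_le_centralizer, Subgroup.le_centralizer_iff] at h1
  exact h.not_centralizes p h1

/-- A proper subgroup `S₀ < S` gives a proper subgroup `V K S₀ < H`. -/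
theorem BGC.sup_ne (p : ℕ) [Fact p.Prime] {H R V K N S : Subgroup G}
    (h : BGC p H R V K N S) {S₀ : Subgroup G} (hS₀ : S₀ ≤ S) (hne : S₀ ≠ S) :
    V ⊔ K ⊔ S₀ ≠ H := by
  have hnV := h.nV
  intro heq
  apply hne
  apply le_antisymm hS₀
  intro s hs
  have h1 : s ∈ V ⊔ (K ⊔ S₀) := by rw [← sup_assoc, heq]; exact h.hNH (h.hSN hs)
  obtain ⟨v, hv, m, hm, hvm⟩ := Subgroup.mem_sup_of_normal_left.mp h1
  have hKS₀N : K ⊔ S₀ ≤ N := sup_le h.hKN (hS₀.trans h.hSN)
  have hv1 : v ∈ V ⊓ N := ⟨hv, by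
    have e : v = s * m⁻¹ := by rw [← hvm]; group
    rw [e]; exact N.mul_mem (h.hSN hs) (N.inv_mem (hKS₀N hm))⟩
  rw [h.hVN, Subgroup.mem_bot] at hv1
  have hsm : s = m := by rw [← hvm, hv1, one_mul]
  obtain ⟨k, hk, s₀, hs₀, hks⟩ :=
    Helper35.exists_mul_of_mem_sup_of_le_normalizer (hS₀.trans (h.hSN.trans h.hNK)) hm
  have hk1 : k ∈ S ⊓ K := ⟨by
    have e : k = s * s₀⁻¹ := by rw [hsm, hks]; group
    rw [e]; exact S.mul_mem hs (S.inv_mem (hS₀ hs₀)), hk⟩
  rw [bgc_inf_eq_bot p h.hSp h.hKp, Subgroup.mem_bot] at hk1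
  rw [hsm, hks, hk1, one_mul]; exact hs₀

/-- `S = [S, R]`. -/
theorem BGC.comm_S [Group.IsSolvable G] (p : ℕ) [Fact p.Prime] {H R V K N S : Subgroup G}
    (h : BGC p H R V K N S) : (⁅S, R⁆ : Subgroup G) = S := by
  by_contra hne
  have hle : (⁅S, R⁆ : Subgroup G) ≤ S := Helper35.commutator_le_of_le_normalizer h.hRS
  have h1 := h.comm_eq_bot p hle (Helper35.le_normalizer_commutator h.hRS) (h.sup_ne p hle hne)
  have hcopS : (Nat.card R).Coprime (Nat.card S) :=
    (Nat.Coprime.coprime_dvd_left (Subgroup.card_dvd_of_le (h.hSN.trans h.hNH)) h.hcop).symm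
  rw [Helper35.commutator_commutator_eq_of_coprime h.hRS hcopS (Or.inr inferInstance)] at h1
  rw [Subgroup.commutator_eq_bot_iff_le_centralizer, Subgroup.le_centralizer_iff] at h1
  exact h.not_centralizes p h1

/-- A proper `S R`-invariant subgroup of `K` is centralised by `S`. -/
theorem BGC.Kmin [Group.IsSolvable G] (p : ℕ) [Fact p.Prime] {H R V K N S : Subgroup G}
    (h : BGC p H R V K N S) {K₀ : Subgroup G} (hK₀ : K₀ ≤ K) (hne : K₀ ≠ K)
    (hSK₀ : S ≤ normalizer (K₀ : Set G)) (hRK₀ : R ≤ normalizer (K₀ : Set G)) :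
    K₀ ≤ centralizer (S : Set G) := by
  have hnV := h.nV
  have hX1 : V ≤ V ⊔ K₀ ⊔ S := le_sup_left.trans le_sup_left
  have hX2 : V ⊔ K₀ ⊔ S ≤ H :=
    sup_le (sup_le h.hVH (hK₀.trans (h.hKN.trans h.hNH))) (h.hSN.trans h.hNH)
  have hRV : R ≤ normalizer (V : Set G) := by rw [Subgroup.normalizer_eq_top]; exact le_top
  have hX3 : R ≤ normalizer ((V ⊔ K₀ ⊔ S : Subgroup G) : Set G) :=
    Helper35.le_normalizer_sup (Helper35.le_normalizer_sup hRV hRK₀) h.hRS
  have hXne : V ⊔ K₀ ⊔ S ≠ H := by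
    intro heq
    apply hne
    apply le_antisymm hK₀
    intro k hk
    have h1 : k ∈ V ⊔ (K₀ ⊔ S) := by rw [← sup_assoc, heq]; exact h.hNH (h.hKN hk)
    obtain ⟨v, hv, m, hm, hvm⟩ := Subgroup.mem_sup_of_normal_left.mp h1
    have hN' : K₀ ⊔ S ≤ N := sup_le (hK₀.trans h.hKN) h.hSN
    have hv1 : v ∈ V ⊓ N := ⟨hv, by
      have e : v = k * m⁻¹ := by rw [← hvm]; group
      rw [e]; exact N.mul_mem (h.hKN hk) (N.inv_mem (hN' hm))⟩
    rw [h.hVN, Subgroup.mem_bot] at hv1
    have hkm : k = m := by rw [← hvm, hv1, one_mul]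
    obtain ⟨k₀, hk₀, s, hs, hks⟩ := Helper35.exists_mul_of_mem_sup_of_le_normalizer hSK₀ hm
    have hs1 : s ∈ S ⊓ K := ⟨hs, by
      have e : s = k₀⁻¹ * k := by rw [hkm, hks]; group
      rw [e]; exact K.mul_mem (K.inv_mem (hK₀ hk₀)) hk⟩
    rw [bgc_inf_eq_bot p h.hSp h.hKp, Subgroup.mem_bot] at hs1
    rw [hkm, hks, hs1, mul_one]; exact hk₀
  obtain ⟨T, hT, hTp, hcl⟩ := h.hA _ hX1 hX2 hX3 hXne
  have hXT := bgc_normT p hT hTp hcl
  have hST : S ≤ T := by
    intro s hs
    apply hcl s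
    · have h1 : s ∈ (⁅S, R⁆ : Subgroup G) := by rw [h.comm_S p]; exact hs
      exact Subgroup.commutator_mono le_sup_right le_rfl h1
    · obtain ⟨k, hk⟩ := h.hSp ⟨s, hs⟩
      exact ⟨k, by simpa using congrArg Subtype.val hk⟩
  have hK₀p : (Nat.card K₀).Coprime p :=
    Nat.Coprime.coprime_dvd_left (Subgroup.card_dvd_of_le hK₀) h.hKp
  have h2 := bgc_centralizes p hTp ((le_sup_right.trans le_sup_left).trans hXT) hK₀p hST hSK₀
  exact Subgroup.le_centralizer_iff.mp h2


/-- **B&G 3.6, second half**: the structure `L = V K`, `H = V N_H(K)`, `C_V(K) = 1` and CLAIM A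
force `H` to be `p`-closed. -/
theorem bg36_core [Group.IsSolvable G] (hodd : Odd (Nat.card G)) (p : ℕ) [Fact p.Prime]
    (H R V L K : Subgroup G) (x : G) [H.Normal] [V.Normal] [L.Normal]
    (hcop : (Nat.card H).Coprime (Nat.card R)) (hxR : x ∈ R) (hx : (orderOf x).Prime)
    (hZ : IsZGroup ↥(H ⊓ centralizer ({x} : Set G)))
    (hHR : (⁅H, R⁆ : Subgroup G) = H)
    (hVH : V ≤ H) (hVab : ∀ a ∈ V, ∀ b ∈ V, a * b = b * a) (hVp : ∀ a ∈ V, a ^ p = 1)
    (hCV : H ⊓ centralizer (V : Set G) ≤ V)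
    (hOp : ∀ B : Subgroup G, B ≤ H → H ≤ normalizer (B : Set G) → IsPGroup p B → B ≤ V)
    (hOp' : opp p H = ⊥)
    (hVL : V ≤ L) (hLH : L ≤ H) (hKL : K ≤ L) (hKp : (Nat.card K).Coprime p)
    (hLVK : L = V ⊔ K) (hRK : R ≤ normalizer (K : Set G))
    (hfrat : ∀ h ∈ H, ∃ v ∈ V, ∃ n ∈ H ⊓ normalizer (K : Set G), h = v * n)
    (hCL : ∀ h ∈ H, (∀ l ∈ L, h * l * h⁻¹ * l⁻¹ ∈ V) → h ∈ L)
    (hVK : V ⊓ centralizer (K : Set G) = ⊥)
    (hA : ∀ X R' : Subgroup G, V ≤ X → X ≤ H → R' ≤ R → x ∈ R' → R' ≤ normalizer (X : Set G) →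
      (X ≠ H ∨ R' ≠ R) → PCl p (⁅X, R'⁆ : Subgroup G)) :
    PCl p H := by
  have hnV : V.Normal := inferInstance
  have hVpg : IsPGroup p V := fun v => ⟨1, by
    apply Subtype.ext
    simpa using hVp v.1 v.2⟩
  have hVKbot : V ⊓ K = ⊥ := bgc_inf_eq_bot p hVpg hKp
  obtain ⟨N, hNdef⟩ : ∃ N : Subgroup G, N = H ⊓ normalizer (K : Set G) := ⟨_, rfl⟩
  have hNH : N ≤ H := by rw [hNdef]; exact inf_le_left
  have hNK : N ≤ normalizer (K : Set G) := by rw [hNdef]; exact inf_le_right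
  have hKH : K ≤ H := hKL.trans hLH
  have hKN : K ≤ N := by rw [hNdef]; exact le_inf hKH Subgroup.le_normalizer
  have htop : ∀ (M W : Subgroup G) [W.Normal], M ≤ normalizer (W : Set G) := by
    intro M W _
    rw [Subgroup.normalizer_eq_top]; exact le_top
  have hRN : R ≤ normalizer (N : Set G) := by
    rw [hNdef]; exact bgf_le_normalizer_inf (htop R H) (hRK.trans Subgroup.le_normalizer)
  have hVN : V ⊓ N = ⊥ := by
    rw [eq_bot_iff]
    intro v hv
    rw [← hVK]
    refine Subgroup.mem_inf.mpr ⟨hv.1, ?_⟩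
    rw [Subgroup.mem_centralizer_iff]
    intro k hk
    have h1 : v * k * v⁻¹ * k⁻¹ ∈ V ⊓ K := by
      constructor
      · have h2 : k * v⁻¹ * k⁻¹ ∈ V := hnV.conj_mem _ (V.inv_mem hv.1) k
        have e : v * k * v⁻¹ * k⁻¹ = v * (k * v⁻¹ * k⁻¹) := by group
        rw [e]; exact V.mul_mem hv.1 h2
      · exact K.mul_mem (bgf_conj_mem hNK hv.2 hk) (K.inv_mem hk)
    rw [hVKbot, Subgroup.mem_bot] at h1
    exact (mul_inv_eq_iff_eq_mul.mp (mul_inv_eq_one.mp h1)).symm
  have hfrat' : ∀ h ∈ H, ∃ v ∈ V, ∃ n ∈ N, h = v * n := by rw [hNdef]; exact hfrat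
  have hcopN : (Nat.card R).Coprime (Nat.card N) :=
    (Nat.Coprime.coprime_dvd_left (Subgroup.card_dvd_of_le hNH) hcop).symm
  obtain ⟨S, hSsyl, hRS⟩ := Helper35.exists_invariant_sylow hRN hcopN (Or.inr inferInstance) p
  have hSN : S ≤ N := hSsyl.1
  have hSp : IsPGroup p S := Helper35.isPGroup_of_mem_sylowSet hSsyl
  have hpp : p.Prime := Fact.out
  by_cases hS : S = ⊥
  · -- `N` is a `p'`-group and `V` is the Sylow `p`-subgroup of `H`
    have hNp : (Nat.card N).Coprime p := by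
      have h1 := hSsyl.2
      rw [hS, Subgroup.card_bot] at h1
      have h2 : (Nat.card N).factorization p = 0 := by
        by_contra h0
        have h3 : 1 < p ^ (Nat.card N).factorization p := Nat.one_lt_pow h0 hpp.one_lt
        omega
      have h3 : ¬ p ∣ Nat.card N := by
        intro hdvd
        have h4 := Nat.Prime.factorization_pos_of_dvd hpp Nat.card_pos.ne' hdvd
        omega
      exact ((Nat.Prime.coprime_iff_not_dvd hpp).mpr h3).symm
    refine ⟨V, hVH, hVpg, ?_⟩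
    rintro g hg ⟨k, hk⟩
    obtain ⟨v, hv, n, hn, rfl⟩ := hfrat' g hg
    have h1 := bgc_pelt p hVN hNp hv hn hk
    rw [h1, mul_one]; exact hv
  · exfalso
    have hSyl : ¬ p ∣ S.relIndex N := by
      intro hdvd
      have h1 := Helper68.bg36a_relIndex_mul_card hSN
      rw [hSsyl.2] at h1
      have h2 : p ^ ((Nat.card N).factorization p + 1) ∣ Nat.card N := by
        have h3 : p * p ^ (Nat.card N).factorization p ∣
            S.relIndex N * p ^ (Nat.card N).factorization p := Nat.mul_dvd_mul hdvd dvd_rfl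
        rw [h1] at h3
        rw [pow_succ, mul_comm]; exact h3
      exact Nat.pow_succ_factorization_not_dvd Nat.card_pos.ne' hpp h2
    have hSKbot : S ⊓ K = ⊥ := bgc_inf_eq_bot p hSp hKp
    have hSC : S ⊓ centralizer (K : Set G) = ⊥ := by
      rw [eq_bot_iff]
      intro s hs
      have hsN : s ∈ N := hSN hs.1
      have hsc := Subgroup.mem_centralizer_iff.mp hs.2
      have hsL : s ∈ L := by
        apply hCL s (hNH hsN)
        intro l hl
        rw [hLVK] at hl
        obtain ⟨v, hv, k, hk, rfl⟩ := Subgroup.mem_sup_of_normal_left.mp hl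
        have h' : k * s⁻¹ = s⁻¹ * k := by
          have h0 := hsc k hk
          calc k * s⁻¹ = s⁻¹ * (s * k) * s⁻¹ := by group
            _ = s⁻¹ * (k * s) * s⁻¹ := by rw [h0]
            _ = s⁻¹ * k := by group
        have e : s * (v * k) * s⁻¹ * (v * k)⁻¹ = (s * v * s⁻¹) * v⁻¹ := by
          calc s * (v * k) * s⁻¹ * (v * k)⁻¹ = s * v * (k * s⁻¹) * k⁻¹ * v⁻¹ := by group
            _ = s * v * (s⁻¹ * k) * k⁻¹ * v⁻¹ := by rw [h']
            _ = (s * v * s⁻¹) * v⁻¹ := by group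
        rw [e]
        exact V.mul_mem (hnV.conj_mem _ hv s) (V.inv_mem hv)
      rw [hLVK] at hsL
      obtain ⟨v, hv, k, hk, hvk⟩ := Subgroup.mem_sup_of_normal_left.mp hsL
      have hv1 : v ∈ V ⊓ N := ⟨hv, by
        have e : v = s * k⁻¹ := by rw [← hvk]; group
        rw [e]; exact N.mul_mem hsN (N.inv_mem (hKN hk))⟩
      rw [hVN, Subgroup.mem_bot] at hv1
      have h1 : s ∈ S ⊓ K := ⟨hs.1, by rw [← hvk, hv1, one_mul]; exact hk⟩
      rw [hSKbot] at h1
      exact h1
    have hBGC : BGC p H R V K N S :=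
      { nV := hnV, hcop := hcop, hHR := hHR, hVH := hVH, hKp := hKp, hKN := hKN, hNH := hNH,
        hNK := hNK, hRK := hRK, hRN := hRN, hfrat := hfrat', hVN := hVN, hSN := hSN, hSp := hSp,
        hSyl := hSyl, hRS := hRS, hSK := hSC, hS := hS,
        hA := fun X hVX hXH hRX hne => hA X R hVX hXH le_rfl hxR hRX (Or.inl hne) }
    have hVS : V ⊓ S = ⊥ := by rw [eq_bot_iff, ← hVN]; exact inf_le_inf_left V hSN
    -- R6: `C_V(x) = 1` or `C_S(x) = 1`
    have hR6 : V ⊓ centralizer ({x} : Set G) = ⊥ ∨ S ⊓ centralizer ({x} : Set G) = ⊥ := by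
      obtain ⟨CV, hCVdef⟩ : ∃ CV : Subgroup G, CV = V ⊓ centralizer ({x} : Set G) := ⟨_, rfl⟩
      obtain ⟨CS, hCSdef⟩ : ∃ CS : Subgroup G, CS = S ⊓ centralizer ({x} : Set G) := ⟨_, rfl⟩
      rw [← hCVdef, ← hCSdef]
      have hCVp : IsPGroup p CV := hVpg.to_le (by rw [hCVdef]; exact inf_le_left)
      have hCSp : IsPGroup p CS := hSp.to_le (by rw [hCSdef]; exact inf_le_left)
      have hnorm : CS ≤ normalizer (CV : Set G) := by
        apply Helper35.le_normalizer_of_forall_conj_mem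
        intro a ha c hc
        rw [hCVdef] at hc ⊢
        rw [hCSdef] at ha
        exact ⟨hnV.conj_mem _ hc.1 a,
          Subgroup.mul_mem _ (Subgroup.mul_mem _ ha.2 hc.2) (Subgroup.inv_mem _ ha.2)⟩
      have hCp : IsPGroup p ↥(CV ⊔ CS) := IsPGroup.to_sup_of_normal_left' hCVp hCSp hnorm
      have hCle : CV ⊔ CS ≤ H ⊓ centralizer ({x} : Set G) := by
        rw [hCVdef, hCSdef]
        exact sup_le (inf_le_inf_right _ hVH) (inf_le_inf_right _ (hSN.trans hNH))
      have hZC : IsZGroup ↥(CV ⊔ CS) :=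
        IsZGroup.of_injective (f := Subgroup.inclusion hCle) (Subgroup.inclusion_injective hCle)
      have hnil : Group.IsNilpotent ↥(CV ⊔ CS) := hCp.isNilpotent
      have hcyc : IsCyclic ↥(CV ⊔ CS) := inferInstance
      apply bgc_cyclic_disjoint p hcyc hCp le_sup_left le_sup_right
      rw [eq_bot_iff, ← hVS, hCVdef, hCSdef]
      exact inf_le_inf inf_le_left inf_le_left
    obtain ⟨R', hR'def⟩ : ∃ R' : Subgroup G, R' = zpowers x := ⟨_, rfl⟩
    have hR'card : Nat.card R' = orderOf x := by rw [hR'def]; exact Nat.card_zpowers x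
    have hR'pr : (Nat.card R').Prime := by rw [hR'card]; exact hx
    have hxR' : x ∈ R' := by rw [hR'def]; exact Subgroup.mem_zpowers x
    have hx1 : x ≠ 1 := by
      rintro rfl
      rw [orderOf_one] at hx
      exact Nat.not_prime_one hx
    have hR'R : R' ≤ R := by rw [hR'def]; exact Subgroup.zpowers_le.mpr hxR
    have hCx : centralizer ({x} : Set G) = centralizer (R' : Set G) :=
      bgf_centralizer_singleton hR'pr hxR' hx1
    have hcop' : (Nat.card H).Coprime (Nat.card R') :=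
      Nat.Coprime.coprime_dvd_right (Subgroup.card_dvd_of_le hR'R) hcop
    rcases hR6 with hVx | hSx
    · -- Case `C_V(x) = 1`: `N ≤ C_H(x)` is a Z-group and `R` centralises `S`
      have hFV : Cfsg.fittingOf H ≤ V := by
        rw [Helper62.FitAct.fittingOf_eq_iSup]
        apply iSup_le
        intro ℓ
        by_cases hℓ : (ℓ : ℕ) = p
        · rw [hℓ]
          have hn := Helper62.FitAct.oq_normal p H
          exact hOp _ (Helper62.FitAct.oq_le p H) (htop H _) (Helper62.FitAct.oq_isPGroup p H)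
        · have h1 : Helper62.FitAct.oq (ℓ : ℕ) H ≤ opp p H := by
            have hn := Helper62.FitAct.oq_normal (ℓ : ℕ) H
            apply bg36_le_opp p (Helper62.FitAct.oq_le _ H) (htop H _)
            have hℓp : Fact (ℓ : ℕ).Prime := ⟨ℓ.2⟩
            obtain ⟨n, hn'⟩ := IsPGroup.iff_card.mp (Helper62.FitAct.oq_isPGroup (ℓ : ℕ) H)
            rw [hn']
            exact Nat.Coprime.pow_left n ((Nat.coprime_primes ℓ.2 hpp).mpr hℓ)
          rw [hOp'] at h1
          exact h1.trans bot_le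
      have hprime : ∀ y ∈ R', y ≠ 1 →
          H ⊓ centralizer ({y} : Set G) = H ⊓ centralizer (R' : Set G) := by
        intro y hy hy1
        rw [bgf_centralizer_singleton hR'pr hy hy1]
      have hF : Cfsg.fittingOf H ⊓ centralizer (R' : Set G) = ⊥ := by
        rw [eq_bot_iff, ← hVx, hCx]
        exact inf_le_inf_right _ hFV
      have hcomm := Helper62.FitAct.commutator_le_fittingOf hodd H R' hcop' hprime hF
      have hNx : N ≤ centralizer ({x} : Set G) := by
        intro n hn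
        rw [Subgroup.mem_centralizer_iff]
        intro y hy
        rw [Set.mem_singleton_iff.mp hy]
        have h1 : n * x * n⁻¹ * x⁻¹ ∈ V ⊓ N := by
          constructor
          · have h2 := hFV (hcomm (Subgroup.commutator_mem_commutator (hNH hn) hxR'))
            rwa [commutatorElement_def] at h2
          · have h2 : x * n⁻¹ * x⁻¹ ∈ N := bgf_conj_mem hRN hxR (N.inv_mem hn)
            have e : n * x * n⁻¹ * x⁻¹ = n * (x * n⁻¹ * x⁻¹) := by group
            rw [e]; exact N.mul_mem hn h2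
        rw [hVN, Subgroup.mem_bot] at h1
        exact (mul_inv_eq_iff_eq_mul.mp (mul_inv_eq_one.mp h1)).symm
      have hNle : N ≤ H ⊓ centralizer ({x} : Set G) := le_inf hNH hNx
      have hZN : IsZGroup ↥N :=
        IsZGroup.of_injective (f := Subgroup.inclusion hNle) (Subgroup.inclusion_injective hNle)
      have hOpN : ∀ N' ≤ N, N ≤ normalizer (N' : Set G) → IsPGroup p N' → N' = ⊥ := by
        intro N' hN'N hNN' hN'p
        have hB : V ⊔ N' ≤ V := by
          apply hOp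
          · exact sup_le hVH (hN'N.trans hNH)
          · intro g hg
            obtain ⟨v, hv, n, hn, rfl⟩ := hfrat' g hg
            apply Subgroup.mul_mem
            · exact Subgroup.le_normalizer (Subgroup.mem_sup_left hv)
            · have hnN' : zpowers n ≤ normalizer (N' : Set G) :=
                Subgroup.zpowers_le.mpr (hNN' hn)
              exact Helper35.le_normalizer_sup (htop (zpowers n) V) hnN' (Subgroup.mem_zpowers n)
          · exact IsPGroup.to_sup_of_normal_left' hVpg hN'p (htop N' V)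
        rw [eq_bot_iff, ← hVN]
        exact le_inf (le_sup_right.trans hB) hN'N
      apply hBGC.not_centralizes p
      intro r hr
      rw [Subgroup.mem_centralizer_iff]
      intro s hs
      exact (Helper68.bg36_zgroup_centralizes p hZN hOpN hSN hSp (hRN hr) (hRS hr) s hs).symm
    · by_cases hRR' : R' = R
      · -- Case `C_S(x) = 1`, `R = ⟨x⟩`: the final configuration
        have hRx : ∀ {M : Subgroup G}, x ∈ normalizer (M : Set G) →
            R ≤ normalizer (M : Set G) := by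
          intro M hM
          rw [← hRR', hR'def]; exact Subgroup.zpowers_le.mpr hM
        refine bg36_final_elt hodd inferInstance p V K S x hVp hVab hKp hSp hx ?_ (htop K V)
          (htop S V) (htop ⊤ V (Subgroup.mem_top x)) (hSN.trans hNK) (hRK hxR) (hRS hxR)
          ?_ ?_ hVK hSx ?_ ?_ ?_ ?_ ?_
        · have hle : V ⊔ K ⊔ S ≤ H := sup_le (sup_le hVH hKH) (hSN.trans hNH)
          rw [← hR'card]
          exact Nat.Coprime.coprime_dvd_left (Subgroup.card_dvd_of_le hle) hcop'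
        · rw [eq_bot_iff, ← hVKbot]
          intro k hk
          exact ⟨hCV ⟨hKH hk.1, hk.2⟩, hk.1⟩
        · rw [eq_bot_iff, ← hVS]
          intro s hs
          exact ⟨hCV ⟨hNH (hSN hs.1), hs.2⟩, hs.1⟩
        · intro S₀ hS₀ hxS₀
          by_cases hS₀S : S₀ = S
          · exact Or.inr hS₀S
          · left
            have h1 := hBGC.comm_eq_bot p hS₀ (hRx hxS₀) (hBGC.sup_ne p hS₀ hS₀S)
            rw [Subgroup.commutator_eq_bot_iff_le_centralizer] at h1
            rw [eq_bot_iff, ← hSx, hCx, hRR']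
            exact le_inf hS₀ h1
        · intro K₀ hK₀ hne hSK₀ hxK₀
          exact hBGC.Kmin p hK₀ hne hSK₀ (hRx hxK₀)
        · intro hc
          apply hS
          rw [eq_bot_iff, ← hSC]
          exact le_inf le_rfl hc
        · have hle : V ⊓ centralizer ({x} : Set G) ≤ H ⊓ centralizer ({x} : Set G) :=
            inf_le_inf_right _ hVH
          have hZ' : IsZGroup ↥(V ⊓ centralizer ({x} : Set G)) :=
            IsZGroup.of_injective (f := Subgroup.inclusion hle) (Subgroup.inclusion_injective hle)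
          have hnil : Group.IsNilpotent ↥(V ⊓ centralizer ({x} : Set G)) :=
            (hVpg.to_le inf_le_left).isNilpotent
          infer_instance
        · have hle : K ⊓ centralizer ({x} : Set G) ≤ H ⊓ centralizer ({x} : Set G) :=
            inf_le_inf_right _ hKH
          exact IsZGroup.of_injective (f := Subgroup.inclusion hle)
            (Subgroup.inclusion_injective hle)
      · -- Case `C_S(x) = 1`, `⟨x⟩ < R`: CLAIM A for `(H, ⟨x⟩)`
        obtain ⟨T, hT, hTp, hcl⟩ := hA H R' hVH le_rfl hR'R hxR' (htop R' H) (Or.inr hRR')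
        have hHT := bgc_normT p hT hTp hcl
        have hTH : T ≤ H := hT.trans (Helper35.commutator_le_of_le_normalizer (htop R' H))
        have hTV : T ≤ V := hOp T hTH hHT hTp
        apply hS
        rw [eq_bot_iff, ← hSx]
        refine le_inf le_rfl ?_
        intro s hs
        rw [Subgroup.mem_centralizer_iff]
        intro y hy
        rw [Set.mem_singleton_iff.mp hy]
        have hc : s * x * s⁻¹ * x⁻¹ ∈ S := by
          have h2 : x * s⁻¹ * x⁻¹ ∈ S := bgf_conj_mem hRS hxR (S.inv_mem hs)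
          have e : s * x * s⁻¹ * x⁻¹ = s * (x * s⁻¹ * x⁻¹) := by group
          rw [e]; exact S.mul_mem hs h2
        have h1 : s * x * s⁻¹ * x⁻¹ ∈ V ⊓ S := by
          refine ⟨hTV (hcl _ ?_ ?_), hc⟩
          · have h2 := Subgroup.commutator_mem_commutator (hNH (hSN hs)) hxR'
            rwa [commutatorElement_def] at h2
          · obtain ⟨k, hk⟩ := hSp ⟨_, hc⟩
            exact ⟨k, by simpa using congrArg Subtype.val hk⟩
        rw [hVS, Subgroup.mem_bot] at h1
        exact (mul_inv_eq_iff_eq_mul.mp (mul_inv_eq_one.mp h1)).symm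

end Cfsg.Agent.Helper72
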