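import Mathlib
import Cfsg.Prelude.Def_GeometricClasses
import Cfsg.Prelude.Def_LieClassical
import Cfsg.Agent.Helper69.E4Def
import Cfsg.Agent.Helper69.E5Def

set_option autoImplicit false

namespace Cfsg.Agent.Helper72
open Cfsg.Agent.Helper69
open scoped Matrix

/-- one direction of SPMAT: a matrix with `gᵀ J g = J` lies in `spGL` -/
theorem e5c_mem_spGL_of {F : Type*} [Field F] (g : GL (Fin 2 ⊕ Fin 2) F)
    (h : (g : Matrix (Fin 2 ⊕ Fin 2) (Fin 2 ⊕ Fin 2) F)ᵀ * Matrix.J (Fin 2) F *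
        (g : Matrix (Fin 2 ⊕ Fin 2) (Fin 2 ⊕ Fin 2) F) = Matrix.J (Fin 2) F) :
    g ∈ Cfsg.spGL 2 F := by
  intro u v
  show ((g : Matrix (Fin 2 ⊕ Fin 2) (Fin 2 ⊕ Fin 2) F) *ᵥ u) ⬝ᵥ
      (Matrix.J (Fin 2) F *ᵥ ((g : Matrix (Fin 2 ⊕ Fin 2) (Fin 2 ⊕ Fin 2) F) *ᵥ v))
    = u ⬝ᵥ (Matrix.J (Fin 2) F *ᵥ v)
  rw [← Matrix.vecMul_transpose, ← Matrix.dotProduct_mulVec, Matrix.mulVec_mulVec,
    Matrix.mulVec_mulVec, h]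

/-! ### SPCONJ -/

theorem e5_sp_conj {F : Type*} [Field F] (x y : GL (Fin 2 ⊕ Fin 2) F)
    (N G : Matrix (Fin 4) (Fin 4) F)
    (Bx By : Matrix (Fin 2 ⊕ Fin 2) (Fin 4) F) (Bxi Byi : Matrix (Fin 4) (Fin 2 ⊕ Fin 2) F)
    (h1 : Bx * Bxi = 1) (h2 : Bxi * Bx = 1) (h3 : By * Byi = 1) (h4 : Byi * By = 1)
    (hx : (x : Matrix (Fin 2 ⊕ Fin 2) (Fin 2 ⊕ Fin 2) F) * Bx = Bx * N)
    (hy : (y : Matrix (Fin 2 ⊕ Fin 2) (Fin 2 ⊕ Fin 2) F) * By = By * N)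
    (hGx : Bxᵀ * Matrix.J (Fin 2) F * Bx = G) (hGy : Byᵀ * Matrix.J (Fin 2) F * By = G) :
    ∃ g ∈ Cfsg.spGL 2 F, g⁻¹ * x * g = y := by
  have e1 : (Bx * Byi) * (By * Bxi) = 1 := by
    rw [Matrix.mul_assoc, ← Matrix.mul_assoc Byi, h4, Matrix.one_mul, h1]
  have e2 : (By * Bxi) * (Bx * Byi) = 1 := by
    rw [Matrix.mul_assoc, ← Matrix.mul_assoc Bxi, h2, Matrix.one_mul, h3]
  let g : GL (Fin 2 ⊕ Fin 2) F := ⟨Bx * Byi, By * Bxi, e1, e2⟩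
  have hg : (g : Matrix (Fin 2 ⊕ Fin 2) (Fin 2 ⊕ Fin 2) F) = Bx * Byi := rfl
  have hgi : ((g⁻¹ : GL (Fin 2 ⊕ Fin 2) F) : Matrix (Fin 2 ⊕ Fin 2) (Fin 2 ⊕ Fin 2) F)
      = By * Bxi := rfl
  refine ⟨g, e5c_mem_spGL_of g ?_, ?_⟩
  · rw [hg, Matrix.transpose_mul]
    calc Byiᵀ * Bxᵀ * Matrix.J (Fin 2) F * (Bx * Byi)
        = Byiᵀ * (Bxᵀ * Matrix.J (Fin 2) F * Bx) * Byi := by
          simp only [Matrix.mul_assoc]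
      _ = Byiᵀ * (Byᵀ * Matrix.J (Fin 2) F * By) * Byi := by rw [hGx, hGy]
      _ = (By * Byi)ᵀ * Matrix.J (Fin 2) F * (By * Byi) := by
          rw [Matrix.transpose_mul]; simp only [Matrix.mul_assoc]
      _ = Matrix.J (Fin 2) F := by rw [h3, Matrix.transpose_one, Matrix.one_mul, Matrix.mul_one]
  · apply Units.ext
    rw [Units.val_mul, Units.val_mul, hg, hgi]
    calc By * Bxi * (x : Matrix (Fin 2 ⊕ Fin 2) (Fin 2 ⊕ Fin 2) F) * (Bx * Byi)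
        = By * Bxi * ((x : Matrix (Fin 2 ⊕ Fin 2) (Fin 2 ⊕ Fin 2) F) * Bx) * Byi := by
          simp only [Matrix.mul_assoc]
      _ = By * (Bxi * Bx) * N * Byi := by rw [hx]; simp only [Matrix.mul_assoc]
      _ = (y : Matrix (Fin 2 ⊕ Fin 2) (Fin 2 ⊕ Fin 2) F) * (By * Byi) := by
          rw [h2, Matrix.mul_one, ← hy]; simp only [Matrix.mul_assoc]
      _ = (y : Matrix (Fin 2 ⊕ Fin 2) (Fin 2 ⊕ Fin 2) F) := by rw [h3, Matrix.mul_one]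

end Cfsg.Agent.Helper72
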