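import Cfsg.Agent.Helper35.CoprimeGen2
import Cfsg.Agent.Helper35.HallCoprime
import Cfsg.Agent.Helper70.FrobAct
import Cfsg.Agent.Helper10.CoreFree

/-!
# B&G Theorem 3.6: the final configuration, generic tools

Small generic lemmas (prime order groups, centralizers, the Frobenius counting formula in
internal form) used for the final configuration of B&G Theorem 3.6.
-/

set_option autoImplicit false

namespace Cfsg.Agent.Helper72

open Subgroup

universe u

variable {G : Type u} [Group G]

theorem bgf_conj_mem {A K : Subgroup G} (h : A ≤ normalizer (K : Set G)) {a k : G}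
    (ha : a ∈ A) (hk : k ∈ K) : a * k * a⁻¹ ∈ K :=
  (mem_normalizer_iff.mp (h ha) k).mp hk

/-- If `A` normalises `S` then `A` normalises `C(S)`. -/
theorem bgf_le_normalizer_centralizer {A S : Subgroup G} (h : A ≤ normalizer (S : Set G)) :
    A ≤ normalizer ((centralizer (S : Set G) : Subgroup G) : Set G) := by
  apply Helper35.le_normalizer_of_forall_conj_mem
  intro a ha c hc
  rw [Subgroup.mem_centralizer_iff] at hc ⊢
  intro s hs
  have h1 : a⁻¹ * s * a⁻¹⁻¹ ∈ S := bgf_conj_mem h (A.inv_mem ha) hs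
  have h2 := hc _ h1
  have h3 : s * (a * c * a⁻¹) = a * ((a⁻¹ * s * a⁻¹⁻¹) * c) * a⁻¹ := by group
  rw [h3, h2]
  group

theorem bgf_le_normalizer_inf {A H K : Subgroup G} (hH : A ≤ normalizer (H : Set G))
    (hK : A ≤ normalizer (K : Set G)) : A ≤ normalizer ((H ⊓ K : Subgroup G) : Set G) :=
  (le_inf hH hK).trans Subgroup.inf_normalizer_le_normalizer_inf

/-- `C(H ⊔ K) ⊇ C(H) ⊓ C(K)`. -/
theorem bgf_mem_centralizer_sup {H K : Subgroup G} {x : G} (hH : x ∈ centralizer (H : Set G))
    (hK : x ∈ centralizer (K : Set G)) : x ∈ centralizer ((H ⊔ K : Subgroup G) : Set G) := by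
  have h1 : H ≤ centralizer ((zpowers x : Subgroup G) : Set G) := by
    rw [Subgroup.le_centralizer_iff, zpowers_le]; exact hH
  have h2 : K ≤ centralizer ((zpowers x : Subgroup G) : Set G) := by
    rw [Subgroup.le_centralizer_iff, zpowers_le]; exact hK
  have h3 := sup_le h1 h2
  rw [Subgroup.le_centralizer_iff, zpowers_le] at h3
  exact h3

/-- If `K` normalises `M` and `S` centralises `M` then `⁅K, S⁆` centralises `M`. -/
theorem bgf_commutator_le_centralizer {K S M : Subgroup G} (hK : K ≤ normalizer (M : Set G))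
    (hS : S ≤ centralizer (M : Set G)) : (⁅K, S⁆ : Subgroup G) ≤ centralizer (M : Set G) := by
  rw [Subgroup.commutator_le]
  intro k hk s hs
  rw [Subgroup.mem_centralizer_iff]
  intro m hm
  have h1 : k⁻¹ * m * k⁻¹⁻¹ ∈ M := bgf_conj_mem hK (K.inv_mem hk) hm
  have h2 := (Subgroup.mem_centralizer_iff.mp (hS hs)) _ h1
  have h3 := (Subgroup.mem_centralizer_iff.mp (hS hs)) _ hm
  have h4 : m * s⁻¹ = s⁻¹ * m := by
    have : s⁻¹ * (m * s) * s⁻¹ = s⁻¹ * (s * m) * s⁻¹ := by rw [h3]
    simpa [mul_assoc] using this.symm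
  rw [commutatorElement_def]
  calc m * (k * s * k⁻¹ * s⁻¹) = k * ((k⁻¹ * m * k⁻¹⁻¹) * s) * k⁻¹ * s⁻¹ := by group
    _ = k * (s * (k⁻¹ * m * k⁻¹⁻¹)) * k⁻¹ * s⁻¹ := by rw [h2]
    _ = k * s * k⁻¹ * (m * s⁻¹) := by group
    _ = k * s * k⁻¹ * (s⁻¹ * m) := by rw [h4]
    _ = k * s * k⁻¹ * s⁻¹ * m := by group

section prime

variable {R : Subgroup G}

/-- A group of prime order is generated by each of its nonidentity elements. -/
theorem bgf_eq_zpowers (hRr : (Nat.card R).Prime) {e : G} (he : e ∈ R) (he1 : e ≠ 1) :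
    R = zpowers e := by
  have : Finite R := Nat.finite_of_card_ne_zero hRr.ne_zero
  have hle : zpowers e ≤ R := zpowers_le.mpr he
  symm
  apply Subgroup.eq_of_le_of_card_ge hle
  have h1 : Nat.card (zpowers e) ∣ Nat.card R := Subgroup.card_dvd_of_le hle
  have h2 : Nat.card (zpowers e) ≠ 1 := by
    intro h
    exact he1 (zpowers_eq_bot.mp (Subgroup.card_eq_one.mp h))
  rcases (Nat.dvd_prime hRr).mp h1 with h | h
  · exact absurd h h2
  · exact h.ge

theorem bgf_exists_ne_one (hRr : (Nat.card R).Prime) : ∃ e ∈ R, e ≠ 1 := by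
  by_contra hcon
  push Not at hcon
  have : R = ⊥ := (Subgroup.eq_bot_iff_forall R).mpr hcon
  rw [this, Subgroup.card_bot] at hRr
  exact Nat.not_prime_one hRr

theorem bgf_le_of_mem (hRr : (Nat.card R).Prime) {e : G} (he : e ∈ R) (he1 : e ≠ 1)
    {N : Subgroup G} (hN : e ∈ N) : R ≤ N := by
  rw [bgf_eq_zpowers hRr he he1]
  exact zpowers_le.mpr hN

theorem bgf_centralizer_singleton (hRr : (Nat.card R).Prime) {e : G} (he : e ∈ R) (he1 : e ≠ 1) :
    centralizer ({e} : Set G) = centralizer (R : Set G) := by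
  apply le_antisymm
  · intro g hg
    have h1 : e ∈ centralizer ((zpowers g : Subgroup G) : Set G) := by
      have : zpowers g ≤ centralizer ({e} : Set G) := zpowers_le.mpr hg
      rw [Subgroup.mem_centralizer_iff]
      intro y hy
      exact ((Subgroup.mem_centralizer_iff.mp (this hy)) e rfl).symm
    have h2 : R ≤ centralizer ((zpowers g : Subgroup G) : Set G) := bgf_le_of_mem hRr he he1 h1
    rw [Subgroup.le_centralizer_iff, zpowers_le] at h2
    exact h2
  · exact Subgroup.centralizer_le (by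
      intro y hy
      rw [Set.mem_singleton_iff.mp hy]
      exact he)

theorem bgf_orderOf (hRr : (Nat.card R).Prime) {e : G} (he : e ∈ R) (he1 : e ≠ 1) :
    orderOf e = Nat.card R := by
  conv_rhs => rw [bgf_eq_zpowers hRr he he1]
  exact (Nat.card_zpowers e).symm

theorem bgf_comm_of_prime (hRr : (Nat.card R).Prime) : R ≤ centralizer (R : Set G) := by
  obtain ⟨e, he, he1⟩ := bgf_exists_ne_one hRr
  have h1 : e ∈ centralizer ({e} : Set G) := by
    rw [Subgroup.mem_centralizer_iff]
    intro y hy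
    rw [Set.mem_singleton_iff.mp hy]
  rw [bgf_centralizer_singleton hRr he he1] at h1
  exact bgf_le_of_mem hRr he he1 h1

end prime

variable [Finite G]

/-- The Frobenius counting formula (Helper70), with prime complement `E`, in lattice form. -/
theorem bgf_frob {U E H : Subgroup G} (hEr : (Nat.card E).Prime)
    (hEU : E ≤ normalizer (U : Set G)) (hUE : U ⊓ centralizer (E : Set G) = ⊥)
    (hUH : U ≤ normalizer (H : Set G)) (hEH : E ≤ normalizer (H : Set G))
    (hsolv : Group.IsSolvable H) (hcopU : (Nat.card H).Coprime (Nat.card U))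
    (hcopE : (Nat.card H).Coprime (Nat.card E)) :
    Nat.card ↥(H ⊓ centralizer ((U ⊔ E : Subgroup G) : Set G)) ^ Nat.card E * Nat.card H =
      Nat.card ↥(H ⊓ centralizer (E : Set G)) ^ Nat.card E *
        Nat.card ↥(H ⊓ centralizer (U : Set G)) := by
  have hE1 : E ≠ ⊥ := by
    intro h
    rw [h, Subgroup.card_bot] at hEr
    exact Nat.not_prime_one hEr
  have hUEbot : U ⊓ E = ⊥ := by
    rw [eq_bot_iff, ← hUE]
    exact inf_le_inf_left U (bgf_comm_of_prime hEr)
  have hcard : Nat.card ↥(U ⊔ E) = Nat.card U * Nat.card E :=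
    Helper35.card_sup_of_le_normalizer hEU hUEbot
  refine (Helper70.frob_group_main U E H hE1 (fun e he u hu => bgf_conj_mem hEU he hu) ?_
    (fun x hx h hh => bgf_conj_mem (sup_le hUH hEH) hx hh) hsolv
    (by rw [hcard]; exact Nat.Coprime.mul_right hcopU hcopE)).1
  intro e he he1 u hu hcomm
  have h1 : u ∈ centralizer ({e} : Set G) := by
    rw [Subgroup.mem_centralizer_iff]
    intro y hy
    rw [Set.mem_singleton_iff.mp hy]
    exact hcomm
  rw [bgf_centralizer_singleton hEr he he1] at h1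
  have h2 : u ∈ U ⊓ centralizer (E : Set G) := ⟨hu, h1⟩
  rw [hUE] at h2
  exact Subgroup.mem_bot.mp h2

/-- The Frobenius counting formula when the kernel `U` has no fixed points on `H`. -/
theorem bgf_frob_fpf {U E H : Subgroup G} (hEr : (Nat.card E).Prime)
    (hEU : E ≤ normalizer (U : Set G)) (hUE : U ⊓ centralizer (E : Set G) = ⊥)
    (hUH : U ≤ normalizer (H : Set G)) (hEH : E ≤ normalizer (H : Set G))
    (hsolv : Group.IsSolvable H) (hcopU : (Nat.card H).Coprime (Nat.card U))
    (hcopE : (Nat.card H).Coprime (Nat.card E))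
    (hHU : H ⊓ centralizer (U : Set G) = ⊥) :
    Nat.card H = Nat.card ↥(H ⊓ centralizer (E : Set G)) ^ Nat.card E := by
  have h := bgf_frob hEr hEU hUE hUH hEH hsolv hcopU hcopE
  have h1 : H ⊓ centralizer ((U ⊔ E : Subgroup G) : Set G) = ⊥ := by
    rw [eq_bot_iff, ← hHU]
    exact inf_le_inf_left H (Subgroup.centralizer_le (by
      intro y hy
      exact (le_sup_left : U ≤ U ⊔ E) hy))
  rw [h1, hHU, Subgroup.card_bot, one_pow, one_mul, mul_one] at h
  exact h

end Cfsg.Agent.Helper72
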