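import Cfsg.Agent.Helper72.BG36FinA

/-!
# B&G Theorem 3.6: the final configuration, reduction to an abelian `t`-group `K`

`BGF p V K S R` bundles the hypotheses of the final configuration.  We prove that `K = [K,S]`,
that `K` is a `t`-group, that `C_K(S)` is central in `K` and centralised by `R`, and finally that
`K` is abelian.
-/

set_option autoImplicit false

namespace Cfsg.Agent.Helper72

open Subgroup

universe u

set_option linter.unusedSectionVars false

variable {G : Type u} [Group G] [Finite G]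

/-- The hypotheses of the final configuration of B&G Theorem 3.6. -/
structure BGF (p : ℕ) (V K S R : Subgroup G) : Prop where
  hsolv : Group.IsSolvable G
  hp : p.Prime
  hVp : ∀ v ∈ V, v ^ p = 1
  hVab : ∀ a ∈ V, ∀ b ∈ V, a * b = b * a
  hKp : (Nat.card K).Coprime p
  hSp : IsPGroup p S
  hRr : (Nat.card R).Prime
  hRp : Nat.card R ≠ p
  hRK : (Nat.card R).Coprime (Nat.card K)
  hKV : K ≤ normalizer (V : Set G)
  hSV : S ≤ normalizer (V : Set G)
  hRV : R ≤ normalizer (V : Set G)
  hSK : S ≤ normalizer (K : Set G)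
  hRK' : R ≤ normalizer (K : Set G)
  hRS : R ≤ normalizer (S : Set G)
  hKf : K ⊓ centralizer (V : Set G) = ⊥
  hSR : S ⊓ centralizer (R : Set G) = ⊥
  hKmin : ∀ K₀ : Subgroup G, K₀ ≤ K → K₀ ≠ K → S ≤ normalizer (K₀ : Set G) →
    R ≤ normalizer (K₀ : Set G) → K₀ ≤ centralizer (S : Set G)
  hKS : ¬ K ≤ centralizer (S : Set G)
  hCV : IsZGroup ↥(V ⊓ centralizer (R : Set G))
  hCK : IsZGroup ↥(K ⊓ centralizer (R : Set G))

namespace BGF

variable {p : ℕ} {V K S R : Subgroup G}

theorem solvable (h : BGF p V K S R) (X : Subgroup G) : Group.IsSolvable X := by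
  have := h.hsolv
  infer_instance

theorem cop_SK (h : BGF p V K S R) : (Nat.card S).Coprime (Nat.card K) := by
  have : Fact p.Prime := ⟨h.hp⟩
  obtain ⟨n, hn⟩ := IsPGroup.iff_card.mp h.hSp
  rw [hn]
  exact Nat.Coprime.pow_left n h.hKp.symm

theorem cop_SR (h : BGF p V K S R) : (Nat.card S).Coprime (Nat.card R) := by
  have : Fact p.Prime := ⟨h.hp⟩
  obtain ⟨n, hn⟩ := IsPGroup.iff_card.mp h.hSp
  rw [hn]
  exact Nat.Coprime.pow_left n ((Nat.coprime_primes h.hp h.hRr).mpr (Ne.symm h.hRp))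

theorem isPGroup_V (h : BGF p V K S R) : IsPGroup p V := by
  intro v
  refine ⟨1, ?_⟩
  rw [pow_one]
  exact Subtype.ext (by simpa using h.hVp v v.2)

theorem card_V (h : BGF p V K S R) : ∃ n, Nat.card V = p ^ n := by
  have : Fact p.Prime := ⟨h.hp⟩
  exact IsPGroup.iff_card.mp h.isPGroup_V

/-- `K = [K, S]`. -/
theorem comm_eq (h : BGF p V K S R) : (⁅K, S⁆ : Subgroup G) = K := by
  by_contra hne
  have hle : (⁅K, S⁆ : Subgroup G) ≤ K := Helper35.commutator_le_of_le_normalizer h.hSK
  have h1 := h.hKmin _ hle hne (Helper35.le_normalizer_commutator h.hSK)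
    (Helper35.le_normalizer_commutator' h.hRK' h.hRS)
  have h2 : (⁅⁅K, S⁆, S⁆ : Subgroup G) = ⁅K, S⁆ :=
    Helper35.commutator_commutator_eq_of_coprime h.hSK h.cop_SK (Or.inl (h.solvable S))
  have h3 : (⁅⁅K, S⁆, S⁆ : Subgroup G) = ⊥ := commutator_eq_bot_iff_le_centralizer.mpr h1
  rw [h3] at h2
  exact h.hKS (commutator_eq_bot_iff_le_centralizer.mp h2.symm)

theorem K_ne_bot (h : BGF p V K S R) : K ≠ ⊥ := by
  intro hK
  apply h.hKS
  rw [hK]
  exact bot_le

theorem S_inf_R (h : BGF p V K S R) : S ⊓ R = ⊥ :=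
  disjoint_iff.mp (Subgroup.disjoint_of_coprime_natCard h.cop_SR)

theorem card_SR (h : BGF p V K S R) : Nat.card ↥(S ⊔ R) = Nat.card S * Nat.card R :=
  Helper35.card_sup_of_le_normalizer h.hRS h.S_inf_R

/-- `K` is a `t`-group for some prime `t`. -/
theorem exists_isPGroup (h : BGF p V K S R) : ∃ t : ℕ, t.Prime ∧ IsPGroup t K := by
  by_contra hcon
  push Not at hcon
  apply h.hKS
  have hCK : K ⊓ centralizer (S : Set G) ≤ K := inf_le_left
  have hdvd : Nat.card K ∣ Nat.card ↥(K ⊓ centralizer (S : Set G)) := by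
    rw [← Nat.factorization_prime_le_iff_dvd Nat.card_pos.ne' Nat.card_pos.ne']
    intro q hq
    have : Fact q.Prime := ⟨hq⟩
    obtain ⟨P, hP, hPA⟩ := Helper35.exists_invariant_sylow (A := S ⊔ R) (K := K)
      (sup_le h.hSK h.hRK')
      (by rw [h.card_SR]; exact Nat.Coprime.mul_left h.cop_SK h.hRK)
      (Or.inr (h.solvable K)) q
    have hPK : P ≠ K := by
      intro hPK
      apply hcon q hq
      rw [← hPK]
      exact Helper35.isPGroup_of_mem_sylowSet hP
    have hPS := h.hKmin P hP.1 hPK (le_sup_left.trans hPA) (le_sup_right.trans hPA)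
    have hPC : P ≤ K ⊓ centralizer (S : Set G) := le_inf hP.1 hPS
    have h1 := Subgroup.card_dvd_of_le hPC
    rw [hP.2] at h1
    exact (Nat.Prime.pow_dvd_iff_le_factorization hq Nat.card_pos.ne').mp h1
  have heq : K ⊓ centralizer (S : Set G) = K :=
    Subgroup.eq_of_le_of_card_ge hCK (Nat.le_of_dvd Nat.card_pos hdvd)
  rw [← heq]
  exact inf_le_right

/-- `[K, K] ≤ C_K(S)`. -/
theorem comm_le (h : BGF p V K S R) : (⁅K, K⁆ : Subgroup G) ≤ K ⊓ centralizer (S : Set G) := by
  have hle : (⁅K, K⁆ : Subgroup G) ≤ K := Helper35.commutator_le_of_le_normalizer le_normalizer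
  refine le_inf hle ?_
  apply h.hKmin _ hle ?_ (Helper35.le_normalizer_commutator' h.hSK h.hSK)
    (Helper35.le_normalizer_commutator' h.hRK' h.hRK')
  intro heq
  have : Nontrivial K := by
    rw [Subgroup.nontrivial_iff_ne_bot]
    exact h.K_ne_bot
  have := h.solvable K
  have hlt := Group.IsSolvable.commutator_lt_top_of_nontrivial (↥K)
  apply hlt.ne
  apply Subgroup.map_injective K.subtype_injective
  rw [Subgroup.map_subtype_commutator, heq, ← MonoidHom.range_eq_map, Subgroup.range_subtype]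

/-- `C_K(S)` is central in `K`. -/
theorem C_le_centralizer (h : BGF p V K S R) :
    K ⊓ centralizer (S : Set G) ≤ centralizer (K : Set G) := by
  have h1 : (⁅⁅S, K ⊓ centralizer (S : Set G)⁆, K⁆ : Subgroup G) = ⊥ := by
    have : (⁅S, K ⊓ centralizer (S : Set G)⁆ : Subgroup G) = ⊥ := by
      rw [commutator_eq_bot_iff_le_centralizer, Subgroup.le_centralizer_iff]
      exact inf_le_right
    rw [this]
    exact Subgroup.commutator_bot_left K
  have h2 : (⁅⁅K ⊓ centralizer (S : Set G), K⁆, S⁆ : Subgroup G) = ⊥ := by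
    rw [commutator_eq_bot_iff_le_centralizer]
    exact ((Subgroup.commutator_mono inf_le_left le_rfl).trans h.comm_le).trans inf_le_right
  have h3 := Subgroup.commutator_commutator_eq_bot_of_rotate h1 h2
  rw [h.comm_eq, commutator_eq_bot_iff_le_centralizer] at h3
  rw [Subgroup.le_centralizer_iff]
  exact h3

theorem card_D_dvd (h : BGF p V K S R) : Nat.card ↥(V ⊓ centralizer (R : Set G)) ∣ p := by
  have : Fact p.Prime := ⟨h.hp⟩
  have hZ := h.hCV
  have hP : IsPGroup p ↥(V ⊓ centralizer (R : Set G)) := h.isPGroup_V.to_le inf_le_left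
  have hnil : Group.IsNilpotent ↥(V ⊓ centralizer (R : Set G)) := hP.isNilpotent
  have hcyc : IsCyclic ↥(V ⊓ centralizer (R : Set G)) := inferInstance
  rw [← IsCyclic.exponent_eq_card]
  apply Monoid.exponent_dvd_of_forall_pow_eq_one
  intro g
  exact Subtype.ext (by simpa using h.hVp g g.2.1)

/-- A nontrivial subgroup of `C_V(R)` has order `p`. -/
theorem card_eq_p (h : BGF p V K S R) {X : Subgroup G} (hX : X ≤ V ⊓ centralizer (R : Set G))
    (hX1 : X ≠ ⊥) : Nat.card X = p := by
  have h1 : Nat.card X ∣ p := (Subgroup.card_dvd_of_le hX).trans h.card_D_dvd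
  rcases (Nat.dvd_prime h.hp).mp h1 with h2 | h2
  · exact absurd (Subgroup.card_eq_one.mp h2) hX1
  · exact h2

end BGF

end Cfsg.Agent.Helper72
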