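import Cfsg.Agent.Helper72.BG36FinB

/-!
# B&G Theorem 3.6: the final configuration, `K` is abelian

`C_K(S)` is centralised by `R` (a Frobenius counting argument on `[V, [C_K(S), R]]`), hence
`C_K(R)` is central in `K`, and `K` is abelian.
-/

set_option autoImplicit false

namespace Cfsg.Agent.Helper72

open Subgroup

universe u

set_option linter.unusedSectionVars false

variable {G : Type u} [Group G] [Finite G]

namespace BGF

variable {p : ℕ} {V K S R : Subgroup G}

/-- `C_K(S)` is centralised by `R`. -/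
theorem C_le_centralizer_R (h : BGF p V K S R) :
    K ⊓ centralizer (S : Set G) ≤ centralizer (R : Set G) := by
  have : Fact p.Prime := ⟨h.hp⟩
  by_contra hcon
  have hRC : R ≤ normalizer ((K ⊓ centralizer (S : Set G) : Subgroup G) : Set G) :=
    bgf_le_normalizer_inf h.hRK' (bgf_le_normalizer_centralizer h.hRS)
  have hCK : K ⊓ centralizer (S : Set G) ≤ K := inf_le_left
  have hCab : ∀ a ∈ K ⊓ centralizer (S : Set G), ∀ b ∈ K ⊓ centralizer (S : Set G),
      a * b = b * a := by
    intro a ha b hb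
    exact (Subgroup.mem_centralizer_iff.mp (h.C_le_centralizer hb)) a (hCK ha)
  have hcopRC : (Nat.card R).Coprime (Nat.card ↥(K ⊓ centralizer (S : Set G))) :=
    Nat.Coprime.coprime_dvd_right (Subgroup.card_dvd_of_le hCK) h.hRK
  obtain ⟨Z₂, hZdef⟩ : ∃ Z₂ : Subgroup G, Z₂ = ⁅K ⊓ centralizer (S : Set G), R⁆ := ⟨_, rfl⟩
  have hZ1 : Z₂ ≠ ⊥ := by
    intro hZ
    apply hcon
    rw [hZdef] at hZ
    exact commutator_eq_bot_iff_le_centralizer.mp hZ
  have hZC : Z₂ ≤ K ⊓ centralizer (S : Set G) := by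
    rw [hZdef]; exact Helper35.commutator_le_of_le_normalizer hRC
  have hZK : Z₂ ≤ K := hZC.trans hCK
  have hZR : Z₂ ⊓ centralizer (R : Set G) = ⊥ := by
    rw [hZdef]; exact Helper35.commutator_inf_centralizer_eq_bot_of_comm hRC hcopRC hCab
  have hRZ : R ≤ normalizer (Z₂ : Set G) := by
    rw [hZdef]; exact Helper35.le_normalizer_commutator hRC
  have hKZ : K ≤ centralizer (Z₂ : Set G) := by
    rw [Subgroup.le_centralizer_iff]; exact hZC.trans h.C_le_centralizer
  have hSZ : S ≤ centralizer (Z₂ : Set G) := by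
    rw [Subgroup.le_centralizer_iff]; exact hZC.trans inf_le_right
  have hZV : Z₂ ≤ normalizer (V : Set G) := hZK.trans h.hKV
  obtain ⟨n, hn⟩ := h.card_V
  have hcopZV : (Nat.card Z₂).Coprime (Nat.card V) := by
    rw [hn]
    exact Nat.Coprime.pow_right n
      (Nat.Coprime.coprime_dvd_left (Subgroup.card_dvd_of_le hZK) h.hKp)
  obtain ⟨M, hMdef⟩ : ∃ M : Subgroup G, M = ⁅V, Z₂⁆ := ⟨_, rfl⟩
  have hMV : M ≤ V := by
    rw [hMdef]; exact Helper35.commutator_le_of_le_normalizer hZV
  have hMZ : M ⊓ centralizer (Z₂ : Set G) = ⊥ := by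
    rw [hMdef]; exact Helper35.commutator_inf_centralizer_eq_bot_of_comm hZV hcopZV h.hVab
  have hM1 : M ≠ ⊥ := by
    intro hM
    rw [hMdef] at hM
    have h1 : V ≤ centralizer (Z₂ : Set G) := commutator_eq_bot_iff_le_centralizer.mp hM
    rw [Subgroup.le_centralizer_iff] at h1
    have h2 : Z₂ ≤ K ⊓ centralizer (V : Set G) := le_inf hZK h1
    rw [h.hKf] at h2
    exact hZ1 (le_bot_iff.mp h2)
  have hKM : K ≤ normalizer (M : Set G) := by
    rw [hMdef]
    exact Helper35.le_normalizer_commutator' h.hKV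
      (hKZ.trans (Subgroup.centralizer_le_normalizer _))
  have hSM : S ≤ normalizer (M : Set G) := by
    rw [hMdef]
    exact Helper35.le_normalizer_commutator' h.hSV
      (hSZ.trans (Subgroup.centralizer_le_normalizer _))
  have hRM : R ≤ normalizer (M : Set G) := by
    rw [hMdef]; exact Helper35.le_normalizer_commutator' h.hRV hRZ
  have hZM : Z₂ ≤ normalizer (M : Set G) := hZK.trans hKM
  have hcopX : ∀ X : Subgroup G, X ≤ V →
      (Nat.card X).Coprime (Nat.card Z₂) ∧ (Nat.card X).Coprime (Nat.card R) := by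
    intro X hX
    have hXd := Subgroup.card_dvd_of_le hX
    rw [hn] at hXd
    constructor
    · exact Nat.Coprime.coprime_dvd_left hXd (Nat.Coprime.pow_left n
        (Nat.Coprime.coprime_dvd_right (Subgroup.card_dvd_of_le hZK) h.hKp.symm))
    · exact Nat.Coprime.coprime_dvd_left hXd (Nat.Coprime.pow_left n
        ((Nat.coprime_primes h.hp h.hRr).mpr (Ne.symm h.hRp)))
  -- a nontrivial `Z₂ R`-invariant subgroup of `M` has order `p ^ r`
  have key : ∀ X : Subgroup G, X ≤ M → X ≠ ⊥ → Z₂ ≤ normalizer (X : Set G) →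
      R ≤ normalizer (X : Set G) → Nat.card X = p ^ Nat.card R := by
    intro X hXM hX1 hZX hRX
    have hXZ : X ⊓ centralizer (Z₂ : Set G) = ⊥ := by
      rw [eq_bot_iff, ← hMZ]; exact inf_le_inf_right _ hXM
    have hc := hcopX X (hXM.trans hMV)
    have hf := bgf_frob_fpf h.hRr hRZ hZR hZX hRX (h.solvable X) hc.1 hc.2 hXZ
    have h1 : X ⊓ centralizer (R : Set G) ≠ ⊥ := by
      intro hbot
      rw [hbot, Subgroup.card_bot, one_pow] at hf
      exact hX1 (Subgroup.card_eq_one.mp hf)
    rw [h.card_eq_p (inf_le_inf_right _ (hXM.trans hMV)) h1] at hf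
    exact hf
  have hMcard := key M le_rfl hM1 hZM hRM
  have hM0 : M ⊓ centralizer (S : Set G) ≠ ⊥ :=
    Helper10.pgroup_fixed_point S M h.hSp (h.isPGroup_V.to_le hMV)
      (fun l hl n hn => bgf_conj_mem hSM hl hn) hM1
  have hZM0 : Z₂ ≤ normalizer ((M ⊓ centralizer (S : Set G) : Subgroup G) : Set G) :=
    bgf_le_normalizer_inf hZM ((Subgroup.le_centralizer_iff.mp hSZ).trans le_normalizer)
  have hRM0 : R ≤ normalizer ((M ⊓ centralizer (S : Set G) : Subgroup G) : Set G) :=
    bgf_le_normalizer_inf hRM (bgf_le_normalizer_centralizer h.hRS)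
  have hM0card := key _ inf_le_left hM0 hZM0 hRM0
  have hMeq : M ⊓ centralizer (S : Set G) = M :=
    Subgroup.eq_of_le_of_card_ge inf_le_left (by rw [hMcard, hM0card])
  have hMS : M ≤ centralizer (S : Set G) := by rw [← hMeq]; exact inf_le_right
  have hSMc : S ≤ centralizer (M : Set G) := Subgroup.le_centralizer_iff.mp hMS
  have hKMc : K ≤ centralizer (M : Set G) := by
    have := bgf_commutator_le_centralizer hKM hSMc
    rw [h.comm_eq] at this
    exact this
  have hMZc : M ≤ centralizer (Z₂ : Set G) := Subgroup.le_centralizer_iff.mp (hZK.trans hKMc)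
  apply hM1
  rw [eq_bot_iff, ← hMZ]
  exact le_inf le_rfl hMZc

/-- `K` is abelian. -/
theorem K_comm (h : BGF p V K S R) : ∀ a ∈ K, ∀ b ∈ K, a * b = b * a := by
  obtain ⟨t, ht, hKt⟩ := h.exists_isPGroup
  have : Fact t.Prime := ⟨ht⟩
  have hCA : K ⊓ centralizer (S : Set G) ≤ K ⊓ centralizer (R : Set G) :=
    le_inf inf_le_left h.C_le_centralizer_R
  -- `C_K(R)` is cyclic
  have hAt : IsPGroup t ↥(K ⊓ centralizer (R : Set G)) := hKt.to_le inf_le_left
  have hZ := h.hCK
  have hnil : Group.IsNilpotent ↥(K ⊓ centralizer (R : Set G)) := hAt.isNilpotent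
  have hcyc : IsCyclic ↥(K ⊓ centralizer (R : Set G)) := inferInstance
  have hAab : ∀ a ∈ K ⊓ centralizer (R : Set G), ∀ b ∈ K ⊓ centralizer (R : Set G),
      a * b = b * a := by
    intro a ha b hb
    have := Std.Commutative.comm (op := (· * · : ↥(K ⊓ centralizer (R : Set G)) → _ → _))
      ⟨a, ha⟩ ⟨b, hb⟩
    exact congrArg Subtype.val this
  -- `C_K(R)` is central in `K`
  have h1 : (⁅⁅R, K ⊓ centralizer (R : Set G)⁆, K⁆ : Subgroup G) = ⊥ := by
    have : (⁅R, K ⊓ centralizer (R : Set G)⁆ : Subgroup G) = ⊥ := by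
      rw [commutator_eq_bot_iff_le_centralizer, Subgroup.le_centralizer_iff]
      exact inf_le_right
    rw [this]
    exact Subgroup.commutator_bot_left K
  have h2 : (⁅⁅K ⊓ centralizer (R : Set G), K⁆, R⁆ : Subgroup G) = ⊥ := by
    rw [commutator_eq_bot_iff_le_centralizer]
    exact ((Subgroup.commutator_mono inf_le_left le_rfl).trans h.comm_le).trans
      h.C_le_centralizer_R
  have h3 := Subgroup.commutator_commutator_eq_bot_of_rotate h1 h2
  rw [commutator_eq_bot_iff_le_centralizer] at h3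
  have hAK : K ⊓ centralizer (R : Set G) ≤ centralizer (K : Set G) := by
    intro a ha
    rw [Subgroup.mem_centralizer_iff]
    intro k hk
    obtain ⟨n, hn, c, hc, rfl⟩ :=
      Helper35.exists_commutator_mul_fixed h.hRK' h.hRK (Or.inr (h.solvable K)) hk
    have e1 : n * a = a * n := ((Subgroup.mem_centralizer_iff.mp (h3 hn)) a ha).symm
    have e2 : c * a = a * c := hAab c hc a ha
    calc n * c * a = n * (c * a) := by group
      _ = n * (a * c) := by rw [e2]
      _ = (n * a) * c := by group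
      _ = a * (n * c) := by rw [e1]; group
  -- the counting formula for the Frobenius group `S R` on `K`
  have hform := bgf_frob h.hRr h.hRS h.hSR h.hSK h.hRK' (h.solvable K) h.cop_SK.symm h.hRK.symm
  have hCSR : K ⊓ centralizer ((S ⊔ R : Subgroup G) : Set G) = K ⊓ centralizer (S : Set G) := by
    apply le_antisymm
    · exact inf_le_inf_left K (Subgroup.centralizer_le (by
        intro y hy
        exact (le_sup_left : S ≤ S ⊔ R) hy))
    · intro c hc
      exact ⟨hc.1, bgf_mem_centralizer_sup hc.2 (h.C_le_centralizer_R hc)⟩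
  rw [hCSR] at hform
  by_contra hnab
  have hZne : K ⊓ centralizer (K : Set G) ≠ K := by
    intro heq
    apply hnab
    intro a ha b hb
    exact (Subgroup.mem_centralizer_iff.mp (heq.ge hb).2) a ha
  have hZS := h.hKmin _ inf_le_left hZne
    (bgf_le_normalizer_inf h.hSK (bgf_le_normalizer_centralizer h.hSK))
    (bgf_le_normalizer_inf h.hRK' (bgf_le_normalizer_centralizer h.hRK'))
  have hAC : K ⊓ centralizer (R : Set G) ≤ K ⊓ centralizer (S : Set G) :=
    fun a ha => ⟨ha.1, hZS ⟨ha.1, hAK ha⟩⟩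
  have hACeq : K ⊓ centralizer (R : Set G) = K ⊓ centralizer (S : Set G) :=
    le_antisymm hAC hCA
  rw [hACeq] at hform
  have hpos : 0 < Nat.card ↥(K ⊓ centralizer (S : Set G)) ^ Nat.card R :=
    pow_pos Nat.card_pos _
  have hKC : Nat.card K = Nat.card ↥(K ⊓ centralizer (S : Set G)) :=
    Nat.eq_of_mul_eq_mul_left hpos hform
  have hCK : K ⊓ centralizer (S : Set G) = K :=
    Subgroup.eq_of_le_of_card_ge inf_le_left hKC.le
  apply h.hKS
  rw [← hCK]
  exact inf_le_right

end BGF

end Cfsg.Agent.Helper72
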