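import Cfsg.Statements.S1383
import Cfsg.Agent.Helper27.BG83NILP

set_option autoImplicit false

namespace Cfsg.Agent.Helper72

open Cfsg Subgroup
open scoped commutatorElement

universe u

variable {G : Type u} [Group G] [Finite G]

/-- PCOMM (CALL BG83, pure). -/
theorem bg83_P_comm (H P K : Subgroup G) (hnil : Group.IsNilpotent ↥H) (p : ℕ) [Fact p.Prime]
    (hPH : P ≤ H) (hP : IsPGroup p P)
    (hmax : ∀ Q : Subgroup G, Q ≤ H → IsPGroup p Q → Q ≤ P)
    (hK : K ≤ normalizer (H : Set G)) (hHK : ⁅H, K⁆ = H) : ⁅P, K⁆ = P := by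
  have hp : p.Prime := Fact.out
  obtain ⟨S, hSH, hSp, hSmax, hScomm, _⟩ := Cfsg.Agent.Helper27.bg83_nilp_sylow H hnil p
  have hSP : S = P := le_antisymm (hmax S hSH hSp) (hSmax P hPH hP)
  have hcomm : ∀ s ∈ P, ∀ h ∈ H, (orderOf h).Coprime p → s * h = h * s := by
    rw [← hSP]; exact hScomm
  have hnormP : ∀ n ∈ normalizer (H : Set G), ∀ s ∈ P, n * s * n⁻¹ ∈ P := by
    intro n hn s hs
    have hQH : P.map (MulAut.conj n).toMonoidHom ≤ H := by
      rintro _ ⟨a, ha, rfl⟩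
      exact (mem_normalizer_iff.mp hn a).mp (hPH ha)
    exact hmax _ hQH (hP.map _) ⟨s, hs, rfl⟩
  have hP1 : ∀ s ∈ P, ∀ m : ℕ, m.Coprime p → s ^ m = 1 → s = 1 := by
    intro s hs m hm hsm
    obtain ⟨n, hn⟩ := (IsPGroup.iff_orderOf.mp hP) ⟨s, hs⟩
    rw [Subgroup.orderOf_mk] at hn
    have h6 : orderOf s ∣ m := orderOf_dvd_of_pow_eq_one hsm
    have h7 : (orderOf s).Coprime m := by rw [hn]; exact Nat.Coprime.pow_left n hm.symm
    exact orderOf_eq_one_iff.mp (Nat.Coprime.eq_one_of_dvd h7 h6)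
  have hP'n : (P.subgroupOf H).Normal := by
    refine ⟨fun x hx g => ?_⟩
    rw [mem_subgroupOf] at hx ⊢
    exact hnormP g.1 (le_normalizer g.2) x.1 hx
  have hP'p : IsPGroup p (P.subgroupOf H) := hP.comap_subtype
  obtain ⟨Q, hQ⟩ := hP'p.exists_le_sylow
  have hQP : (Q : Subgroup ↥H) ≤ P.subgroupOf H := by
    intro x hx
    rw [mem_subgroupOf]
    exact hmax ((Q : Subgroup ↥H).map H.subtype) (map_subtype_le _) (Q.2.map _) ⟨x, hx, rfl⟩
  have hQeq : (Q : Subgroup ↥H) = P.subgroupOf H := le_antisymm hQP hQ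
  have hcop : (Nat.card (P.subgroupOf H)).Coprime (P.subgroupOf H).index := by
    rw [← hQeq]; exact Q.card_coprime_index
  have hndvd : ¬ p ∣ (P.subgroupOf H).index := by
    rw [← hQeq]; exact Q.not_dvd_index
  obtain ⟨C₀, hC₀⟩ := Subgroup.exists_right_complement'_of_coprime hcop
  have hC₀card : (Nat.card C₀).Coprime p := by
    rw [← hC₀.symm.index_eq_card]
    exact (Nat.Coprime.symm ((Nat.Prime.coprime_iff_not_dvd hp).mpr hndvd))
  have hCH : C₀.map H.subtype ≤ H := map_subtype_le _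
  have hCord : ∀ c ∈ C₀.map H.subtype, (orderOf c).Coprime p := by
    rintro _ ⟨c, hc, rfl⟩
    have h1 : orderOf (H.subtype c) = orderOf c := orderOf_injective H.subtype H.subtype_injective c
    have h2 : orderOf (⟨c, hc⟩ : C₀) = orderOf c := Subgroup.orderOf_mk c hc
    have h3 : orderOf (⟨c, hc⟩ : C₀) ∣ Nat.card C₀ := orderOf_dvd_natCard _
    rw [h1, ← h2]
    exact Nat.Coprime.coprime_dvd_left h3 hC₀card
  have hCP : ∀ c ∈ C₀.map H.subtype, ∀ s ∈ P, s * c = c * s :=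
    fun c hc s hs => hcomm s hs c (hCH hc) (hCord c hc)
  have hdec : ∀ h ∈ H, ∃ s ∈ P, ∃ c ∈ C₀.map H.subtype, h = s * c := by
    intro h hh
    have hbij := isComplement'_def.mp hC₀
    obtain ⟨⟨s, c⟩, hsc⟩ := hbij.2 ⟨h, hh⟩
    refine ⟨s.1.1, mem_subgroupOf.mp s.2, c.1.1, ⟨c.1, c.2, rfl⟩, ?_⟩
    have h1 := congrArg Subtype.val hsc
    exact h1.symm
  have hPC : ∀ a ∈ P, a ∈ C₀.map H.subtype → a = 1 := by
    intro a haP haC
    exact hP1 a haP (orderOf a) (hCord a haC) (pow_orderOf_eq_one a)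
  have hKC : ∀ k ∈ K, ∀ c ∈ C₀.map H.subtype, k * c * k⁻¹ ∈ C₀.map H.subtype := by
    intro k hk c hc
    have hkc : k * c * k⁻¹ ∈ H := (mem_normalizer_iff.mp (hK hk) c).mp (hCH hc)
    obtain ⟨s, hs, c', hc', e⟩ := hdec _ hkc
    have h1 : (k * c * k⁻¹) ^ (orderOf c * orderOf c') = 1 := by
      rw [conj_pow, pow_mul, pow_orderOf_eq_one, one_pow, mul_one, mul_inv_cancel]
    have h2 : (s * c') ^ (orderOf c * orderOf c') =
        s ^ (orderOf c * orderOf c') * c' ^ (orderOf c * orderOf c') :=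
      Commute.mul_pow (hCP c' hc' s hs) _
    have h3 : c' ^ (orderOf c * orderOf c') = 1 := by
      rw [mul_comm, pow_mul, pow_orderOf_eq_one, one_pow]
    have h4 : s ^ (orderOf c * orderOf c') = 1 := by
      rw [e, h2, h3, mul_one] at h1; exact h1
    have hmcop : (orderOf c * orderOf c').Coprime p :=
      Nat.Coprime.mul_left (hCord c hc) (hCord c' hc')
    have hs1 : s = 1 := hP1 s hs _ hmcop h4
    rw [e, hs1, one_mul]; exact hc'
  have hTP : ⁅P, K⁆ ≤ P := by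
    rw [commutator_le]
    intro s hs k hk
    have h1 : ⁅s, k⁆ = s * (k * s⁻¹ * k⁻¹) := by rw [commutatorElement_def]; group
    rw [h1]
    exact P.mul_mem hs (hnormP k (hK hk) _ (P.inv_mem hs))
  have hmain : ∀ x ∈ ⁅H, K⁆, ∃ u ∈ ⁅P, K⁆, ∃ c ∈ C₀.map H.subtype, x = u * c := by
    intro x hx
    rw [Subgroup.commutator_def] at hx
    refine Subgroup.closure_induction
      (p := fun x _ => ∃ u ∈ ⁅P, K⁆, ∃ c ∈ C₀.map H.subtype, x = u * c) ?_ ?_ ?_ ?_ hx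
    · rintro _ ⟨h, hh, k, hk, rfl⟩
      obtain ⟨s, hs, c, hc, rfl⟩ := hdec h hh
      have hck : ⁅c, k⁆ ∈ C₀.map H.subtype := by
        have h1 : ⁅c, k⁆ = c * (k * c⁻¹ * k⁻¹) := by rw [commutatorElement_def]; group
        rw [h1]; exact mul_mem hc (hKC k hk _ (inv_mem hc))
      refine ⟨⁅s, k⁆, commutator_mem_commutator hs hk, ⁅c, k⁆, hck, ?_⟩
      have hcomm1 : (k * s⁻¹ * k⁻¹) * ⁅c, k⁆ = ⁅c, k⁆ * (k * s⁻¹ * k⁻¹) :=
        hCP _ hck _ (hnormP k (hK hk) _ (P.inv_mem hs))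
      simp only [commutatorElement_def] at hcomm1 ⊢
      calc s * c * k * (s * c)⁻¹ * k⁻¹
          = s * ((c * k * c⁻¹ * k⁻¹) * (k * s⁻¹ * k⁻¹)) := by group
        _ = s * ((k * s⁻¹ * k⁻¹) * (c * k * c⁻¹ * k⁻¹)) := by rw [hcomm1]
        _ = s * k * s⁻¹ * k⁻¹ * (c * k * c⁻¹ * k⁻¹) := by group
    · exact ⟨1, one_mem _, 1, one_mem _, by simp⟩
    · rintro x y _ _ ⟨u, hu, c, hc, rfl⟩ ⟨u', hu', c', hc', rfl⟩
      refine ⟨u * u', mul_mem hu hu', c * c', mul_mem hc hc', ?_⟩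
      have h1 := hCP c hc u' (hTP hu')
      calc u * c * (u' * c') = u * (c * u') * c' := by group
        _ = u * (u' * c) * c' := by rw [h1]
        _ = u * u' * (c * c') := by group
    · rintro x _ ⟨u, hu, c, hc, rfl⟩
      refine ⟨u⁻¹, inv_mem hu, c⁻¹, inv_mem hc, ?_⟩
      have h1 := hCP c⁻¹ (inv_mem hc) u⁻¹ (hTP (inv_mem hu))
      rw [mul_inv_rev, h1]
  apply le_antisymm hTP
  intro a ha
  have haH : a ∈ ⁅H, K⁆ := by rw [hHK]; exact hPH ha
  obtain ⟨u, hu, c, hc, e⟩ := hmain a haH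
  have hcP : c ∈ P := by
    have h1 : c = u⁻¹ * a := by rw [e]; group
    rw [h1]; exact P.mul_mem (P.inv_mem (hTP hu)) ha
  have hc1 := hPC c hcP hc
  rw [e, hc1, mul_one]; exact hu

end Cfsg.Agent.Helper72
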