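import Mathlib
import Cfsg.Agent.Helper79.S4705Defs
import Cfsg.Agent.Helper77.D1Defs2
import Cfsg.Agent.Helper83.S4504REDa

/-!
# S4705B (sub-CALL of helper82 for piece BLK of S4705), piece D1 (helper72)

`S4705Wk` + `S4705Shape` give `D1Hyp p x (center H)`.
-/

universe u
set_option autoImplicit false
open Cfsg Cfsg.Agent.Helper79 Cfsg.Agent.Helper77
open scoped ComplexConjugate

namespace Cfsg.Agent.Helper72

variable {H : Type u} [Group H] [Finite H]

/-- D1: the centre is a `p'`-group and `C(x) = ⟨x⟩ × Z(H)`. -/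
theorem s4705b_d1 (p : ℕ) [Fact p.Prime] (x : H) (ζ : H → ℂ) (h : S4705Wk p x ζ)
    (S : S4705Shape p x ζ) : D1Hyp p x (Subgroup.center H) := by
  refine ⟨h.hx, ?_, ?_, h.hsq⟩
  · intro hd
    obtain ⟨z, hz⟩ := exists_prime_orderOf_dvd_card' p hd
    have hzo : orderOf (z : H) = p := by
      rw [Subgroup.orderOf_coe]
      exact hz
    obtain ⟨g, hg⟩ := Helper83.red83_conj p h.hsq (z : H) x hzo h.hx
    obtain ⟨k, hk⟩ := Subgroup.mem_zpowers_iff.mp hg
    have hc : (z : H) ^ k ∈ Subgroup.center H := Subgroup.zpow_mem _ z.2 k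
    have hxc : x ∈ Subgroup.center H := by
      have hx' : x = g⁻¹ * ((z : H) ^ k) * g := by
        rw [hk]
        group
      have h2 : g⁻¹ * ((z : H) ^ k) * g = (z : H) ^ k := by
        rw [mul_assoc, ← Subgroup.mem_center_iff.mp hc g, inv_mul_cancel_left]
      rw [hx', h2]
      exact hc
    apply h.hnn
    constructor
    intro y hy n
    have hyc : y ∈ Subgroup.center H := (Subgroup.zpowers_le.mpr hxc) hy
    have h3 : n * y * n⁻¹ = y := by
      rw [Subgroup.mem_center_iff.mp hyc n, mul_inv_cancel_right]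
    rw [h3]
    exact hy
  · intro g
    constructor
    · exact S.hcent g
    · rintro ⟨i, k, hk, rfl⟩
      have h1 : k * x = x * k := (Subgroup.mem_center_iff.mp hk x).symm
      rw [mul_assoc, h1, ← mul_assoc, ← mul_assoc, ← pow_succ, ← pow_succ']
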