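import Mathlib
import Cfsg.Agent.Helper79.S4705Defs
import Cfsg.Agent.Helper79.Basic
import Cfsg.Agent.Helper77.D1Defs2
import Cfsg.Agent.Helper76.CentralChar

/-!
# S4705B (sub-CALL of helper82 for piece BLK of S4705), piece DCO (helper72)

The linear character `θ` of the centre under `ζ₀`; the `θ`-coefficient of an irreducible
character `ξ` is `ξ` itself if `ξ` lies over `ζ₀`, and `0` otherwise.
-/

universe u
set_option autoImplicit false
set_option linter.style.haveILetI false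
open Cfsg Cfsg.Agent.Helper79 Cfsg.Agent.Helper77
open scoped ComplexConjugate

namespace Cfsg.Agent.Helper72

variable {H : Type u} [Group H] [Finite H]

/-- DCO -/
theorem s4705b_dco (ζ₀ : Cfsg.IrrCharacter H) :
    ∃ θ : Cfsg.IrrCharacter (Subgroup.center H),
      ∀ (ξ : Cfsg.IrrCharacter H) (y : H),
        (S4705Over (ζ₀ : H → ℂ) (ξ : H → ℂ) →
          dco (Subgroup.center H) (θ : Subgroup.center H → ℂ) (ξ : H → ℂ) y = (ξ : H → ℂ) y) ∧
        (¬ S4705Over (ζ₀ : H → ℂ) (ξ : H → ℂ) →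
          dco (Subgroup.center H) (θ : Subgroup.center H → ℂ) (ξ : H → ℂ) y = 0) := by
  classical
  haveI : Fintype (Subgroup.center H) := Fintype.ofFinite _
  obtain ⟨ι, hιdef⟩ : ∃ ι : Subgroup.center H →* H, ι = (Subgroup.center H).subtype := ⟨_, rfl⟩
  have hι : ∀ z, ι z ∈ Subgroup.center H := by
    intro z
    rw [hιdef]
    exact z.2
  have hιv : ∀ z : Subgroup.center H, ι z = (z : H) := by
    intro z
    rw [hιdef]
    rfl
  obtain ⟨c₀, hc₀⟩ := Helper76.exists_central_scalar ι hι ζ₀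
  obtain ⟨h01, h0mul⟩ :=
    Helper76.scalar_mul ι (ζ₀ : H → ℂ) (Helper76.irr_one_ne_zero ζ₀) c₀ hc₀
  have h0norm := Helper76.scalar_norm c₀ h01 h0mul
  have h0ne : ∀ z, c₀ z ≠ 0 := by
    intro z hz
    have h2 := h0norm z
    rw [hz, zero_mul] at h2
    exact zero_ne_one h2
  obtain ⟨f, hf⟩ : ∃ f : Subgroup.center H →* ℂˣ, ∀ z, (f z : ℂ) = c₀ z :=
    ⟨MonoidHom.mk' (fun z => Units.mk0 (c₀ z) (h0ne z)) (fun a b => Units.ext (h0mul a b)),
      fun z => rfl⟩
  refine ⟨⟨fun z => (f z : ℂ), Helper79.isIrrCharacter_of_hom f⟩, ?_⟩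
  intro ξ y
  obtain ⟨c, hc⟩ := Helper76.exists_central_scalar ι hι ξ
  obtain ⟨h1, hmul⟩ := Helper76.scalar_mul ι (ξ : H → ℂ) (Helper76.irr_one_ne_zero ξ) c hc
  have hover : S4705Over (ζ₀ : H → ℂ) (ξ : H → ℂ) ↔ ∀ z, c z = c₀ z := by
    constructor
    · intro ho z
      have h2 := ho (z : H) z.2
      have h3 := hc z 1
      have h4 := hc₀ z 1
      rw [one_mul, hιv] at h3 h4
      rw [h3, h4] at h2
      have h5 : (c z - c₀ z) * ((ξ : H → ℂ) 1 * (ζ₀ : H → ℂ) 1) = 0 := by linear_combination h2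
      rcases mul_eq_zero.mp h5 with h6 | h6
      · exact sub_eq_zero.mp h6
      · rcases mul_eq_zero.mp h6 with h7 | h7
        · exact absurd h7 (Helper76.irr_one_ne_zero ξ)
        · exact absurd h7 (Helper76.irr_one_ne_zero ζ₀)
    · intro hcc z hz
      have h3 := hc ⟨z, hz⟩ 1
      have h4 := hc₀ ⟨z, hz⟩ 1
      rw [one_mul, hιv] at h3 h4
      have h3' : (ξ : H → ℂ) z = c ⟨z, hz⟩ * (ξ : H → ℂ) 1 := h3
      have h4' : (ζ₀ : H → ℂ) z = c₀ ⟨z, hz⟩ * (ζ₀ : H → ℂ) 1 := h4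
      rw [h3', h4', hcc]
      ring
  have hdco : dco (Subgroup.center H) (fun z => (f z : ℂ)) (ξ : H → ℂ) y =
      (ξ : H → ℂ) y * ((Nat.card (Subgroup.center H) : ℂ)⁻¹ *
        ∑ k : Subgroup.center H, c k * conj (c₀ k)) := by
    unfold dco
    rw [finsum_eq_sum_of_fintype, Finset.mul_sum, Finset.mul_sum, Finset.mul_sum]
    apply Finset.sum_congr rfl
    intro k _
    have h2 := hc k y
    rw [hιv] at h2
    have h3 : (fun z : Subgroup.center H => (f z : ℂ)) k = c₀ k := hf k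
    rw [h2, h3]
    ring
  constructor
  · intro ho
    have hcc := hover.mp ho
    show dco (Subgroup.center H) (fun z => (f z : ℂ)) (ξ : H → ℂ) y = _
    rw [hdco]
    have hs : ∑ k : Subgroup.center H, c k * conj (c₀ k) =
        (Nat.card (Subgroup.center H) : ℂ) := by
      rw [Finset.sum_congr rfl (fun k _ => by rw [hcc k, h0norm k])]
      rw [Finset.sum_const, Finset.card_univ, Nat.card_eq_fintype_card]
      simp
    rw [hs, inv_mul_cancel₀ (by exact_mod_cast Nat.card_pos.ne'), mul_one]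
  · intro ho
    show dco (Subgroup.center H) (fun z => (f z : ℂ)) (ξ : H → ℂ) y = _
    rw [hdco]
    rcases Helper76.sum_scalar_dichotomy c c₀ hmul h0mul h0norm with h2 | h2
    · rw [h2, mul_zero, mul_zero]
    · exact absurd (hover.mpr h2) ho
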