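import Mathlib
import Cfsg.Agent.Helper79.S4705Defs
import Cfsg.Agent.Helper77.D1Defs2

/-!
# S4705B (sub-CALL of helper82 for piece BLK of S4705), piece STAB (helper72)

The stabilizer units of any `θ` on the centre are `{1, -1}`.
-/

universe u
set_option autoImplicit false
set_option linter.style.haveILetI false
open Cfsg Cfsg.Agent.Helper79 Cfsg.Agent.Helper77
open scoped ComplexConjugate

namespace Cfsg.Agent.Helper72

variable {H : Type u} [Group H]

/-- `x ^ u.val = x` iff `u = 1` -/
theorem stab72_one (p : ℕ) [Fact p.Prime] (x : H) (hx : orderOf x = p) (u : (ZMod p)ˣ) :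
    x ^ (u : ZMod p).val = x ↔ u = 1 := by
  have hp : p.Prime := Fact.out
  haveI : NeZero p := ⟨hp.ne_zero⟩
  constructor
  · intro h1
    have h2 : x ^ (u : ZMod p).val = x ^ 1 := by rw [h1, pow_one]
    have h3 := pow_eq_pow_iff_modEq.mp h2
    rw [hx] at h3
    have h4 := (ZMod.natCast_eq_natCast_iff _ _ _).mpr h3
    rw [ZMod.natCast_zmod_val, Nat.cast_one] at h4
    exact Units.ext h4
  · rintro rfl
    haveI : Fact (1 < p) := ⟨hp.one_lt⟩
    rw [Units.val_one, ZMod.val_one, pow_one]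

/-- `x ^ u.val = x⁻¹` iff `u = -1` -/
theorem stab72_neg (p : ℕ) [Fact p.Prime] (x : H) (hx : orderOf x = p) (u : (ZMod p)ˣ) :
    x ^ (u : ZMod p).val = x⁻¹ ↔ u = -1 := by
  have hp : p.Prime := Fact.out
  haveI : NeZero p := ⟨hp.ne_zero⟩
  have key : x ^ (u : ZMod p).val = x⁻¹ ↔ p ∣ (u : ZMod p).val + 1 := by
    have hd : p ∣ (u : ZMod p).val + 1 ↔ x ^ ((u : ZMod p).val + 1) = 1 := by
      rw [← orderOf_dvd_iff_pow_eq_one, hx]
    rw [hd, pow_succ]
    constructor
    · intro h1
      rw [h1, inv_mul_cancel]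
    · intro h1
      exact eq_inv_of_mul_eq_one_left h1
  rw [key, ← ZMod.natCast_eq_zero_iff, Nat.cast_add, ZMod.natCast_zmod_val, Nat.cast_one]
  constructor
  · intro h1
    apply Units.ext
    rw [Units.val_neg, Units.val_one]
    exact eq_neg_of_add_eq_zero_left h1
  · rintro rfl
    rw [Units.val_neg, Units.val_one, neg_add_cancel]

/-- STAB: the stabilizer units are `{1, -1}`. -/
theorem s4705b_stab [Finite H] (p : ℕ) [Fact p.Prime] (x : H) (ζ : H → ℂ) (h : S4705Wk p x ζ)
    (S : S4705Shape p x ζ) (θ : Subgroup.center H → ℂ) :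
    (∀ u : (ZMod p)ˣ, u ∈ stabUnits p x (Subgroup.center H) θ ↔ u = 1 ∨ u = -1) ∧
    Nat.card (stabUnits p x (Subgroup.center H) θ) = 2 := by
  have hp : p.Prime := Fact.out
  have hconj : ∀ n : H, thetaConj (Subgroup.center H) n θ θ := by
    intro n k k' hkk
    have h1 : n * (k : H) * n⁻¹ = (k : H) := by
      rw [Subgroup.mem_center_iff.mp k.2 n, mul_inv_cancel_right]
    rw [h1] at hkk
    rw [Subtype.ext hkk]
  have hmem : ∀ u : (ZMod p)ˣ, u ∈ stabUnits p x (Subgroup.center H) θ ↔ u = 1 ∨ u = -1 := by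
    intro u
    constructor
    · rintro ⟨n, hn, -⟩
      have h1 : n * x * n⁻¹ ∈ Subgroup.zpowers x := by
        rw [hn]
        exact Subgroup.pow_mem _ (Subgroup.mem_zpowers x) _
      rcases S.hnorm n h1 with h2 | h2
      · left
        rw [hn] at h2
        exact (stab72_one p x h.hx u).mp h2
      · right
        rw [hn] at h2
        exact (stab72_neg p x h.hx u).mp h2
    · rintro (rfl | rfl)
      · refine ⟨1, ?_, hconj 1⟩
        rw [(stab72_one p x h.hx 1).mpr rfl, one_mul, inv_one, mul_one]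
      · obtain ⟨t, ht⟩ := S.hinv
        refine ⟨t, ?_, hconj t⟩
        rw [(stab72_neg p x h.hx (-1)).mpr rfl, ht]
  refine ⟨hmem, ?_⟩
  have hne : (1 : (ZMod p)ˣ) ≠ -1 := by
    intro h1
    have h2 : ((2 : ℕ) : ZMod p) = 0 := by
      have h3 := congrArg (fun u : (ZMod p)ˣ => (u : ZMod p)) h1
      simp only [Units.val_neg, Units.val_one] at h3
      have h4 : (1 : ZMod p) + 1 = 0 := by
        nth_rewrite 1 [h3]
        exact neg_add_cancel 1
      rw [Nat.cast_ofNat, ← one_add_one_eq_two]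
      exact h4
    have h5 := (ZMod.natCast_eq_zero_iff 2 p).mp h2
    have h6 := Nat.le_of_dvd (by norm_num) h5
    have h7 := h.hp
    omega
  have hset : stabUnits p x (Subgroup.center H) θ = {1, -1} := by
    ext u
    rw [hmem u]
    simp
  rw [hset, Nat.card_coe_set_eq, Set.ncard_pair hne]
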