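import Mathlib
import Cfsg.Prelude.Def_Characters
import Cfsg.Prelude.Def_Blocks
import Cfsg.Prelude.Def_Local
import Cfsg.Agent.S4468
import Cfsg.Agent.S4503
import Cfsg.Agent.Helper63.PSolv
import Cfsg.Agent.Helper79.Basic
import Cfsg.Agent.Helper79.Quotient
import Cfsg.Agent.Helper80.CharIrr
import Cfsg.Agent.Helper15.BergerTools
import Cfsg.Agent.Helper15.BergerB1
import Cfsg.Agent.Helper75.CliffordCorr
import Cfsg.Agent.Helper83.S4504REDa

/-!
# S4705, piece RED (helper72), part a: the normal closure `H` of an element `x` of order `p`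
(`p ∥ |H|`, every normal subgroup of `H` containing `x` is `H`, `⟨x⟩` not normal) with a faithful
character of degree `p - 2` is perfect (Ito, S4468), and every irreducible character of `H` not
trivial on `x` has degree at least `(p - 1) / 2` (S4503 on the quotient by its kernel).
-/

set_option autoImplicit false
set_option linter.style.haveILetI false

universe u

namespace Cfsg.Agent.Helper72

open Cfsg

/-- perfectness -/
theorem red72_perf {H : Type u} [Group H] [Finite H] (p : ℕ) [Fact p.Prime] (x : H)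
    (hx : orderOf x = p) (hsq : ¬ p ^ 2 ∣ Nat.card H)
    (htop : ∀ L : Subgroup H, L.Normal → x ∈ L → L = ⊤)
    (hnn : ¬ (Subgroup.zpowers x).Normal) (χ : H → ℂ) (hχ : Cfsg.IsCharacter H χ)
    (hfaith : ∀ g : H, χ g = χ 1 → g = 1) (hdeg : Cfsg.charDegree χ + 2 = p) :
    commutator H = ⊤ := by
  have hp : p.Prime := Fact.out
  have hLn : (commutator H).Normal := inferInstance
  apply htop _ hLn
  by_contra hxL
  have hcop := Helper83.red83_coprime p hsq x hx (commutator H) hLn hxL
  have hsolQ : Group.IsSolvable (H ⧸ commutator H) :=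
    (inferInstance : Group.IsSolvable (Abelianization H))
  have hps : Cfsg.IsPSolvable p H :=
    Helper63.PSolv.isPSolvable_extension (commutator H) (Or.inr hcop)
      (Helper63.PSolv.isPSolvable_of_isSolvable p (H ⧸ commutator H) hsolQ)
  have hxpg : IsPGroup p (Subgroup.zpowers x) := by
    apply IsPGroup.of_card (n := 1)
    rw [Nat.card_zpowers, hx, pow_one]
  obtain ⟨P, hP⟩ := hxpg.exists_le_sylow
  have hPn : (P : Subgroup H).Normal := by
    by_contra hPn
    obtain ⟨h1, -, -⟩ := Cfsg.Agent.S4468.result χ hχ hfaith (Cfsg.charDegree χ) rfl p hp hps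
      (by omega) P hPn
    omega
  have hPeq : Subgroup.zpowers x = (P : Subgroup H) := by
    apply Subgroup.eq_of_le_of_card_ge hP
    rw [Nat.card_zpowers, hx]
    obtain ⟨k, hk⟩ := IsPGroup.iff_card.mp P.2
    have hdvd : p ^ k ∣ Nat.card H := by
      rw [← hk]
      exact Subgroup.card_subgroup_dvd_card _
    have hk2 : k < 2 := by
      by_contra hcon
      exact hsq ((pow_dvd_pow p (by omega)).trans hdvd)
    rw [hk]
    calc p ^ k ≤ p ^ 1 := Nat.pow_le_pow_right hp.pos (by omega)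
      _ = p := pow_one p
  apply hnn
  rw [hPeq]
  exact hPn

/-- the degree bound for irreducible characters of `H` not trivial on `x` -/
theorem red72_deg {H : Type u} [Group H] [Finite H] (p : ℕ) [Fact p.Prime] (x : H)
    (hx : orderOf x = p) (hsq : ¬ p ^ 2 ∣ Nat.card H)
    (htop : ∀ L : Subgroup H, L.Normal → x ∈ L → L = ⊤) (hperf : commutator H = ⊤)
    (ξ : H → ℂ) (hξ : Cfsg.IsIrrCharacter H ξ) (hξx : ξ x ≠ ξ 1) :
    p ≤ 2 * Cfsg.charDegree ξ + 1 := by
  classical
  have hp : p.Prime := Fact.out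
  obtain ⟨N, hNn, hN⟩ := Helper80.isCharacter_ker (Helper15.isChar_of_irr hξ)
  haveI := hNn
  have hxN : x ∉ N := fun h => hξx ((hN x).mp h)
  obtain ⟨ψ, hψ, hψv⟩ := Helper79.exists_irr_deflation N hξ (fun y hy => (hN y).mp hy)
  have hψf : ∀ q : H ⧸ N, ψ q = ψ 1 → q = 1 := by
    intro q hq
    obtain ⟨g, rfl⟩ := QuotientGroup.mk_surjective q
    rw [QuotientGroup.eq_one_iff]
    apply (hN g).mpr
    rw [← hψv g, ← hψv 1]
    exact hq
  have hcard : Nat.card H = Nat.card (H ⧸ N) * Nat.card N :=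
    Subgroup.card_eq_card_quotient_mul_card_subgroup N
  have hcopN : (Nat.card N).Coprime p := Helper83.red83_coprime p hsq x hx N hNn hxN
  have hpH : p ∣ Nat.card H := by
    rw [← hx]
    exact orderOf_dvd_natCard x
  have hdivQ : p ∣ Nat.card (H ⧸ N) := by
    rw [hcard] at hpH
    exact (Nat.Coprime.dvd_mul_right hcopN.symm).mp hpH
  have hsqQ : ¬ p ^ 2 ∣ Nat.card (H ⧸ N) := by
    intro hd
    apply hsq
    rw [hcard]
    exact Dvd.dvd.mul_right hd _
  have hxq1 : ((x : H) : H ⧸ N) ≠ 1 := by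
    rw [Ne, QuotientGroup.eq_one_iff]
    exact hxN
  have hxqo : orderOf ((x : H) : H ⧸ N) = p := by
    have h1 : orderOf ((x : H) : H ⧸ N) ∣ p := by
      apply orderOf_dvd_of_pow_eq_one
      rw [← QuotientGroup.mk_pow, ← hx, pow_orderOf_eq_one]
      rfl
    rcases (Nat.dvd_prime hp).mp h1 with h2 | h2
    · exact absurd (orderOf_eq_one_iff.mp h2) hxq1
    · exact h2
  have hnnQ : ∀ M : Subgroup (H ⧸ N), M.Normal → Nat.card M ≠ p := by
    intro M hMn hMp
    have hpM : p ∣ Nat.card M := by rw [hMp]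
    obtain ⟨y, hy⟩ := exists_prime_orderOf_dvd_card' p hpM
    have hy' : orderOf (y : H ⧸ N) = p := by
      rw [Subgroup.orderOf_coe]
      exact hy
    obtain ⟨g, hgc⟩ := Helper83.red83_conj p hsqQ (y : H ⧸ N) ((x : H) : H ⧸ N) hy' hxqo
    have h1 : g * ((x : H) : H ⧸ N) * g⁻¹ ∈ M := (Subgroup.zpowers_le.mpr y.2) hgc
    have h2 := hMn.conj_mem _ h1 g⁻¹
    have h3 : g⁻¹ * (g * ((x : H) : H ⧸ N) * g⁻¹) * g⁻¹⁻¹ = ((x : H) : H ⧸ N) := by group
    rw [h3] at h2
    obtain ⟨M', hM'⟩ : ∃ M' : Subgroup H, M' = M.comap (QuotientGroup.mk' N) := ⟨_, rfl⟩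
    have hM'n : M'.Normal := by
      rw [hM']
      exact hMn.comap _
    have hxM' : x ∈ M' := by
      rw [hM', Subgroup.mem_comap]
      exact h2
    have hM'top := htop M' hM'n hxM'
    have hMtop : M = ⊤ := by
      rw [eq_top_iff]
      intro q _
      obtain ⟨g', rfl⟩ := QuotientGroup.mk_surjective q
      have h4 : g' ∈ M' := by
        rw [hM'top]
        trivial
      rw [hM', Subgroup.mem_comap] at h4
      exact h4
    have hcardQ : Nat.card (H ⧸ N) = p := by
      rw [← hMp, hMtop, Subgroup.card_top]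
    haveI : IsCyclic (H ⧸ N) := isCyclic_of_prime_card hcardQ
    obtain ⟨c, hc⟩ := IsCyclic.exists_generator (α := H ⧸ N)
    have hle : commutator H ≤ N := by
      rw [commutator_def, Subgroup.commutator_le]
      intro a _ b _
      rw [← QuotientGroup.eq_one_iff]
      obtain ⟨i, hi⟩ := Subgroup.mem_zpowers_iff.mp (hc (a : H ⧸ N))
      obtain ⟨j, hj⟩ := Subgroup.mem_zpowers_iff.mp (hc (b : H ⧸ N))
      show ((a * b * a⁻¹ * b⁻¹ : H) : H ⧸ N) = 1
      rw [QuotientGroup.mk_mul, QuotientGroup.mk_mul, QuotientGroup.mk_mul, QuotientGroup.mk_inv,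
        QuotientGroup.mk_inv, ← hi, ← hj]
      rw [← zpow_add, ← zpow_neg, ← zpow_add, ← zpow_neg, ← zpow_add]
      have h0 : i + j + -i + -j = 0 := by ring
      rw [h0, zpow_zero]
    apply hxN
    have hNtop : N = ⊤ := by
      rw [eq_top_iff, ← hperf]
      exact hle
    rw [hNtop]
    trivial
  have hS := Cfsg.Agent.S4503.result p hp hdivQ hsqQ hnnQ ψ (Helper15.isChar_of_irr hψ) hψf
  have hψdeg : Cfsg.charDegree ψ = Cfsg.charDegree ξ := by
    unfold Cfsg.charDegree
    rw [← hψv 1]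
    rfl
  rw [hψdeg] at hS
  exact hS

end Cfsg.Agent.Helper72
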