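import Mathlib
import Cfsg.Prelude.Def_Characters
import Cfsg.Prelude.Def_Blocks
import Cfsg.Prelude.Def_Local
import Cfsg.Agent.Helper79.S4705Defs
import Cfsg.Agent.Helper79.Basic
import Cfsg.Agent.Helper80.CharIrr
import Cfsg.Agent.Helper15.BergerTools
import Cfsg.Agent.Helper15.BergerB1
import Cfsg.Agent.Helper75.CliffordCorr
import Cfsg.Agent.Helper83.S4504REDa
import Cfsg.Agent.Helper72.S4705REDa

/-!
# S4705, piece RED (helper72): reduction to the normal closure `H` of a Sylow `p`-subgroup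

`H` is perfect, `ζ` restricted to `H` is irreducible (Clifford: the trivial character of `H` is
not a constituent; every other constituent has degree at least `(p - 1) / 2`), and
`G = H N_G(⟨x⟩)`.
-/

set_option autoImplicit false
set_option linter.style.haveILetI false
open Cfsg Cfsg.Agent.Helper79
open scoped ComplexConjugate

universe u

namespace Cfsg.Agent.Helper72

/-- Clifford: a constant irreducible character of the normal subgroup `H` is not a constituent of
the restriction of an irreducible character of `G` which is not constant on `H`. -/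
theorem red72_notriv {G : Type u} [Group G] [Fintype G] (H : Subgroup G) [H.Normal] [Fintype H]
    (ζ : G → ℂ) (hζ : Cfsg.IsIrrCharacter G ζ) (y : H) (hy : ζ (y : G) ≠ ζ 1) (φ : H → ℂ)
    (hφ : Cfsg.IsIrrCharacter H φ) (hconst : ∀ h : H, φ h = φ 1) :
    Cfsg.classInner (fun h : H => ζ (h : G)) φ = 0 := by
  classical
  by_contra hne
  have hcl := Helper75.clifford_restrict H hζ hφ hne
  have hS : {ψ : H → ℂ | ∃ g : G, ψ = Helper75.conjFun H g φ} = {φ} := by
    ext ψ
    simp only [Set.mem_ofPred_eq, Set.mem_singleton_iff]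
    constructor
    · rintro ⟨g, rfl⟩
      funext h
      rw [Helper75.conjFun_apply, hconst, hconst h]
    · rintro rfl
      exact ⟨1, (Helper75.conjFun_one H ψ).symm⟩
  rw [hS, finsum_mem_singleton] at hcl
  apply hy
  have h1 := congrFun hcl y
  have h2 := congrFun hcl 1
  simp only [Pi.smul_apply] at h1 h2
  have h3 : ζ (y : G) = ζ ((1 : H) : G) := by
    rw [h1, h2, hconst y]
  exact h3

/-- the restriction of `ζ` to `H` is irreducible -/
theorem red72_irr {G : Type u} [Group G] [Finite G] (p : ℕ) [Fact p.Prime] (H : Subgroup G)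
    [H.Normal] (x : H) (hx : orderOf x = p) (hsq : ¬ p ^ 2 ∣ Nat.card H)
    (htop : ∀ L : Subgroup H, L.Normal → x ∈ L → L = ⊤) (hperf : commutator H = ⊤)
    (ζ : G → ℂ) (hζ : Cfsg.IsIrrCharacter G ζ) (hfaith : ∀ g : G, ζ g = ζ 1 → g = 1)
    (hdeg : Cfsg.charDegree ζ + 2 = p) :
    Cfsg.IsIrrCharacter H (fun h : H => ζ (h : G)) := by
  classical
  have hp : p.Prime := Fact.out
  haveI : Fintype G := Fintype.ofFinite G
  haveI : Fintype H := Fintype.ofFinite H
  haveI : Fintype (Cfsg.IrrCharacter H) := Fintype.ofFinite _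
  obtain ⟨χ, hχdef⟩ : ∃ χ : H → ℂ, χ = fun h : H => ζ (h : G) := ⟨_, rfl⟩
  have hχ : Cfsg.IsCharacter H χ := by
    rw [hχdef]
    exact Helper79.isCharacter_restrict (Helper80.isCharacter_of_irr hζ) H
  have hdegH : Cfsg.charDegree χ + 2 = p := by
    rw [hχdef]
    exact hdeg
  have hx1 : x ≠ 1 := by
    rintro rfl
    rw [orderOf_one] at hx
    exact hp.one_lt.ne hx
  have hζx : ζ (x : G) ≠ ζ 1 := fun h => hx1 (Subtype.ext (hfaith _ h))
  obtain ⟨m, hm, hdec⟩ := Helper15.char_decomp χ hχ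
  have hval : ∀ g, χ g = ∑ φ : Cfsg.IrrCharacter H, (m φ : ℂ) * (φ : H → ℂ) g := by
    intro g
    conv_lhs => rw [hdec]
    simp [Finset.sum_apply]
  -- a constituent nontrivial on `x`
  obtain ⟨ξ, hmξ, hξx⟩ : ∃ ξ : Cfsg.IrrCharacter H, m ξ ≠ 0 ∧
      (ξ : H → ℂ) x ≠ (ξ : H → ℂ) 1 := by
    by_contra hcon
    apply hζx
    have h1 : χ x = χ 1 := by
      rw [hval x, hval 1]
      apply Finset.sum_congr rfl
      intro φ _
      by_cases hm0 : m φ = 0
      · rw [hm0, Nat.cast_zero, zero_mul, zero_mul]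
      · congr 1
        by_contra hne
        exact hcon ⟨φ, hm0, hne⟩
    rw [hχdef] at h1
    exact h1
  have hB : ∀ φ : Cfsg.IrrCharacter H, (φ : H → ℂ) x ≠ (φ : H → ℂ) 1 →
      p ≤ 2 * Cfsg.charDegree (φ : H → ℂ) + 1 :=
    fun φ h => red72_deg p x hx hsq htop hperf (φ : H → ℂ) φ.2 h
  have hC : ∀ φ : Cfsg.IrrCharacter H, (φ : H → ℂ) x = (φ : H → ℂ) 1 → m φ = 0 := by
    intro φ hφx
    obtain ⟨N, hNn, hN⟩ := Helper80.isCharacter_ker (Helper15.isChar_of_irr φ.2)
    have hNtop := htop N hNn ((hN x).mpr hφx)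
    have hconst : ∀ h : H, (φ : H → ℂ) h = (φ : H → ℂ) 1 := by
      intro h
      apply (hN h).mp
      rw [hNtop]
      trivial
    have h0 := red72_notriv H ζ hζ x hζx (φ : H → ℂ) φ.2 hconst
    have h1 := hm φ
    rw [hχdef, h0] at h1
    exact_mod_cast h1.symm
  have hdegsum : Cfsg.charDegree χ =
      ∑ φ : Cfsg.IrrCharacter H, m φ * Cfsg.charDegree (φ : H → ℂ) := by
    have h1 := hval 1
    rw [Helper80.isCharacter_one_eq hχ] at h1
    have h2 : ((Cfsg.charDegree χ : ℕ) : ℂ) =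
        ((∑ φ : Cfsg.IrrCharacter H, m φ * Cfsg.charDegree (φ : H → ℂ) : ℕ) : ℂ) := by
      rw [h1]
      push_cast
      apply Finset.sum_congr rfl
      intro φ _
      rw [Helper80.irr_one_eq φ]
    exact_mod_cast h2
  have hξB := hB ξ hξx
  have hzero : ∀ φ : Cfsg.IrrCharacter H, φ ≠ ξ → m φ = 0 := by
    intro φ hφ
    by_contra hne
    have hφx : (φ : H → ℂ) x ≠ (φ : H → ℂ) 1 := fun h => hne (hC φ h)
    have hφB := hB φ hφx
    have h1 : m ξ * Cfsg.charDegree (ξ : H → ℂ) + m φ * Cfsg.charDegree (φ : H → ℂ) ≤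
        ∑ φ : Cfsg.IrrCharacter H, m φ * Cfsg.charDegree (φ : H → ℂ) := by
      rw [← Finset.add_sum_erase Finset.univ _ (Finset.mem_univ ξ)]
      apply Nat.add_le_add_left
      exact Finset.single_le_sum
        (f := fun φ : Cfsg.IrrCharacter H => m φ * Cfsg.charDegree (φ : H → ℂ))
        (fun _ _ => Nat.zero_le _) (Finset.mem_erase.mpr ⟨hφ, Finset.mem_univ φ⟩)
    have h2 : Cfsg.charDegree (ξ : H → ℂ) ≤ m ξ * Cfsg.charDegree (ξ : H → ℂ) :=
      Nat.le_mul_of_pos_left _ (Nat.pos_of_ne_zero hmξ)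
    have h3 : Cfsg.charDegree (φ : H → ℂ) ≤ m φ * Cfsg.charDegree (φ : H → ℂ) :=
      Nat.le_mul_of_pos_left _ (Nat.pos_of_ne_zero hne)
    rw [← hdegsum] at h1
    omega
  have hm1 : m ξ = 1 := by
    have h1 : m ξ * Cfsg.charDegree (ξ : H → ℂ) ≤
        ∑ φ : Cfsg.IrrCharacter H, m φ * Cfsg.charDegree (φ : H → ℂ) :=
      Finset.single_le_sum
        (f := fun φ : Cfsg.IrrCharacter H => m φ * Cfsg.charDegree (φ : H → ℂ))
        (fun _ _ => Nat.zero_le _) (Finset.mem_univ ξ)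
    rw [← hdegsum] at h1
    by_contra hne
    have h2 : 2 ≤ m ξ := by omega
    have h3 : 2 * Cfsg.charDegree (ξ : H → ℂ) ≤ m ξ * Cfsg.charDegree (ξ : H → ℂ) :=
      Nat.mul_le_mul_right _ h2
    omega
  have hfin : χ = (ξ : H → ℂ) := by
    rw [hdec, Finset.sum_eq_single ξ]
    · rw [hm1, Nat.cast_one, one_smul]
    · intro φ _ hφ
      rw [hzero φ hφ, Nat.cast_zero, zero_smul]
    · intro h
      exact absurd (Finset.mem_univ _) h
  rw [← hχdef, hfin]
  exact ξ.2

/-- RED -/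
theorem s4705_red {G : Type u} [Group G] [Finite G] (p : ℕ) [Fact p.Prime] (hp : 5 < p)
    (P : Sylow p G) (hP : Nat.card P = p) (hnn : ¬ (P : Subgroup G).Normal) (ζ : G → ℂ)
    (hζ : Cfsg.IsIrrCharacter G ζ) (hfaith : ∀ g : G, ζ g = ζ 1 → g = 1)
    (hdeg : Cfsg.charDegree ζ = p - 2) :
    ∃ (H : Subgroup G) (x : H), H.Normal ∧ commutator H = ⊤ ∧
      S4705Wk p x (fun h : H => ζ (h : G)) ∧ S4705Wk p (x : G) ζ ∧
      (∀ g : G, ∃ h ∈ H, ∃ n : G,
        n * (x : G) * n⁻¹ ∈ Subgroup.zpowers (x : G) ∧ g = h * n) := by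
  have hpp : p.Prime := Fact.out
  have hdeg2 : Cfsg.charDegree ζ + 2 = p := by omega
  -- a generator of `P`
  have hdivP : p ∣ Nat.card (P : Subgroup G) := by rw [hP]
  obtain ⟨y, hy⟩ := exists_prime_orderOf_dvd_card' p hdivP
  obtain ⟨x₀, hx₀⟩ : ∃ x₀ : G, x₀ = (y : G) := ⟨_, rfl⟩
  have hx : orderOf x₀ = p := by
    rw [hx₀, Subgroup.orderOf_coe]
    exact hy
  have hzP : Subgroup.zpowers x₀ = (P : Subgroup G) := by
    apply Subgroup.eq_of_le_of_card_ge
    · rw [Subgroup.zpowers_le, hx₀]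
      exact y.2
    · rw [Nat.card_zpowers, hx]
      exact hP.le
  have hsq : ¬ p ^ 2 ∣ Nat.card G := by
    intro hd
    have h1 := P.card_eq_multiplicity
    rw [hP] at h1
    have h2 : (Nat.card G).factorization p = 1 := by
      have h3 : p ^ (Nat.card G).factorization p = p ^ 1 := by rw [← h1, pow_one]
      exact Nat.pow_right_injective hpp.two_le h3
    have h4 := (hpp.pow_dvd_iff_le_factorization (Nat.card_pos.ne')).mp hd
    omega
  have hnnG : ∀ K : Subgroup G, K.Normal → Nat.card K ≠ p := by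
    intro K hK hKp
    have hKpg : IsPGroup p K := IsPGroup.of_card (n := 1) (by rw [hKp, pow_one])
    obtain ⟨Q, hQ⟩ := hKpg.exists_le_sylow
    have hcQ : Nat.card (Q : Subgroup G) = p := by
      rw [Q.card_eq_multiplicity, ← P.card_eq_multiplicity]
      exact hP
    have hKQ : K = (Q : Subgroup G) := Subgroup.eq_of_le_of_card_ge hQ (by rw [hcQ, hKp])
    haveI hQn : (Q : Subgroup G).Normal := hKQ ▸ hK
    obtain ⟨g, hg⟩ := MulAction.exists_smul_eq G Q P
    have hQP : Q = P := by rw [← hg, Sylow.smul_eq_of_normal]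
    apply hnn
    rw [← hQP]
    exact hQn
  obtain ⟨H, hH⟩ : ∃ H : Subgroup G, H = Subgroup.normalClosure ({x₀} : Set G) := ⟨_, rfl⟩
  have hHn : H.Normal := by
    rw [hH]
    exact Subgroup.normalClosure_normal
  haveI := hHn
  have hxH : x₀ ∈ H := by
    rw [hH]
    exact Subgroup.subset_normalClosure (Set.mem_singleton x₀)
  obtain ⟨x, hxx⟩ : ∃ x : H, (x : G) = x₀ := ⟨⟨x₀, hxH⟩, rfl⟩
  have hox : orderOf x = p := by
    rw [← Subgroup.orderOf_coe, hxx]
    exact hx
  have hsqH : ¬ p ^ 2 ∣ Nat.card H :=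
    fun hd => hsq (hd.trans (Subgroup.card_subgroup_dvd_card H))
  have htop : ∀ L : Subgroup H, L.Normal → x ∈ L → L = ⊤ :=
    fun L hL hxL => Helper83.red83_htop p hsq x₀ hx H hH x hxx L hL hxL
  have hnnH : ¬ (Subgroup.zpowers x).Normal := Helper83.red83_hnn p hsq hnnG x₀ hx H hH x hxx
  have hχH : Cfsg.IsCharacter H (fun h : H => ζ (h : G)) :=
    Helper79.isCharacter_restrict (Helper80.isCharacter_of_irr hζ) H
  have hfaithH : ∀ g : H, (fun h : H => ζ (h : G)) g = (fun h : H => ζ (h : G)) 1 → g = 1 :=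
    fun g hg => Subtype.ext (hfaith g hg)
  have hdegH : Cfsg.charDegree (fun h : H => ζ (h : G)) + 2 = p := hdeg2
  have hperf : commutator H = ⊤ :=
    red72_perf p x hox hsqH htop hnnH (fun h : H => ζ (h : G)) hχH hfaithH hdegH
  have hirr : Cfsg.IsIrrCharacter H (fun h : H => ζ (h : G)) :=
    red72_irr p H x hox hsqH htop hperf ζ hζ hfaith hdeg2
  refine ⟨H, x, hHn, hperf, ⟨hp, hox, hsqH, hnnH, hirr, hfaithH, hdegH⟩, ⟨hp, ?_, hsq, ?_, hζ,
    hfaith, hdeg2⟩, ?_⟩
  · rw [hxx]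
    exact hx
  · rw [hxx, hzP]
    exact hnn
  · intro g
    rw [hxx]
    exact Helper83.red83_frat p hsq x₀ hx H hH g

end Cfsg.Agent.Helper72
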