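import Mathlib
import Cfsg.Agent.Helper79.S4705Defs
import Cfsg.Agent.Helper15.B42Main
import Cfsg.Agent.Helper74.S4504CEN

/-!
# S4705SH (sub-CALL of helper45 for piece SHAPE of S4705), piece D1 (helper72)
-/

set_option autoImplicit false
set_option linter.style.haveILetI false
open Cfsg Cfsg.Agent.Helper77 Cfsg.Agent.Helper15
open scoped ComplexConjugate

universe u

namespace Cfsg.Agent.Helper72.S4705SHD1

variable {H : Type u} [Group H] [Finite H]

/-- PIECE D1 -/
theorem sh_d1 (p : ℕ) [Fact p.Prime] (x : H) (hx : orderOf x = p)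
    (hsq : ¬ p ^ 2 ∣ Nat.card H) : ∃ K : Subgroup H, D1Hyp p x K := by
  classical
  have hp : p.Prime := Fact.out
  haveI : Fintype H := Fintype.ofFinite H
  have hxpg : IsPGroup p (Subgroup.zpowers x) :=
    IsPGroup.of_card (n := 1) (by rw [Nat.card_zpowers, hx, pow_one])
  obtain ⟨P, hPle⟩ := hxpg.exists_le_sylow
  have hn0 : Nat.card H ≠ 0 := Nat.card_pos.ne'
  have hdiv : p ∣ Nat.card H := by
    rw [← hx]
    exact orderOf_dvd_natCard x
  have hP : Nat.card P = p := by
    have h1 : 1 ≤ (Nat.card H).factorization p := by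
      rw [← hp.pow_dvd_iff_le_factorization hn0, pow_one]; exact hdiv
    have h2 : ¬ 2 ≤ (Nat.card H).factorization p := by
      rw [← hp.pow_dvd_iff_le_factorization hn0]; exact hsq
    rw [Sylow.card_eq_multiplicity]
    have h3 : (Nat.card H).factorization p = 1 := by omega
    rw [h3, pow_one]
  have hxP : x ∈ (P : Subgroup H) := hPle (Subgroup.mem_zpowers x)
  have hx1 : x ≠ 1 := by
    rintro rfl
    rw [orderOf_one] at hx
    exact hp.one_lt.ne hx
  obtain ⟨K, hK, -, -, hC⟩ := Cfsg.Agent.Helper79.s4441_K P hP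
  exact ⟨K, ⟨hx, hK, hC x hxP hx1, hsq⟩⟩

end Cfsg.Agent.Helper72.S4705SHD1
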