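import Mathlib
import Cfsg.Agent.Helper79.S4705Defs
import Cfsg.Agent.Helper15.B42Main
import Cfsg.Agent.Helper74.S4504CEN
import Cfsg.Agent.Helper72.S4705BSTAB

/-!
# S4705SH (sub-CALL of helper45 for piece SHAPE of S4705), piece UNITS (helper72)
-/

set_option autoImplicit false
set_option linter.style.haveILetI false
open Cfsg Cfsg.Agent.Helper77 Cfsg.Agent.Helper15
open scoped ComplexConjugate

universe u

namespace Cfsg.Agent.Helper72.S4705SHUNITS

variable {H : Type u} [Group H] [Finite H]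

/-- PIECE UNITS -/
theorem sh_units (p : ℕ) [Fact p.Prime] (hp2 : 2 < p) (x : H) (hx : orderOf x = p)
    (F : Subgroup (ZMod p)ˣ) (hF : (F : Set (ZMod p)ˣ) = normUnits p x)
    (hF2 : Nat.card F = 2) :
    (∃ t : H, t * x * t⁻¹ = x⁻¹) ∧
    (∀ n : H, n * x * n⁻¹ ∈ Subgroup.zpowers x → n * x * n⁻¹ = x ∨ n * x * n⁻¹ = x⁻¹) := by
  have hp : p.Prime := Fact.out
  haveI : NeZero p := ⟨hp.ne_zero⟩
  have hx1 : x ≠ 1 := by
    rintro rfl
    rw [orderOf_one] at hx
    exact hp.one_lt.ne hx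
  -- elements of `F` are `± 1`
  have hFpm : ∀ v : (ZMod p)ˣ, v ∈ F → v = 1 ∨ v = -1 := by
    intro v hv
    have h1 : orderOf (⟨v, hv⟩ : F) ∣ Nat.card F := orderOf_dvd_natCard _
    rw [hF2, orderOf_dvd_iff_pow_eq_one] at h1
    have h2 : v ^ 2 = 1 := by
      have h3 := congrArg Subtype.val h1
      simpa using h3
    have h4 : (v : ZMod p) * (v : ZMod p) = 1 := by
      have h5 := congrArg (fun u : (ZMod p)ˣ => (u : ZMod p)) h2
      simp only [Units.val_pow_eq_pow_val, Units.val_one] at h5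
      rw [← sq]
      exact h5
    rcases mul_self_eq_one_iff.mp h4 with h6 | h6
    · left
      exact Units.ext h6
    · right
      apply Units.ext
      rw [Units.val_neg, Units.val_one]
      exact h6
  -- `-1 ∈ F`
  have hneg : (-1 : (ZMod p)ˣ) ∈ F := by
    have h2 : (2 : ℕ) ∣ Nat.card F := by rw [hF2]
    haveI : Fact (Nat.Prime 2) := ⟨Nat.prime_two⟩
    obtain ⟨v, hv⟩ := exists_prime_orderOf_dvd_card' 2 h2
    have hv1 : (v : (ZMod p)ˣ) ≠ 1 := by
      intro h3
      have h4 : v = 1 := Subtype.ext h3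
      rw [h4, orderOf_one] at hv
      omega
    rcases hFpm (v : (ZMod p)ˣ) v.2 with h5 | h5
    · exact absurd h5 hv1
    · rw [← h5]
      exact v.2
  constructor
  · have h1 : (-1 : (ZMod p)ˣ) ∈ normUnits p x := by
      rw [← hF]
      exact hneg
    obtain ⟨t, ht⟩ := h1
    refine ⟨t, ?_⟩
    rw [ht]
    exact (Cfsg.Agent.Helper72.stab72_neg p x hx (-1)).mpr rfl
  · intro n hn
    rw [← mem_powers_iff_mem_zpowers, Submonoid.mem_powers_iff] at hn
    obtain ⟨m, hm⟩ := hn
    have hpm : ¬ p ∣ m := by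
      intro hd
      rw [← hx, orderOf_dvd_iff_pow_eq_one] at hd
      rw [hd] at hm
      apply hx1
      have h2 : x = n⁻¹ * (n * x * n⁻¹) * n := by group
      rw [h2, ← hm]
      group
    have hm0 : (m : ZMod p) ≠ 0 := fun h0 => hpm ((ZMod.natCast_eq_zero_iff m p).mp h0)
    obtain ⟨u, hu⟩ : ∃ u : (ZMod p)ˣ, (u : ZMod p) = (m : ZMod p) := ⟨Units.mk0 _ hm0, rfl⟩
    have hpow : x ^ (u : ZMod p).val = n * x * n⁻¹ := by
      rw [hu, ZMod.val_natCast, ← hm]
      have h3 := pow_mod_orderOf x m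
      rw [hx] at h3
      exact h3
    have huF : u ∈ F := by
      have h4 : u ∈ normUnits p x := ⟨n, hpow.symm⟩
      rw [← hF] at h4
      exact h4
    rcases hFpm u huF with h5 | h5
    · left
      rw [← hpow]
      exact (Cfsg.Agent.Helper72.stab72_one p x hx u).mpr h5
    · right
      rw [← hpow]
      exact (Cfsg.Agent.Helper72.stab72_neg p x hx u).mpr h5

end Cfsg.Agent.Helper72.S4705SHUNITS
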