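import Mathlib

/-!
# CALL S5981 (helper98), piece ARO (helper72)

`arith_odd` and the arithmetic toolkit shared with AREP / AREM:
`∏_{i<n} (q^n - q^i) = q^(∑ i) * ∏_{j<n} (q^(j+1) - 1)` and the even/odd splitting.
-/

set_option autoImplicit false

namespace Cfsg.Agent.Helper72.THARO

/-- `∏_{i<n} (q^n - q^i) = q^(∑_{i<n} i) * ∏_{j<n} (q^(j+1) - 1)`. -/
theorem prod_fin_eq (q n : ℕ) :
    ∏ i : Fin n, (q ^ n - q ^ (i : ℕ)) =
      q ^ (∑ i ∈ Finset.range n, i) * ∏ j ∈ Finset.range n, (q ^ (j + 1) - 1) := by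
  rw [Fin.prod_univ_eq_prod_range (fun i => q ^ n - q ^ i) n]
  have h1 : ∀ i ∈ Finset.range n, q ^ n - q ^ i = q ^ i * (q ^ (n - i) - 1) := by
    intro i hi
    have hi' := Finset.mem_range.mp hi
    rw [Nat.mul_sub, mul_one, ← pow_add]
    congr 2
    omega
  rw [Finset.prod_congr rfl h1, Finset.prod_mul_distrib, Finset.prod_pow_eq_pow_sum]
  congr 1
  rw [← Finset.prod_range_reflect (fun j => q ^ (j + 1) - 1) n]
  apply Finset.prod_congr rfl
  intro j hj
  have hj' := Finset.mem_range.mp hj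
  congr 2
  omega

/-- Splitting `∏_{j<2m+1} (q^(j+1) - 1)` into even and odd exponents. -/
theorem prod_split_odd (q m : ℕ) :
    ∏ j ∈ Finset.range (2 * m + 1), (q ^ (j + 1) - 1) =
      (∏ i ∈ Finset.range m, (q ^ (2 * (i + 1)) - 1)) *
        ∏ i ∈ Finset.range (m + 1), (q ^ (2 * i + 1) - 1) := by
  induction m with
  | zero => simp
  | succ m ih =>
    have e0 : 2 * (m + 1) + 1 = (2 * m + 1) + 1 + 1 := by ring
    rw [e0, Finset.prod_range_succ, Finset.prod_range_succ, ih,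
      Finset.prod_range_succ (fun i => q ^ (2 * (i + 1)) - 1) m,
      Finset.prod_range_succ (fun i => q ^ (2 * i + 1) - 1) (m + 1)]
    have e1 : 2 * m + 1 + 1 = 2 * (m + 1) := by ring
    rw [e1]
    ring

/-- Splitting `∏_{j<2m} (q^(j+1) - 1)` into even and odd exponents. -/
theorem prod_split_even (q m : ℕ) :
    ∏ j ∈ Finset.range (2 * m), (q ^ (j + 1) - 1) =
      (∏ i ∈ Finset.range m, (q ^ (2 * (i + 1)) - 1)) *
        ∏ i ∈ Finset.range m, (q ^ (2 * i + 1) - 1) := by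
  induction m with
  | zero => simp
  | succ m ih =>
    have e0 : 2 * (m + 1) = (2 * m) + 1 + 1 := by ring
    rw [e0, Finset.prod_range_succ, Finset.prod_range_succ, ih,
      Finset.prod_range_succ (fun i => q ^ (2 * (i + 1)) - 1) m,
      Finset.prod_range_succ (fun i => q ^ (2 * i + 1) - 1) m]
    have e1 : 2 * m + 1 + 1 = 2 * (m + 1) := by ring
    rw [e1]
    ring

/-- The cancellation core: from `2 S = r (2 A) k` and `S (q - 1) = A (B C)` with `A > 0`,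
`r ∣ B * C`. -/
theorem core_dvd (q r k S A BC : ℕ) (hA : 0 < A) (hk : 2 * S = r * (2 * A) * k)
    (hS : S * (q - 1) = A * BC) : r ∣ BC := by
  have key : (2 * A) * (r * (k * (q - 1))) = (2 * A) * BC := by
    calc (2 * A) * (r * (k * (q - 1))) = (r * (2 * A) * k) * (q - 1) := by ring
      _ = 2 * S * (q - 1) := by rw [hk]
      _ = 2 * (S * (q - 1)) := by ring
      _ = 2 * (A * BC) := by rw [hS]
      _ = (2 * A) * BC := by ring
  have key2 := Nat.eq_of_mul_eq_mul_left (by positivity) key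
  exact ⟨_, key2.symm⟩

/-- The even product is positive. -/
theorem prod_even_pos (q m : ℕ) (hq : 2 ≤ q) :
    0 < ∏ i ∈ Finset.range m, (q ^ (2 * (i + 1)) - 1) :=
  Finset.prod_pos (fun i _ => Nat.sub_pos_of_lt (Nat.one_lt_pow (by omega) (by omega)))

/-- A prime dividing the odd product divides some `q ^ j - 1` with `j` odd. -/
theorem odd_of_dvd_prod (q m r : ℕ) (hr : r.Prime)
    (h : r ∣ ∏ i ∈ Finset.range m, (q ^ (2 * i + 1) - 1)) : ∃ j, Odd j ∧ r ∣ q ^ j - 1 := by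
  obtain ⟨i, -, hdi⟩ := (hr.prime.dvd_finsetProd_iff _).mp h
  exact ⟨2 * i + 1, ⟨i, rfl⟩, hdi⟩

/-- ARO -/
theorem arith_odd (q m r : ℕ) (hq : 2 ≤ q) (hr : r.Prime) (S : ℕ)
    (hS : S * (q - 1) = ∏ i : Fin (2 * m + 1), (q ^ (2 * m + 1) - q ^ (i : ℕ)))
    (h : r * (2 * q ^ (m ^ 2) * ∏ i ∈ Finset.range m, (q ^ (2 * (i + 1)) - 1)) ∣ 2 * S) :
    r ∣ q ∨ ∃ j, Odd j ∧ r ∣ q ^ j - 1 := by
  obtain ⟨k, hk⟩ := h
  have hsum : (∑ i ∈ Finset.range (2 * m + 1), i) = m ^ 2 + (m ^ 2 + m) := by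
    have h1 := Finset.sum_range_id_mul_two (2 * m + 1)
    have e : (2 * m + 1) * (2 * m + 1 - 1) = (m ^ 2 + (m ^ 2 + m)) * 2 := by
      rw [Nat.add_sub_cancel]; ring
    omega
  rw [prod_fin_eq, prod_split_odd, hsum] at hS
  have hEpos := prod_even_pos q m hq
  have hqpos : 0 < q ^ (m ^ 2) := Nat.pow_pos (by omega)
  have hdvd : r ∣ q ^ (m ^ 2 + m) * ∏ i ∈ Finset.range (m + 1), (q ^ (2 * i + 1) - 1) := by
    refine core_dvd q r k S (q ^ (m ^ 2) * ∏ i ∈ Finset.range m, (q ^ (2 * (i + 1)) - 1)) _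
      (Nat.mul_pos hqpos hEpos) ?_ ?_
    · rw [hk]; ring
    · rw [hS, pow_add]; ring
  rcases (Nat.Prime.dvd_mul hr).mp hdvd with h1 | h1
  · exact Or.inl (hr.dvd_of_dvd_pow h1)
  · exact Or.inr (odd_of_dvd_prod q (m + 1) r hr h1)

end Cfsg.Agent.Helper72.THARO
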