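import Mathlib
import Cfsg.Agent.Helper72.THARO

/-!
# CALL S5981 (helper98), piece AREP (helper72)
-/

set_option autoImplicit false

namespace Cfsg.Agent.Helper72.THAREP

open Cfsg.Agent.Helper72.THARO

/-- `∑_{i<2(t+1)} i = (t+1) t + (t+1)^2`. -/
theorem sum_even_id (t : ℕ) :
    (∑ i ∈ Finset.range (2 * (t + 1)), i) = (t + 1) * t + (t + 1) ^ 2 := by
  have h1 := Finset.sum_range_id_mul_two (2 * (t + 1))
  have e : (2 * (t + 1)) * (2 * (t + 1) - 1) = ((t + 1) * t + (t + 1) ^ 2) * 2 := by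
    have e' : 2 * (t + 1) - 1 = 2 * t + 1 := by omega
    rw [e']; ring
  omega

/-- `q^(2(t+1)) - 1 = (q^(t+1) + 1) (q^(t+1) - 1)`. -/
theorem sq_sub_one_fac (q t : ℕ) :
    q ^ (2 * (t + 1)) - 1 = (q ^ (t + 1) + 1) * (q ^ (t + 1) - 1) := by
  have h := Nat.sq_sub_sq (q ^ (t + 1)) 1
  rw [one_pow] at h
  rw [pow_mul', h]

/-- AREP -/
theorem arith_even_plus (q m r : ℕ) (hq : 2 ≤ q) (hm : 1 ≤ m) (hr : r.Prime) (S : ℕ)
    (hS : S * (q - 1) = ∏ i : Fin (2 * m), (q ^ (2 * m) - q ^ (i : ℕ)))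
    (h : r * (2 * q ^ (m * (m - 1)) * (q ^ m - 1) *
      ∏ i ∈ Finset.range (m - 1), (q ^ (2 * (i + 1)) - 1)) ∣ 2 * S) :
    r ∣ q ∨ (∃ j, Odd j ∧ r ∣ q ^ j - 1) ∨ r ∣ q ^ m + 1 := by
  obtain ⟨t, rfl⟩ : ∃ t, m = t + 1 := ⟨m - 1, by omega⟩
  simp only [Nat.add_sub_cancel] at h
  obtain ⟨k, hk⟩ := h
  rw [prod_fin_eq, prod_split_even, sum_even_id,
    Finset.prod_range_succ (fun i => q ^ (2 * (i + 1)) - 1) t, sq_sub_one_fac] at hS
  have hEpos := prod_even_pos q t hq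
  have hqpos : 0 < q ^ ((t + 1) * t) := Nat.pow_pos (by omega)
  have hq1 : 0 < q ^ (t + 1) - 1 := Nat.sub_pos_of_lt (Nat.one_lt_pow (by omega) (by omega))
  have hdvd : r ∣ q ^ ((t + 1) ^ 2) *
      ((q ^ (t + 1) + 1) * ∏ i ∈ Finset.range (t + 1), (q ^ (2 * i + 1) - 1)) := by
    refine core_dvd q r k S (q ^ ((t + 1) * t) * (q ^ (t + 1) - 1) *
      ∏ i ∈ Finset.range t, (q ^ (2 * (i + 1)) - 1)) _
      (Nat.mul_pos (Nat.mul_pos hqpos hq1) hEpos) ?_ ?_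
    · rw [hk]; ring
    · rw [hS, pow_add]; ring
  rcases (Nat.Prime.dvd_mul hr).mp hdvd with h1 | h1
  · exact Or.inl (hr.dvd_of_dvd_pow h1)
  · rcases (Nat.Prime.dvd_mul hr).mp h1 with h2 | h2
    · exact Or.inr (Or.inr h2)
    · exact Or.inr (Or.inl (odd_of_dvd_prod q (t + 1) r hr h2))

end Cfsg.Agent.Helper72.THAREP
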