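import Mathlib
import Cfsg.Agent.Helper72.THARO
import Cfsg.Agent.Helper72.THAREP

/-!
# CALL S5981 (helper98), piece AREM (helper72)
-/

set_option autoImplicit false

namespace Cfsg.Agent.Helper72.THAREM

open Cfsg.Agent.Helper72.THARO Cfsg.Agent.Helper72.THAREP

/-- AREM -/
theorem arith_even_minus (q m r : ℕ) (hq : 2 ≤ q) (hm : 1 ≤ m) (hr : r.Prime) (S : ℕ)
    (hS : S * (q - 1) = ∏ i : Fin (2 * m), (q ^ (2 * m) - q ^ (i : ℕ)))
    (h : r * (2 * q ^ (m * (m - 1)) * (q ^ m + 1) *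
      ∏ i ∈ Finset.range (m - 1), (q ^ (2 * (i + 1)) - 1)) ∣ 2 * S) :
    r ∣ q ∨ (∃ j, Odd j ∧ r ∣ q ^ j - 1) ∨ r ∣ q ^ m - 1 := by
  obtain ⟨t, rfl⟩ : ∃ t, m = t + 1 := ⟨m - 1, by omega⟩
  simp only [Nat.add_sub_cancel] at h
  obtain ⟨k, hk⟩ := h
  rw [prod_fin_eq, prod_split_even, sum_even_id,
    Finset.prod_range_succ (fun i => q ^ (2 * (i + 1)) - 1) t, sq_sub_one_fac] at hS
  have hEpos := prod_even_pos q t hq
  have hqpos : 0 < q ^ ((t + 1) * t) := Nat.pow_pos (by omega)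
  have hq1 : 0 < q ^ (t + 1) + 1 := Nat.succ_pos _
  have hdvd : r ∣ q ^ ((t + 1) ^ 2) *
      ((q ^ (t + 1) - 1) * ∏ i ∈ Finset.range (t + 1), (q ^ (2 * i + 1) - 1)) := by
    refine core_dvd q r k S (q ^ ((t + 1) * t) * (q ^ (t + 1) + 1) *
      ∏ i ∈ Finset.range t, (q ^ (2 * (i + 1)) - 1)) _
      (Nat.mul_pos (Nat.mul_pos hqpos hq1) hEpos) ?_ ?_
    · rw [hk]; ring
    · rw [hS, pow_add]; ring
  rcases (Nat.Prime.dvd_mul hr).mp hdvd with h1 | h1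
  · exact Or.inl (hr.dvd_of_dvd_pow h1)
  · rcases (Nat.Prime.dvd_mul hr).mp h1 with h2 | h2
    · exact Or.inr (Or.inr h2)
    · exact Or.inr (Or.inl (odd_of_dvd_prod q (t + 1) r hr h2))

end Cfsg.Agent.Helper72.THAREM
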