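import Mathlib
import Cfsg.Agent.Helper13.TKDefs

/-!
# CALL S5956 (helper13), piece MODELALL, generic form (helper72)

`model_all_of`: the statement of `model_all` with the three pieces it uses (`model_one`,
`model_two`, `model_sum`) as explicit hypotheses.
-/

set_option autoImplicit false

namespace Cfsg.Agent.Helper72.TI5956

open Module Polynomial
open Cfsg.Agent.Helper42.SpForm Cfsg.Agent.Helper42.SpGroup Cfsg.Agent.Helper42.SpModels
open Cfsg.Agent.Helper13.TIsp

section sp

variable {F : Type*} [Field F]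

/-- MODELALL with `model_one` (`h1`), `model_two` (`h2'`), `model_sum` (`hs`) as hypotheses. -/
theorem model_all_of (p : ℕ)
    (h1 : ∀ n : ℕ, 1 ≤ n → 2 * n ≤ p → ∃ g : Matrix.symplecticGroup (Fin n) F,
      toEnd g ^ p = 1 ∧ JT (toEnd g - 1) ⊤ (Multiset.replicate 1 (2 * n)))
    (h2' : ∀ a : ℕ, 1 ≤ a → a ≤ p → ∃ g : Matrix.symplecticGroup (Fin a) F,
      toEnd g ^ p = 1 ∧ JT (toEnd g - 1) ⊤ (Multiset.replicate 2 a))
    (hs : ∀ (n₁ n₂ : ℕ) (g₁ : Matrix.symplecticGroup (Fin n₁) F)
      (g₂ : Matrix.symplecticGroup (Fin n₂) F), toEnd g₁ ^ p = 1 → toEnd g₂ ^ p = 1 →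
      ∀ l₁ l₂ : Multiset ℕ, JT (toEnd g₁ - 1) ⊤ l₁ → JT (toEnd g₂ - 1) ⊤ l₂ →
        ∃ g : Matrix.symplecticGroup (Fin (n₁ + n₂)) F, toEnd g ^ p = 1 ∧
          JT (toEnd g - 1) ⊤ (l₁ + l₂))
    (μ : Multiset ℕ)
    (hμ : ∀ a ∈ μ, 0 < a ∧ a ≤ p) (hodd : ∀ a : ℕ, Odd a → Even (μ.count a)) (d : ℕ)
    (hsum : μ.sum = 2 * d) :
    ∃ g : Matrix.symplecticGroup (Fin d) F, toEnd g ^ p = 1 ∧ JT (toEnd g - 1) ⊤ μ := by
  classical
  suffices H : ∀ k : ℕ, ∀ μ : Multiset ℕ, μ.card = k → (∀ a ∈ μ, 0 < a ∧ a ≤ p) →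
      (∀ a : ℕ, Odd a → Even (μ.count a)) → ∀ d : ℕ, μ.sum = 2 * d →
      ∃ g : Matrix.symplecticGroup (Fin d) F, toEnd g ^ p = 1 ∧ JT (toEnd g - 1) ⊤ μ from
    H _ μ rfl hμ hodd d hsum
  intro k
  induction k using Nat.strong_induction_on with
  | _ k ih =>
  intro μ hk hμ hodd d hsum
  by_cases hμ0 : μ = 0
  · subst hμ0
    have hd : d = 0 := by
      simp at hsum
      omega
    subst hd
    refine ⟨1, ?_, ?_⟩
    · rw [toEnd_one, one_pow]
    · intro j
      have : Subsingleton (Fin 0 ⊕ Fin 0 → F) := inferInstance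
      simp [Module.finrank_zero_of_subsingleton]
  · obtain ⟨a, ha⟩ := Multiset.exists_mem_of_ne_zero hμ0
    obtain ⟨ha0, hap⟩ := hμ a ha
    rcases Nat.even_or_odd a with hae | hao
    · -- an even part
      obtain ⟨m, hm⟩ := hae
      have hm1 : 1 ≤ m := by omega
      have h2m : 2 * m ≤ p := by omega
      have ha2 : a = 2 * m := by omega
      obtain ⟨g₁, hg₁, hJ₁⟩ := h1 m hm1 h2m
      have hμeq : μ = Multiset.replicate 1 (2 * m) + μ.erase a := by
        rw [Multiset.replicate_one, Multiset.singleton_add, ← ha2, Multiset.cons_erase ha]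
      have hsum' : (μ.erase a).sum = 2 * (d - m) := by
        have h3 : μ.sum = a + (μ.erase a).sum := by
          conv_lhs => rw [← Multiset.cons_erase ha]
          rw [Multiset.sum_cons]
        omega
      have hdm : d = m + (d - m) := by
        have h3 : μ.sum = a + (μ.erase a).sum := by
          conv_lhs => rw [← Multiset.cons_erase ha]
          rw [Multiset.sum_cons]
        omega
      have hcard : (μ.erase a).card < k := by
        rw [← hk]
        exact Multiset.card_erase_lt_of_mem ha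
      have hμ' : ∀ b ∈ μ.erase a, 0 < b ∧ b ≤ p := fun b hb => hμ b (Multiset.mem_of_mem_erase hb)
      have hodd' : ∀ b : ℕ, Odd b → Even ((μ.erase a).count b) := by
        intro b hb
        have hne : b ≠ a := by
          rintro rfl
          exact (Nat.not_even_iff_odd.mpr hb) ⟨m, hm⟩
        rw [Multiset.count_erase_of_ne hne]
        exact hodd b hb
      obtain ⟨g₂, hg₂, hJ₂⟩ := ih _ hcard (μ.erase a) rfl hμ' hodd' (d - m) hsum'
      obtain ⟨g, hg, hJ⟩ := hs m (d - m) g₁ g₂ hg₁ hg₂ _ _ hJ₁ hJ₂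
      rw [← hμeq] at hJ
      rw [hdm]
      exact ⟨g, hg, hJ⟩
    · -- an odd part occurs at least twice
      have hcnt : 2 ≤ μ.count a := by
        have h3 := Multiset.one_le_count_iff_mem.mpr ha
        obtain ⟨t, ht⟩ := hodd a hao
        omega
      have ha' : a ∈ μ.erase a := by
        rw [← Multiset.one_le_count_iff_mem, Multiset.count_erase_self]
        omega
      obtain ⟨g₁, hg₁, hJ₁⟩ := h2' a ha0 hap
      have hμeq : μ = Multiset.replicate 2 a + (μ.erase a).erase a := by
        have h3 : Multiset.replicate 2 a = a ::ₘ {a} := rfl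
        rw [h3, Multiset.cons_add, Multiset.singleton_add, Multiset.cons_erase ha',
          Multiset.cons_erase ha]
      have hsum3 : μ.sum = a + (a + ((μ.erase a).erase a).sum) := by
        conv_lhs => rw [← Multiset.cons_erase ha, ← Multiset.cons_erase ha']
        rw [Multiset.sum_cons, Multiset.sum_cons]
      have hsum' : ((μ.erase a).erase a).sum = 2 * (d - a) := by omega
      have hdm : d = a + (d - a) := by omega
      have hcard : ((μ.erase a).erase a).card < k := by
        rw [← hk]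
        exact lt_trans (Multiset.card_erase_lt_of_mem ha') (Multiset.card_erase_lt_of_mem ha)
      have hμ' : ∀ b ∈ (μ.erase a).erase a, 0 < b ∧ b ≤ p := fun b hb =>
        hμ b (Multiset.mem_of_mem_erase (Multiset.mem_of_mem_erase hb))
      have hodd' : ∀ b : ℕ, Odd b → Even (((μ.erase a).erase a).count b) := by
        intro b hb
        by_cases hba : b = a
        · subst hba
          rw [Multiset.count_erase_self, Multiset.count_erase_self]
          obtain ⟨t, ht⟩ := hodd b hb
          exact ⟨t - 1, by omega⟩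
        · rw [Multiset.count_erase_of_ne hba, Multiset.count_erase_of_ne hba]
          exact hodd b hb
      obtain ⟨g₂, hg₂, hJ₂⟩ := ih _ hcard ((μ.erase a).erase a) rfl hμ' hodd' (d - a) hsum'
      obtain ⟨g, hg, hJ⟩ := hs a (d - a) g₁ g₂ hg₁ hg₂ _ _ hJ₁ hJ₂
      rw [← hμeq] at hJ
      rw [hdm]
      exact ⟨g, hg, hJ⟩

end sp

end Cfsg.Agent.Helper72.TI5956
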