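import Mathlib
import Cfsg.Agent.Helper13.TKDefs

/-!
# CALL S5956 (helper13), piece STRUCT, generic form (helper72)

`struct_p_of`: the statement of `struct_p` with the two pieces it uses (`atom_p`, `jt_add`) as
explicit hypotheses.
-/

set_option autoImplicit false

namespace Cfsg.Agent.Helper72.TI5956

open Module Polynomial
open Cfsg.Agent.Helper42.SpForm Cfsg.Agent.Helper42.SpGroup Cfsg.Agent.Helper42.SpModels
open Cfsg.Agent.Helper13.TIsp

section geom2

variable {F : Type*} [Field F] {V : Type*} [AddCommGroup V] [Module F V] [FiniteDimensional F V]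
  (B : LinearMap.BilinForm F V)

/-- STRUCT with `atom_p` (`hatom`) and `jt_add` (`hadd`) as hypotheses. -/
theorem struct_p_of (halt : ∀ v, B v v = 0) (T : Module.End F V)
    (hT : Preserves B T) (n : ℕ) (hn : 0 < n) (hTn : T ^ n = 1) (p : ℕ)
    (hNp : (T - 1) ^ p = 0)
    (hatom : ∀ E : Submodule F V, E.map T ≤ E → NondegOn B E → E ≠ ⊥ →
      ∃ (Z : Submodule F V) (a s : ℕ), Z ≤ E ∧ Z.map T ≤ Z ∧ NondegOn B Z ∧ 0 < a ∧ a ≤ p ∧
        ((Even a ∧ s = 1) ∨ (Odd a ∧ s = 2)) ∧ JT (T - 1) Z (Multiset.replicate s a))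
    (hadd : ∀ Z₁ Z₂ : Submodule F V, (∀ v ∈ Z₁, (T - 1) v ∈ Z₁) → (∀ v ∈ Z₂, (T - 1) v ∈ Z₂) →
      Z₁ ⊓ Z₂ = ⊥ → ∀ l₁ l₂ : Multiset ℕ, JT (T - 1) Z₁ l₁ → JT (T - 1) Z₂ l₂ →
        JT (T - 1) (Z₁ ⊔ Z₂) (l₁ + l₂)) :
    ∀ (E : Submodule F V), E.map T ≤ E → NondegOn B E →
      ∃ μ : Multiset ℕ, JT (T - 1) E μ ∧ (∀ a ∈ μ, 0 < a ∧ a ≤ p) ∧
        (∀ a : ℕ, Odd a → Even (μ.count a)) ∧
        ∀ ν : Multiset ℕ, ν ≤ μ → (∀ a : ℕ, Odd a → Even (ν.count a)) →
          ∃ W : Submodule F V, W ≤ E ∧ W.map T ≤ W ∧ NondegOn B W ∧ finrank F W = ν.sum := by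
  classical
  suffices H : ∀ k : ℕ, ∀ E : Submodule F V, finrank F E = k → E.map T ≤ E → NondegOn B E →
      ∃ μ : Multiset ℕ, JT (T - 1) E μ ∧ (∀ a ∈ μ, 0 < a ∧ a ≤ p) ∧
        (∀ a : ℕ, Odd a → Even (μ.count a)) ∧
        ∀ ν : Multiset ℕ, ν ≤ μ → (∀ a : ℕ, Odd a → Even (ν.count a)) →
          ∃ W : Submodule F V, W ≤ E ∧ W.map T ≤ W ∧ NondegOn B W ∧ finrank F W = ν.sum from
    fun E hET hE => H _ E rfl hET hE
  intro k
  induction k using Nat.strong_induction_on with
  | _ k ih =>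
  intro E hk hET hE
  by_cases hE0 : E = ⊥
  · subst hE0
    refine ⟨0, ?_, ?_, ?_, ?_⟩
    · intro j
      simp
    · intro a ha
      simp at ha
    · intro a _
      simp
    · intro ν hν _
      have hν0 : ν = 0 := le_zero_iff.mp hν
      subst hν0
      refine ⟨⊥, le_rfl, ?_, ?_, ?_⟩
      · simp
      · intro v hv _
        exact (Submodule.mem_bot F).mp hv
      · simp
  · obtain ⟨Z, a, s, hZE, hZT, hZ, ha0, hap, hcase, hJZ⟩ := hatom E hET hE hE0
    obtain ⟨P, hPE, hPT, hP, hZP, hZPE, ho1, ho2, hfr⟩ :=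
      nd_perp B halt T hT n hn hTn E Z hE hZ hZE hET hZT
    have hs1 : 1 ≤ s := by
      rcases hcase with ⟨_, rfl⟩ | ⟨_, rfl⟩ <;> norm_num
    have hfZ : finrank F Z = s * a := by
      have h := hJZ p
      rw [hNp, LinearMap.ker_zero, inf_top_eq] at h
      rw [h, Multiset.map_replicate, Multiset.sum_replicate, smul_eq_mul, min_eq_left hap]
    have hlt : finrank F P < k := by
      have h1 := Nat.mul_pos hs1 ha0
      omega
    obtain ⟨μ', hJP, hμ', hodd', hsel'⟩ := ih (finrank F P) hlt P rfl hPT hP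
    have hNZ : ∀ v ∈ Z, (T - 1) v ∈ Z := by
      intro v hv
      rw [LinearMap.sub_apply, Module.End.one_apply]
      exact Z.sub_mem (hZT (Submodule.mem_map_of_mem hv)) hv
    have hNP : ∀ v ∈ P, (T - 1) v ∈ P := by
      intro v hv
      rw [LinearMap.sub_apply, Module.End.one_apply]
      exact P.sub_mem (hPT (Submodule.mem_map_of_mem hv)) hv
    have hrep : ∀ b : ℕ, Odd b → Even ((Multiset.replicate s a).count b) := by
      intro b hb
      rw [Multiset.count_replicate]
      split_ifs with hab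
      · subst hab
        rcases hcase with ⟨hae, _⟩ | ⟨_, rfl⟩
        · exact absurd hae (Nat.not_even_iff_odd.mpr hb)
        · exact even_two
      · exact Even.zero
    refine ⟨Multiset.replicate s a + μ', ?_, ?_, ?_, ?_⟩
    · rw [← hZPE]
      exact hadd Z P hNZ hNP hZP _ _ hJZ hJP
    · intro b hb
      rcases Multiset.mem_add.mp hb with h | h
      · rw [Multiset.eq_of_mem_replicate h]
        exact ⟨ha0, hap⟩
      · exact hμ' b h
    · intro b hb
      rw [Multiset.count_add]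
      exact (hrep b hb).add (hodd' b hb)
    · intro ν hν hνodd
      by_cases hmem : a ∈ ν
      · have hcnt : s ≤ ν.count a := by
          have h1 := Multiset.one_le_count_iff_mem.mpr hmem
          rcases hcase with ⟨_, rfl⟩ | ⟨hao, rfl⟩
          · exact h1
          · obtain ⟨t, ht⟩ := hνodd a hao
            omega
        have hle : Multiset.replicate s a ≤ ν := Multiset.le_count_iff_replicate_le.mp hcnt
        obtain ⟨ν', hνeq⟩ : ∃ ν' : Multiset ℕ, ν = Multiset.replicate s a + ν' :=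
          ⟨ν - Multiset.replicate s a, (add_tsub_cancel_of_le hle).symm⟩
        subst hνeq
        have hν'le : ν' ≤ μ' := (add_le_add_iff_left _).mp hν
        have hν'odd : ∀ b : ℕ, Odd b → Even (ν'.count b) := by
          intro b hb
          have h1 := hνodd b hb
          rw [Multiset.count_add] at h1
          exact (Nat.even_add.mp h1).mp (hrep b hb)
        obtain ⟨W', hW'P, hW'T, hW', hfW'⟩ := hsel' ν' hν'le hν'odd
        obtain ⟨hnd, -, hfr2⟩ := nd_sum B Z W' hZ hW'
          (fun u hu v hv => ho1 u hu v (hW'P hv)) (fun u hu v hv => ho2 u (hW'P hu) v hv)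
        refine ⟨Z ⊔ W', sup_le hZE (hW'P.trans hPE), ?_, hnd, ?_⟩
        · rw [Submodule.map_sup]
          exact sup_le_sup hZT hW'T
        · rw [hfr2, hfZ, hfW', Multiset.sum_add, Multiset.sum_replicate, smul_eq_mul]
      · have hνle : ν ≤ μ' := by
          rw [Multiset.le_iff_count]
          intro b
          have h1 := Multiset.le_iff_count.mp hν b
          rw [Multiset.count_add, Multiset.count_replicate] at h1
          split_ifs at h1 with hab
          · subst hab
            rw [Multiset.count_eq_zero_of_notMem hmem]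
            exact Nat.zero_le _
          · simpa using h1
        obtain ⟨W, hWP, hWT, hW, hfW⟩ := hsel' ν hνle hνodd
        exact ⟨W, hWP.trans hPE, hWT, hW, hfW⟩

end geom2

end Cfsg.Agent.Helper72.TI5956
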