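/-
Sub-CALL TSR2 (helper90), piece SKTYPE (double by helper72): an isometry with `M² = -1`
(`-1` a nonsquare) forces plus type iff `d` is even.  The version `r2_skew_type_of_basis` takes
the orthogonal family of piece SKBASIS as a hypothesis.
-/
import Mathlib
import Cfsg.Prelude.Def_GeometricClasses
import Cfsg.Prelude.Def_Classical
import Cfsg.Agent.Helper58.TSDefs
import Cfsg.Agent.Helper33.OTwo

set_option autoImplicit false

namespace Cfsg.Agent.Helper72.TSR2

open Module Cfsg Cfsg.Geo Cfsg.Agent.Helper58.TS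
open scoped MatrixGroups

section pieces

variable {ι : Type} [Fintype ι] [DecidableEq ι] {F : Type*} [Field F] [Fintype F]

omit [DecidableEq ι] [Fintype F] in
/-- an isometry preserves the polar form -/
theorem sk72_polar_mul (Q : (ι → F) → F) (M : Matrix ι ι F) (hM : ∀ v, Q (M.mulVec v) = Q v)
    (u w : ι → F) : QuadraticMap.polar Q (M.mulVec u) (M.mulVec w) = QuadraticMap.polar Q u w := by
  unfold QuadraticMap.polar
  rw [← Matrix.mulVec_add, hM, hM, hM]

omit [Fintype F] in
/-- `v ⊥ M v` for an isometry with `M² = -1` in odd characteristic -/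
theorem sk72_polar_self_mul (Q : (ι → F) → F) (hQ : IsNondegenerateQuadraticForm Q)
    (h2 : (2 : F) ≠ 0) (M : Matrix ι ι F) (hM : ∀ v, Q (M.mulVec v) = Q v) (hM2 : M * M = -1)
    (v : ι → F) : QuadraticMap.polar Q v (M.mulVec v) = 0 := by
  have h1 := sk72_polar_mul Q M hM v (M.mulVec v)
  rw [Matrix.mulVec_mulVec, hM2, Matrix.neg_mulVec, Matrix.one_mulVec] at h1
  have h3 : QuadraticMap.polar Q (M.mulVec v) (-v) = - QuadraticMap.polar Q (M.mulVec v) v :=
    QuadraticMap.polar_neg_right (Q := Cfsg.Agent.Helper98.op_qf Q hQ) (M.mulVec v) v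
  rw [h3, QuadraticMap.polar_comm] at h1
  have h4 : (2 : F) * QuadraticMap.polar Q v (M.mulVec v) = 0 := by linear_combination -h1
  exact (mul_eq_zero.mp h4).resolve_left h2

/-- SKTYPE from the orthogonal family of SKBASIS. -/
theorem r2_skew_type_of_basis (Q : (ι → F) → F) (hQ : IsNondegenerateQuadraticForm Q)
    (h2 : (2 : F) ≠ 0) (d : ℕ) (hd : 1 ≤ d) (hcard : Fintype.card ι = 2 * d) (M : Matrix ι ι F)
    (hM : ∀ v, Q (M.mulVec v) = Q v) (hM2 : M * M = -1) (hm1 : ¬ IsSquare (-1 : F))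
    (v : Fin d → (ι → F)) (hv : ∀ j, Q (v j) ≠ 0)
    (hvo : ∀ j l, j ≠ l → QuadraticMap.polar Q (v j) (v l) = 0 ∧
        QuadraticMap.polar Q (v j) (M.mulVec (v l)) = 0) :
    IsPlusTypeOn Q ⊤ ↔ Even d := by
  classical
  let b0 : Fin d ⊕ Fin d → (ι → F) := Sum.elim v (fun j => M.mulVec (v j))
  have hb0o : ∀ s s', s ≠ s' → QuadraticMap.polar Q (b0 s) (b0 s') = 0 := by
    rintro (i | i) (j | j) hne
    · exact (hvo i j (fun h => hne (congrArg Sum.inl h))).1
    · show QuadraticMap.polar Q (v i) (M.mulVec (v j)) = 0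
      by_cases hij : i = j
      · subst hij
        exact sk72_polar_self_mul Q hQ h2 M hM hM2 (v i)
      · exact (hvo i j hij).2
    · show QuadraticMap.polar Q (M.mulVec (v i)) (v j) = 0
      rw [QuadraticMap.polar_comm]
      by_cases hij : j = i
      · subst hij
        exact sk72_polar_self_mul Q hQ h2 M hM hM2 (v j)
      · exact (hvo j i hij).2
    · show QuadraticMap.polar Q (M.mulVec (v i)) (M.mulVec (v j)) = 0
      rw [sk72_polar_mul Q M hM]
      exact (hvo i j (fun h => hne (congrArg Sum.inr h))).1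
  have hQb0 : ∀ s, Q (b0 s) ≠ 0 := by
    rintro (i | i)
    · exact hv i
    · show Q (M.mulVec (v i)) ≠ 0
      rw [hM]
      exact hv i
  have hli : LinearIndependent F b0 :=
    Cfsg.Agent.Helper43.linIndep_of_ortho (Cfsg.Agent.Helper98.op_qf Q hQ) h2 b0 hb0o hQb0
  have hfin : Fintype.card (Fin d ⊕ Fin d) = finrank F (ι → F) := by
    rw [Fintype.card_sum, Fintype.card_fin, Module.finrank_fintype_fun_eq_card, hcard]
    omega
  have hne : Nonempty (Fin d ⊕ Fin d) := ⟨Sum.inl ⟨0, by omega⟩⟩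
  let b : Module.Basis (Fin d ⊕ Fin d) F (ι → F) :=
    basisOfLinearIndependentOfCardEqFinrank hli hfin
  have hb : ∀ s, b s = b0 s := fun s => by
    simp only [b, coe_basisOfLinearIndependentOfCardEqFinrank]
  have hgram : (Matrix.of fun s s' => QuadraticMap.polar Q (b s) (b s'))
      = Matrix.diagonal (fun s : Fin d ⊕ Fin d => 2 * Q (b0 s)) := by
    ext s s'
    rw [Matrix.of_apply, hb, hb]
    by_cases hss : s = s'
    · subst hss
      rw [Matrix.diagonal_apply_eq, Cfsg.Agent.Helper33.OFrame.polar_self Q hQ]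
    · rw [Matrix.diagonal_apply_ne _ hss, hb0o s s' hss]
  rw [Cfsg.Agent.Helper33.o_plus_iff_disc h2 Q hQ hd hcard b, hgram, Matrix.det_diagonal,
    Fintype.prod_sum_type]
  have hP : (∏ j, 2 * Q (v j)) ≠ 0 :=
    Finset.prod_ne_zero_iff.mpr (fun j _ => mul_ne_zero h2 (hv j))
  have e1 : (∏ a₁ : Fin d, 2 * Q (b0 (Sum.inl a₁))) = ∏ j, 2 * Q (v j) := rfl
  have e2 : (∏ a₂ : Fin d, 2 * Q (b0 (Sum.inr a₂))) = ∏ j, 2 * Q (v j) := by
    refine Finset.prod_congr rfl (fun j _ => ?_)
    show 2 * Q (M.mulVec (v j)) = 2 * Q (v j)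
    rw [hM]
  rw [e1, e2]
  set P := ∏ j, 2 * Q (v j) with hPdef
  constructor
  · intro hsq
    by_contra hodd
    rw [Nat.not_even_iff_odd] at hodd
    rw [hodd.neg_one_pow] at hsq
    obtain ⟨c, hc⟩ := hsq
    apply hm1
    refine ⟨c / P, ?_⟩
    field_simp
    linear_combination hc
  · intro heven
    rw [heven.neg_one_pow, one_mul]
    exact ⟨P, rfl⟩

end pieces

end Cfsg.Agent.Helper72.TSR2
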